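import Mathlib
import Cfsg.Agent.Lib.Helper94.OPStmt
import Cfsg.Agent.Lib.Helper44.NegPairs
import Cfsg.Agent.Lib.Helper44.WittND2
import Cfsg.Agent.Lib.Helper40.AltRank
import Cfsg.Agent.Lib.Helper10.HypINVOL

/-!
# S5989 / PFIXB (call by helper94)

An isometry `x` with `Fix x ≤ (x - 1) V`, `(x - 1) ^ 3 = 0` and `dim (x - 1) ^ 2 V ≤ 2` stabilising
a nondegenerate subspace of odd dimension `m` forces `m ≡ 3 (mod 4)`.

Reusable: `finrank_map_add` (rank-nullity on a subspace) and `even_rank_on` (the rank of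
`A - 1` on an invariant nondegenerate subspace is even when `(A - 1)^3 = 0`, `2 ≠ 0`).
-/

set_option autoImplicit false

namespace Cfsg.Agent.Lib.Helper56.OPPFIXB

open Module QuadraticMap
open Cfsg.Agent.Lib.Helper44.QSpace Cfsg.Agent.Lib.Helper44.NegPairs
open Cfsg.Agent.Lib.Helper44.WittND Cfsg.Agent.Lib.Helper44.WittND2

universe u

section gen

variable {F : Type*} [Field F] {V : Type u} [AddCommGroup V] [Module F V] [FiniteDimensional F V]

/-- rank-nullity on a subspace -/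
theorem finrank_map_add (N : V →ₗ[F] V) (W : Submodule F V) :
    finrank F ↥(W.map N) + finrank F ↥(W ⊓ LinearMap.ker N) = finrank F ↥W := by
  have h1 := LinearMap.finrank_range_add_finrank_ker (N.domRestrict W)
  have h2 : LinearMap.range (N.domRestrict W) = W.map N := by
    ext v
    constructor
    · rintro ⟨w, rfl⟩
      exact ⟨w.1, w.2, rfl⟩
    · rintro ⟨w, hw, rfl⟩
      exact ⟨⟨w, hw⟩, rfl⟩
  have h3 : finrank F ↥(LinearMap.ker (N.domRestrict W)) = finrank F ↥(W ⊓ LinearMap.ker N) := by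
    rw [← Submodule.finrank_map_subtype_eq W (LinearMap.ker (N.domRestrict W))]
    have hEq : Submodule.map W.subtype (LinearMap.ker (N.domRestrict W)) = W ⊓ LinearMap.ker N := by
      ext v
      constructor
      · rintro ⟨w, hk, rfl⟩
        exact ⟨w.2, hk⟩
      · rintro ⟨hw, hk⟩
        exact ⟨⟨v, hw⟩, hk, rfl⟩
    rw [hEq]
  rw [h2, h3] at h1
  exact h1

/-- the rank of `N = A - 1` on an invariant nondegenerate subspace is even, for an isometry `A`
with `N ^ 3 = 0` on `W` and `2 ≠ 0`. -/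
theorem even_rank_on (h2 : (2 : F) ≠ 0) (Q : QuadraticForm F V) (A : V →ₗ[F] V)
    (hA : ∀ v, Q (A v) = Q v) (W : Submodule F V) (hW : NDsub Q W) (hAW : ∀ w ∈ W, A w ∈ W)
    (hN3 : ∀ v ∈ W, (A - LinearMap.id : V →ₗ[F] V) ((A - LinearMap.id : V →ₗ[F] V)
      ((A - LinearMap.id : V →ₗ[F] V) v)) = 0) :
    Even (finrank F ↥(W.map (A - LinearMap.id))) := by
  classical
  obtain ⟨N, hNdef⟩ : ∃ N : V →ₗ[F] V, N = A - LinearMap.id := ⟨_, rfl⟩
  rw [← hNdef] at hN3 ⊢
  have hN : ∀ v, N v = A v - v := by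
    intro v
    rw [hNdef, LinearMap.sub_apply, LinearMap.id_apply]
  have hpol : ∀ u v, polar Q (A u) (A v) = polar Q u v := by
    intro u v
    unfold polar
    rw [← map_add, hA, hA, hA]
  have hAinjW : ∀ w ∈ W, A w = 0 → w = 0 := by
    intro w hw h0
    apply hW w hw
    intro y _
    rw [← hpol, h0]
    simp [polar]
  have hsurj : ∀ w ∈ W, ∃ w₂ ∈ W, A w₂ = w := by
    have hinjr : Function.Injective (A.restrict hAW) := by
      rw [injective_iff_map_eq_zero]
      intro a ha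
      apply Subtype.ext
      apply hAinjW a.1 a.2
      have := congrArg (Subtype.val) ha
      simpa [LinearMap.restrict_apply] using this
    have hsur := LinearMap.injective_iff_surjective.mp hinjr
    intro w hw
    obtain ⟨w₂, hw₂⟩ := hsur ⟨w, hw⟩
    refine ⟨w₂.1, w₂.2, ?_⟩
    have := congrArg (Subtype.val) hw₂
    simpa [LinearMap.restrict_apply] using this
  have hNW : ∀ w ∈ W, N w ∈ W := by
    intro w hw
    rw [hN]
    exact W.sub_mem (hAW w hw) hw
  -- complement of `K = W ⊓ ker N` inside `W`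
  obtain ⟨C1, hC1⟩ := Submodule.exists_isCompl (W ⊓ LinearMap.ker N)
  obtain ⟨C, hCdef⟩ : ∃ C : Submodule F V, C = C1 ⊓ W := ⟨_, rfl⟩
  have hCW : C ≤ W := by rw [hCdef]; exact inf_le_right
  have hCK : C ⊓ (W ⊓ LinearMap.ker N) = ⊥ := by
    rw [eq_bot_iff, ← hC1.inf_eq_bot, hCdef]
    exact le_inf (inf_le_right) (le_trans inf_le_left inf_le_left)
  have hsupKC : (W ⊓ LinearMap.ker N) ⊔ C = W := by
    rw [hCdef, ← sup_inf_assoc_of_le C1 (inf_le_left : W ⊓ LinearMap.ker N ≤ W),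
      hC1.sup_eq_top, top_inf_eq]
  have hdimC : finrank F ↥C = finrank F ↥(W.map N) := by
    have h3 := Submodule.finrank_sup_add_finrank_inf_eq C (W ⊓ LinearMap.ker N)
    rw [hCK, finrank_bot, sup_comm, hsupKC] at h3
    have h4 := finrank_map_add N W
    omega
  rw [← hdimC]
  -- the alternating form
  obtain ⟨β, hβ⟩ : ∃ β : LinearMap.BilinForm F V, ∀ u v, β u v = polar Q (A u) v - polar Q u (A v) :=
    ⟨(polarBilin Q).compl₁₂ A LinearMap.id - (polarBilin Q).compl₁₂ LinearMap.id A, fun u v => by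
      simp [LinearMap.compl₁₂_apply]⟩
  apply Cfsg.Agent.Lib.Helper40.AltRank.even_finrank_of_alt (β.restrict C)
  · intro x
    show β x.1 x.1 = 0
    rw [hβ, polar_comm, sub_self]
  · intro u hu
    have hu' : ∀ v ∈ C, β u.1 v = 0 := fun v hv => hu ⟨v, hv⟩
    -- (a) vanishing on all of `W`
    have ha : ∀ v ∈ W, β u.1 v = 0 := by
      intro v hv
      rw [← hsupKC] at hv
      obtain ⟨k, hk, c, hc, rfl⟩ := Submodule.mem_sup.mp hv
      rw [map_add, hu' c hc, add_zero, hβ]
      have hAk : A k = k := by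
        have h5 := LinearMap.mem_ker.mp hk.2
        rw [hN] at h5
        exact sub_eq_zero.mp h5
      rw [hAk]
      conv_lhs => arg 1; rw [← hAk, hpol]
      exact sub_self _
    -- (b) `A (A u) = u`
    have hb : A (A u.1) - u.1 = 0 := by
      have huW : u.1 ∈ W := hCW u.2
      apply hW _ (W.sub_mem (hAW _ (hAW _ huW)) huW)
      intro y hy
      obtain ⟨y₁, hy₁, rfl⟩ := hsurj y hy
      obtain ⟨y₂, hy₂, rfl⟩ := hsurj y₁ hy₁
      rw [polar_sub_left, hpol, hpol]
      have h6 := ha (A y₂) (hAW _ hy₂)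
      rw [hβ, hpol] at h6
      exact h6
    -- (c) `N u = 0`
    have hc : N u.1 = 0 := by
      have h7 : N (N u.1) = (-2 : F) • N u.1 := by
        rw [hN (N u.1), hN u.1, map_sub]
        have h8 : A (A u.1) = u.1 := sub_eq_zero.mp hb
        rw [h8]
        module
      have h9 := hN3 u.1 (hCW u.2)
      rw [h7, map_smul, h7, smul_smul] at h9
      have h10 : ((-2 : F) * (-2)) ≠ 0 := by
        simp only [ne_eq, mul_eq_zero, neg_eq_zero, or_self]
        exact h2
      exact (smul_eq_zero.mp h9).resolve_left h10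
    -- (d)
    have hd : u.1 ∈ C ⊓ (W ⊓ LinearMap.ker N) :=
      ⟨u.2, hCW u.2, LinearMap.mem_ker.mpr hc⟩
    rw [hCK, Submodule.mem_bot] at hd
    exact Subtype.ext hd

theorem core (h2 : (2 : F) ≠ 0) (Q : QuadraticForm F V) (hS : Sep Q) (A : V →ₗ[F] V)
    (hA : ∀ v, Q (A v) = Q v) (W : Submodule F V) (hW : NDsub Q W) (hAW : ∀ w ∈ W, A w ∈ W)
    (hker : LinearMap.ker (A - LinearMap.id) ≤ LinearMap.range (A - LinearMap.id))
    (hN3 : ∀ v, (A - LinearMap.id : V →ₗ[F] V) ((A - LinearMap.id : V →ₗ[F] V)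
      ((A - LinearMap.id : V →ₗ[F] V) v)) = 0)
    (hr : finrank F ↥(LinearMap.range ((A - LinearMap.id) ∘ₗ (A - LinearMap.id))) ≤ 2)
    (hm : Odd (finrank F ↥W)) : finrank F ↥W % 4 = 3 := by
  have heven := even_rank_on h2 Q A hA W hW hAW (fun v _ => hN3 v)
  obtain ⟨N, hNdef⟩ : ∃ N : V →ₗ[F] V, N = A - LinearMap.id := ⟨_, rfl⟩
  rw [← hNdef] at hker hN3 hr heven
  have hN : ∀ v, N v = A v - v := by
    intro v
    rw [hNdef, LinearMap.sub_apply, LinearMap.id_apply]
  obtain ⟨W', hW'def⟩ : ∃ W', W' = LinearMap.BilinForm.orthogonal (polarBilin Q) W := ⟨_, rfl⟩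
  have hW'mem : ∀ v, v ∈ W' ↔ ∀ w ∈ W, polar Q w v = 0 := by
    intro v
    rw [hW'def]
    exact Iff.rfl
  have hinf : W ⊓ W' = ⊥ := by
    rw [eq_bot_iff]
    rintro x ⟨hx1, hx2⟩
    rw [Submodule.mem_bot]
    apply hW x hx1
    intro y hy
    rw [polar_comm]
    exact (hW'mem x).mp hx2 y hy
  have hfW' : finrank F W' = finrank F V - finrank F W := by
    rw [hW'def, LinearMap.BilinForm.finrank_orthogonal (nondegenerate_of_sep hS)]
  have hWle : finrank F W ≤ finrank F V := Submodule.finrank_le W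
  have hsup : W ⊔ W' = ⊤ := by
    apply Submodule.eq_top_of_finrank_eq
    have h3 := Submodule.finrank_sup_add_finrank_inf_eq W W'
    rw [hinf, finrank_bot] at h3
    omega
  have hpol : ∀ u v, polar Q (A u) (A v) = polar Q u v := by
    intro u v
    unfold polar
    rw [← map_add, hA, hA, hA]
  have hAinj : Function.Injective A := by
    rw [injective_iff_map_eq_zero]
    intro v hv
    apply hS
    intro y
    rw [← hpol, hv]
    simp [polar]
  have hsurj : ∀ w ∈ W, ∃ w₂ ∈ W, A w₂ = w := by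
    have hinjr : Function.Injective (A.restrict hAW) := by
      intro a b hab
      apply Subtype.ext
      apply hAinj
      have := congrArg (Subtype.val) hab
      simpa [LinearMap.restrict_apply] using this
    have hsur := LinearMap.injective_iff_surjective.mp hinjr
    intro w hw
    obtain ⟨w₂, hw₂⟩ := hsur ⟨w, hw⟩
    refine ⟨w₂.1, w₂.2, ?_⟩
    have := congrArg (Subtype.val) hw₂
    simpa [LinearMap.restrict_apply] using this
  have hAW' : ∀ v ∈ W', A v ∈ W' := by
    intro v hv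
    rw [hW'mem]
    intro w hw
    obtain ⟨w₂, hw₂, rfl⟩ := hsurj w hw
    rw [hpol]
    exact (hW'mem v).mp hv w₂ hw₂
  have hNW : ∀ w ∈ W, N w ∈ W := by
    intro w hw
    rw [hN]
    exact W.sub_mem (hAW w hw) hw
  have hNW' : ∀ w ∈ W', N w ∈ W' := by
    intro w hw
    rw [hN]
    exact W'.sub_mem (hAW' w hw) hw
  -- `W ⊓ ker N ≤ N W`
  have hK : W ⊓ LinearMap.ker N ≤ W.map N := by
    rintro u ⟨hu1, hu2⟩
    obtain ⟨v, rfl⟩ := LinearMap.mem_range.mp (hker hu2)
    have hv : v ∈ W ⊔ W' := by rw [hsup]; exact Submodule.mem_top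
    obtain ⟨w, hw, w', hw', rfl⟩ := Submodule.mem_sup.mp hv
    have h9 : N w' ∈ W ⊓ W' := by
      refine ⟨?_, hNW' w' hw'⟩
      have h10 : N w' = N (w + w') - N w := by rw [map_add]; abel
      rw [h10]
      exact W.sub_mem hu1 (hNW w hw)
    rw [hinf, Submodule.mem_bot] at h9
    rw [map_add, h9, add_zero]
    exact Submodule.mem_map_of_mem hw
  have e1 := finrank_map_add N W
  have e2 := finrank_map_add N (W.map N)
  have hmapW : W.map N ≤ W := by
    rintro _ ⟨w, hw, rfl⟩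
    exact hNW w hw
  have e3 : W.map N ⊓ LinearMap.ker N = W ⊓ LinearMap.ker N := by
    apply le_antisymm
    · exact inf_le_inf_right _ hmapW
    · exact le_inf hK inf_le_right
  rw [e3] at e2
  have e4 : finrank F ↥((W.map N).map N) ≤ 2 := by
    refine le_trans (Submodule.finrank_mono ?_) hr
    rintro _ ⟨_, ⟨w, _, rfl⟩, rfl⟩
    exact ⟨w, rfl⟩
  obtain ⟨k, hk⟩ := heven
  obtain ⟨j, hj⟩ := hm
  omega

end gen

theorem main : Cfsg.Agent.Lib.Helper94.OPStmt.PFixB.{u} := by
  intro F _ _ hodd d m hmodd x hx hfix hN3 hr W hWm hWnd hStab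
  have h2 : (2 : F) ≠ 0 := Cfsg.Agent.Lib.Helper10.HypINVOL.two_ne_zero_of_odd hodd
  have hS : Sep (plusQ d F) := sep_plusQ d
  have hA : ∀ v, plusQ d F (Matrix.toLin' (x : Matrix (Fin d ⊕ Fin d) (Fin d ⊕ Fin d) F) v)
      = plusQ d F v := by
    intro v
    rw [Matrix.toLin'_apply]
    exact hx v v
  have hWnd' : NDsub (plusQ d F) W := by
    intro y hy hyz
    by_contra hy0
    obtain ⟨-, z, hz, hz0⟩ := hWnd y hy hy0
    exact hz0 (hyz z hz)
  have hAW : ∀ w ∈ W, Matrix.toLin' (x : Matrix (Fin d ⊕ Fin d) (Fin d ⊕ Fin d) F) w ∈ W := by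
    intro w hw
    exact hStab (Submodule.mem_map_of_mem hw)
  have key := core h2 (plusQ d F) hS
    (Matrix.toLin' (x : Matrix (Fin d ⊕ Fin d) (Fin d ⊕ Fin d) F)) hA W hWnd' hAW hfix hN3 hr
    (by rw [hWm]; exact hmodd)
  rw [hWm] at key
  exact key

end Cfsg.Agent.Lib.Helper56.OPPFIXB
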