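import Mathlib
import Cfsg.Agent.Lib.Helper45.EPStmt
import Cfsg.Agent.Lib.Helper44.TPStmt
import Cfsg.Agent.Lib.Helper44.NegPairs
import Cfsg.Agent.Lib.Helper10.HypINVOL

/-!
# S5988 / NEGSQFIXB1 (call by helper45), third seat

`q ≡ 3 (mod 4)`, `x * x = -1`: an invariant nondegenerate `W` with `dim W ≡ 0 (mod 4)` is of plus
type.  Induction on `dim W / 4`: split off an invariant nondegenerate `4`-space `R` (two planes
`⟨v, x v⟩`, `⟨w, x w⟩`), which contains a singular `u ≠ 0` (`TsIn`) and hence the totally singular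
invariant plane `⟨u, x u⟩`; continue in `R^⊥ ⊓ W` (`SubPerp`).
-/

set_option autoImplicit false

namespace Cfsg.Agent.Lib.Helper56.EPNEGSQFIXB1

open Module QuadraticMap
open Cfsg.Agent.Lib.Helper44.TPStmt Cfsg.Agent.Lib.Helper44.NegPairs

universe u

theorem core (hSub : SubPerp.{u}) (hOrth : OrthSum.{u}) (hTsIn : TsIn.{u})
    (F : Type u) [Field F] [Fintype F] (hq : Fintype.card F % 4 = 3) (d : ℕ)
    (x : Matrix.GeneralLinearGroup (J d) F)
    (hx : x ∈ Cfsg.isometryGroup F (Cfsg.quadFormPlus d F))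
    (hx2 : (x : Matrix (J d) (J d) F) * (x : Matrix (J d) (J d) F) = -1) :
    ∀ (n : ℕ) (W : Submodule F (J d → F)), NDeg d F W → Stab (x : Matrix (J d) (J d) F) W →
      finrank F ↥W = 4 * n → Plus d F W := by
  classical
  obtain ⟨A, hAdef⟩ : ∃ A : (J d → F) →ₗ[F] (J d → F),
      A = Matrix.toLin' (x : Matrix (J d) (J d) F) := ⟨_, rfl⟩
  have hAQ : ∀ u, plusQ d F (A u) = plusQ d F u := by
    intro u
    rw [hAdef, Matrix.toLin'_apply]
    exact hx u u
  have hAA : ∀ u, A (A u) = -u := by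
    intro u
    rw [hAdef, ← Matrix.toLin'_mul_apply, hx2, Matrix.toLin'_apply, Matrix.neg_mulVec,
      Matrix.one_mulVec]
  have hpol : ∀ u w, polar (plusQ d F) (A u) (A w) = polar (plusQ d F) u w := by
    intro u w
    unfold polar
    rw [← map_add, hAQ, hAQ, hAQ]
  have hodd : Odd (Fintype.card F) := Nat.odd_iff.mpr (by omega)
  have h2 : (2 : F) ≠ 0 := Cfsg.Agent.Lib.Helper10.HypINVOL.two_ne_zero_of_odd hodd
  have hnsq : ¬ IsSquare (-1 : F) := by
    rw [FiniteField.isSquare_neg_one_iff]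
    omega
  have hBvAv : ∀ v, polar (plusQ d F) v (A v) = 0 := by
    intro v
    have h3 := hpol v (A v)
    rw [hAA, polar_neg_right, polar_comm] at h3
    have h4 : (2 : F) * polar (plusQ d F) v (A v) = 0 := by linear_combination -h3
    exact (mul_eq_zero.mp h4).resolve_left h2
  have hQpl : ∀ (v : J d → F) (a b : F),
      plusQ d F (a • v + b • A v) = (a * a + b * b) * plusQ d F v := by
    intro v a b
    have e2 : plusQ d F (a • v + b • A v) = plusQ d F (a • v) + plusQ d F (b • A v)
        + polar (plusQ d F) (a • v) (b • A v) := QuadraticMap.map_add (plusQ d F) _ _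
    have e3 : plusQ d F (a • v) = (a * a) • plusQ d F v := QuadraticMap.map_smul (plusQ d F) a v
    have e4 : plusQ d F (b • A v) = (b * b) • plusQ d F (A v) :=
      QuadraticMap.map_smul (plusQ d F) b (A v)
    have e5 : polar (plusQ d F) (a • v) (b • A v) = a • (b • polar (plusQ d F) v (A v)) := by
      rw [QuadraticMap.polar_smul_left, QuadraticMap.polar_smul_right]
    rw [e2, e3, e4, e5, hAQ, hBvAv]
    simp only [smul_eq_mul, mul_zero, add_zero]
    ring
  have hsq : ∀ a b : F, a * a + b * b = 0 → a = 0 ∧ b = 0 := by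
    intro a b hab
    have hb : b = 0 := by
      by_contra hb
      apply hnsq
      refine ⟨a / b, ?_⟩
      have h10 : a * a = -(b * b) := by linear_combination hab
      rw [div_mul_div_comm, h10, neg_div, div_self (mul_ne_zero hb hb)]
    refine ⟨?_, hb⟩
    rw [hb] at hab
    simpa using hab
  -- independence of `v`, `A v`
  have key : ∀ v : J d → F, v ≠ 0 → ∀ a b : F, a • v + b • A v = 0 → a = 0 ∧ b = 0 := by
    intro v hv a b hs
    have hAs : a • A v - b • v = 0 := by
      have h5 := congrArg A hs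
      rw [map_add, map_smul, map_smul, hAA, map_zero] at h5
      rw [← h5]
      module
    have h7 : (a * a + b * b) • v = 0 := by
      have h8 : (a * a + b * b) • v = a • (a • v + b • A v) - b • (a • A v - b • v) := by
        module
      rw [h8, hs, hAs, smul_zero, smul_zero, sub_zero]
    exact hsq a b ((smul_eq_zero.mp h7).resolve_right hv)
  -- the plane `⟨v, A v⟩`
  have hSmem : ∀ (v y : J d → F), y ∈ Submodule.span F (Set.range ![v, A v]) ↔
      ∃ a b : F, a • v + b • A v = y := by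
    intro v y
    rw [Submodule.mem_span_range_iff_exists_fun]
    constructor
    · rintro ⟨c, hc⟩
      refine ⟨c 0, c 1, ?_⟩
      rw [← hc, Fin.sum_univ_two]
      rfl
    · rintro ⟨a, b, hab⟩
      refine ⟨![a, b], ?_⟩
      rw [← hab, Fin.sum_univ_two]
      rfl
  have hSdim : ∀ v : J d → F, v ≠ 0 →
      finrank F ↥(Submodule.span F (Set.range ![v, A v])) = 2 := by
    intro v hv
    have hli : LinearIndependent F ![v, A v] := by
      rw [LinearIndependent.pair_iff]
      intro s t hst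
      exact key v hv s t hst
    rw [finrank_span_eq_card hli, Fintype.card_fin]
  have hSstab : ∀ v : J d → F,
      Stab (x : Matrix (J d) (J d) F) (Submodule.span F (Set.range ![v, A v])) := by
    intro v
    rintro _ ⟨y, hy, rfl⟩
    obtain ⟨a, b, rfl⟩ := (hSmem v y).mp hy
    rw [← hAdef, map_add, map_smul, map_smul, hAA, hSmem]
    refine ⟨-b, a, ?_⟩
    module
  have hSle : ∀ (v : J d → F) (Y : Submodule F (J d → F)), v ∈ Y → A v ∈ Y →
      Submodule.span F (Set.range ![v, A v]) ≤ Y := by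
    intro v Y hv hAv y hy
    obtain ⟨a, b, rfl⟩ := (hSmem v y).mp hy
    exact Y.add_mem (Y.smul_mem a hv) (Y.smul_mem b hAv)
  have hSnd : ∀ v : J d → F, plusQ d F v ≠ 0 →
      NDeg d F (Submodule.span F (Set.range ![v, A v])) := by
    intro v hQv y hy hy0
    obtain ⟨a, b, rfl⟩ := (hSmem v y).mp hy
    have hab : a * a + b * b ≠ 0 := by
      intro h
      obtain ⟨ha, hb⟩ := hsq a b h
      apply hy0
      rw [ha, hb, zero_smul, zero_smul, add_zero]
    have hself : polar (plusQ d F) (a • v + b • A v) (a • v + b • A v) ≠ 0 := by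
      have e : polar (plusQ d F) (a • v + b • A v) (a • v + b • A v)
          = 2 * ((a * a + b * b) * plusQ d F v) := by
        rw [← hQpl v a b]
        unfold polar
        have e1 : (a • v + b • A v) + (a • v + b • A v) = (2 : F) • (a • v + b • A v) := by
          module
        have e2 : plusQ d F ((2 : F) • (a • v + b • A v))
            = ((2 : F) * 2) • plusQ d F (a • v + b • A v) :=
          QuadraticMap.map_smul (plusQ d F) 2 _
        rw [e1, e2, smul_eq_mul]
        ring
      rw [e]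
      exact mul_ne_zero h2 (mul_ne_zero hab hQv)
    exact ⟨⟨_, hy, hself⟩, ⟨_, hy, hself⟩⟩
  have hSts : ∀ v : J d → F, plusQ d F v = 0 →
      TSub d F (Submodule.span F (Set.range ![v, A v])) := by
    intro v hQv y hy
    obtain ⟨a, b, rfl⟩ := (hSmem v y).mp hy
    show plusQ d F (a • v + b • A v) = 0
    rw [hQpl, hQv, mul_zero]
  -- a nonsingular vector in a nonzero nondegenerate subspace
  have hexQ : ∀ Y : Submodule F (J d → F), NDeg d F Y → Y ≠ ⊥ → ∃ v ∈ Y, plusQ d F v ≠ 0 := by
    intro Y hY hne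
    by_contra hcon
    push Not at hcon
    obtain ⟨w, hw, hw0⟩ := (Submodule.ne_bot_iff Y).mp hne
    obtain ⟨⟨y, hy, hyw⟩, _⟩ := hY w hw hw0
    apply hyw
    show polar (plusQ d F) y w = 0
    unfold polar
    rw [hcon _ (Y.add_mem hy hw), hcon y hy, hcon w hw]
    simp
  have hAst : ∀ Y : Submodule F (J d → F), Stab (x : Matrix (J d) (J d) F) Y →
      ∀ w ∈ Y, A w ∈ Y := by
    intro Y hY w hw
    rw [hAdef]
    exact hY (Submodule.mem_map_of_mem hw)
  intro n
  induction n with
  | zero =>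
    intro W _ _ hdim
    refine ⟨⊥, bot_le, ?_, ?_⟩
    · intro w hw
      rw [Submodule.mem_bot] at hw
      subst hw
      exact map_zero (plusQ d F)
    · rw [finrank_bot, hdim]
  | succ n ih =>
    intro W hND hSt hdim
    have hWne : W ≠ ⊥ := by
      intro h
      rw [h, finrank_bot] at hdim
      omega
    obtain ⟨v, hvW, hQv⟩ := hexQ W hND hWne
    have hv0 : v ≠ 0 := by
      intro h
      apply hQv
      rw [h]
      exact map_zero (plusQ d F)
    obtain ⟨S1, hS1⟩ : ∃ S1 : Submodule F (J d → F),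
        S1 = Submodule.span F (Set.range ![v, A v]) := ⟨_, rfl⟩
    have hS1W : S1 ≤ W := by rw [hS1]; exact hSle v W hvW (hAst W hSt v hvW)
    have hS1nd : NDeg d F S1 := by rw [hS1]; exact hSnd v hQv
    have hS1st : Stab (x : Matrix (J d) (J d) F) S1 := by rw [hS1]; exact hSstab v
    have hS1dim : finrank F ↥S1 = 2 := by rw [hS1]; exact hSdim v hv0
    obtain ⟨W', hW'le, hND', -, horth', hdim', hStab'⟩ := hSub F d W S1 hND hS1nd hS1W
    have hSt' : Stab (x : Matrix (J d) (J d) F) W' := hStab' x hx hSt hS1st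
    have hW'ne : W' ≠ ⊥ := by
      intro h
      rw [h, finrank_bot] at hdim'
      omega
    obtain ⟨w, hwW', hQw⟩ := hexQ W' hND' hW'ne
    have hw0 : w ≠ 0 := by
      intro h
      apply hQw
      rw [h]
      exact map_zero (plusQ d F)
    obtain ⟨S2, hS2⟩ : ∃ S2 : Submodule F (J d → F),
        S2 = Submodule.span F (Set.range ![w, A w]) := ⟨_, rfl⟩
    have hS2W' : S2 ≤ W' := by rw [hS2]; exact hSle w W' hwW' (hAst W' hSt' w hwW')
    have hS2nd : NDeg d F S2 := by rw [hS2]; exact hSnd w hQw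
    have hS2st : Stab (x : Matrix (J d) (J d) F) S2 := by rw [hS2]; exact hSstab w
    have hS2dim : finrank F ↥S2 = 2 := by rw [hS2]; exact hSdim w hw0
    obtain ⟨hRnd, -, hRdim⟩ := hOrth F d S1 S2 hS1nd hS2nd
      (fun a ha b hb => horth' a ha b (hS2W' hb))
    have hRW : S1 ⊔ S2 ≤ W := sup_le hS1W (hS2W'.trans hW'le)
    have hRst : Stab (x : Matrix (J d) (J d) F) (S1 ⊔ S2) := by
      rintro _ ⟨y, hy, rfl⟩
      obtain ⟨s1, hs1, s2, hs2, rfl⟩ := Submodule.mem_sup.mp hy
      rw [map_add]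
      exact Submodule.add_mem_sup (hS1st (Submodule.mem_map_of_mem hs1))
        (hS2st (Submodule.mem_map_of_mem hs2))
    obtain ⟨U1, hU1R, hU1ts, hU1dim⟩ := hTsIn F d (S1 ⊔ S2) 1 hRnd (by omega)
    have hU1ne : U1 ≠ ⊥ := by
      intro h
      rw [h, finrank_bot] at hU1dim
      omega
    obtain ⟨t, htU1, ht0⟩ := (Submodule.ne_bot_iff U1).mp hU1ne
    have hQt : plusQ d F t = 0 := hU1ts t htU1
    obtain ⟨T, hT⟩ : ∃ T : Submodule F (J d → F),
        T = Submodule.span F (Set.range ![t, A t]) := ⟨_, rfl⟩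
    have hTR : T ≤ S1 ⊔ S2 := by
      rw [hT]
      exact hSle t _ (hU1R htU1) (hAst _ hRst t (hU1R htU1))
    have hTts : TSub d F T := by rw [hT]; exact hSts t hQt
    have hTdim : finrank F ↥T = 2 := by rw [hT]; exact hSdim t ht0
    obtain ⟨Y', hY'le, hNDY', hinfY', horthY', hdimY', hStabY'⟩ :=
      hSub F d W (S1 ⊔ S2) hND hRnd hRW
    have hStY' : Stab (x : Matrix (J d) (J d) F) Y' := hStabY' x hx hSt hRst
    obtain ⟨U', hU'le, hU'ts, hU'dim⟩ := ih Y' hNDY' hStY' (by omega)
    refine ⟨T ⊔ U', sup_le (hTR.trans hRW) (hU'le.trans hY'le), ?_, ?_⟩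
    · intro y hy
      obtain ⟨a, ha, b, hb, rfl⟩ := Submodule.mem_sup.mp hy
      show plusQ d F (a + b) = 0
      have e1 : plusQ d F (a + b) = plusQ d F a + plusQ d F b + polar (plusQ d F) a b :=
        QuadraticMap.map_add (plusQ d F) _ _
      have e2 : polar (plusQ d F) a b = 0 := horthY' a (hTR ha) b (hU'le hb)
      have e3 : plusQ d F a = 0 := hTts a ha
      have e4 : plusQ d F b = 0 := hU'ts b hb
      rw [e1, e2, e3, e4]
      simp
    · have hinf : T ⊓ U' = ⊥ := by
        rw [eq_bot_iff, ← hinfY']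
        exact inf_le_inf hTR hU'le
      have h11 := Submodule.finrank_sup_add_finrank_inf_eq T U'
      rw [hinf, finrank_bot, hTdim] at h11
      omega

/-- NEGSQFIXB1, from the landed all-`q` pieces `SubPerp`, `OrthSum`, `TsIn` of `TPStmt`. -/
theorem main (hSub : SubPerp.{u}) (hOrth : OrthSum.{u}) (hTsIn : TsIn.{u}) :
    Cfsg.Agent.Lib.Helper45.EPStmt.NegSqFixB1.{u} := by
  intro F _ _ hq d x hx hx2 W hND hStab hdim
  obtain ⟨n, hn⟩ : ∃ n, finrank F ↥W = 4 * n := ⟨finrank F ↥W / 4, by omega⟩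
  exact core hSub hOrth hTsIn F hq d x hx hx2 n W hND hStab hn

end Cfsg.Agent.Lib.Helper56.EPNEGSQFIXB1
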