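import Mathlib

/-!
# Fast literal matrices over `ZMod p`

A matrix indexed by `Fin r ⊕ Fin n` (the index type of the Chevalley matrix groups) over `ZMod p`
is given by a list of rows of natural numbers; products are computed on the lists, so that matrix
identities between literals reduce to equalities of lists of numerals, which the kernel decides
quickly.
-/

set_option autoImplicit false

namespace Cfsg.Agent.Lib.Helper56.FastMat

/-- Position of a coordinate. -/
def enc {r n : ℕ} : Fin r ⊕ Fin n → ℕ
  | Sum.inl i => i.val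
  | Sum.inr u => r + u.val

theorem enc_lt {r n : ℕ} (i : Fin r ⊕ Fin n) : enc i < r + n := by
  rcases i with i | u
  · have := i.isLt
    simp only [enc]; omega
  · have := u.isLt
    simp only [enc]; omega

/-- The matrix over `ZMod p` with the given rows. -/
def toMat (r n p : ℕ) (L : List (List ℕ)) : Matrix (Fin r ⊕ Fin n) (Fin r ⊕ Fin n) (ZMod p) :=
  fun i j => (((L.getD (enc i) []).getD (enc j) 0 : ℕ) : ZMod p)

/-- The first `n` entries of a row, reduced modulo `p` and packed in base `W`. -/
def packRow (W p : ℕ) : ℕ → List ℕ → ℕ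
  | 0, _ => 0
  | _ + 1, [] => 0
  | n + 1, b :: r => b % p + W * packRow W p n r

theorem packRow_eq (W p : ℕ) : ∀ (n : ℕ) (row : List ℕ),
    packRow W p n row = ∑ j ∈ Finset.range n, (row.getD j 0 % p) * W ^ j
  | 0, _ => by simp [packRow]
  | n + 1, [] => by simp [packRow]
  | n + 1, b :: r => by
    rw [packRow, packRow_eq W p n r, Finset.sum_range_succ', Finset.mul_sum]
    simp only [List.getD_cons_succ, List.getD_cons_zero, pow_zero, mul_one]
    rw [add_comm]
    congr 1
    apply Finset.sum_congr rfl
    intro j _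
    ring

/-- The first `m` rows of `B`, packed. -/
def packM (W m p : ℕ) (B : List (List ℕ)) : List ℕ :=
  (List.range m).map fun k => packRow W p m (B.getD k [])

/-- `∑ (row k % p) * Bp k`. -/
def dotP (p : ℕ) : List ℕ → List ℕ → ℕ
  | a :: r, b :: Bs => a % p * b + dotP p r Bs
  | _, _ => 0

theorem dotP_nil_left (p : ℕ) (l : List ℕ) : dotP p [] l = 0 := by
  simp [dotP]

theorem dotP_nil_right (p : ℕ) (l : List ℕ) : dotP p l [] = 0 := by
  cases l <;> simp [dotP]

theorem dotP_eq (p : ℕ) (f : ℕ → ℕ) : ∀ (n s : ℕ) (row : List ℕ),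
    dotP p row ((List.range' s n).map f) = ∑ t ∈ Finset.range n, (row.getD t 0 % p) * f (s + t)
  | 0, s, row => by
    rw [List.range'_zero, List.map_nil, dotP_nil_right, Finset.sum_range_zero]
  | n + 1, s, [] => by
    rw [dotP_nil_left]
    simp
  | n + 1, s, a :: r => by
    rw [List.range'_succ, List.map_cons, dotP, dotP_eq p f n (s + 1) r, Finset.sum_range_succ']
    simp only [List.getD_cons_succ, List.getD_cons_zero, add_zero]
    rw [add_comm]
    congr 1
    apply Finset.sum_congr rfl
    intro t _
    have e : s + 1 + t = s + (t + 1) := by omega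
    rw [e]

/-- The first `n` digits in base `W`, reduced modulo `p`. -/
def unpack (W p : ℕ) : ℕ → ℕ → List ℕ
  | 0, _ => []
  | n + 1, x => (x % W % p) :: unpack W p n (x / W)

theorem unpack_getD (W p : ℕ) : ∀ (n x j : ℕ), j < n →
    (unpack W p n x).getD j 0 = x / W ^ j % W % p
  | 0, _, _, h => absurd h (Nat.not_lt_zero _)
  | n + 1, x, 0, _ => by simp [unpack]
  | n + 1, x, j + 1, h => by
    rw [unpack, List.getD_cons_succ, unpack_getD W p n (x / W) j (by omega), Nat.div_div_eq_div_mul,
      pow_succ']

theorem digit_sum (W : ℕ) : ∀ (n : ℕ) (c : ℕ → ℕ) (j : ℕ), j < n → (∀ t < n, c t < W) →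
    (∑ t ∈ Finset.range n, c t * W ^ t) / W ^ j % W = c j := by
  intro n
  induction n with
  | zero => intro c j h; omega
  | succ n ih =>
    intro c j hj hc
    have hW : 0 < W := lt_of_le_of_lt (Nat.zero_le _) (hc 0 (by omega))
    have e : ∑ t ∈ Finset.range (n + 1), c t * W ^ t
        = c 0 + W * ∑ t ∈ Finset.range n, c (t + 1) * W ^ t := by
      rw [Finset.sum_range_succ', Finset.mul_sum, pow_zero, mul_one, add_comm]
      congr 1
      apply Finset.sum_congr rfl
      intro t _
      ring
    rw [e]
    cases j with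
    | zero =>
      rw [pow_zero, Nat.div_one, Nat.add_mul_mod_self_left]
      exact Nat.mod_eq_of_lt (hc 0 (by omega))
    | succ j =>
      rw [pow_succ', ← Nat.div_div_eq_div_mul, Nat.add_mul_div_left _ _ hW,
        Nat.div_eq_of_lt (hc 0 (by omega)), zero_add]
      exact ih (fun t => c (t + 1)) j (by omega) (fun t ht => hc (t + 1) (by omega))

/-- Product of two `m × m` matrices given by rows, reduced modulo `p`, computed with rows packed
in base `W`. -/
def mulW (W m p : ℕ) (A B : List (List ℕ)) : List (List ℕ) :=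
  A.map fun row => unpack W p m (dotP p row (packM W m p B))

/-- Product of two `m × m` matrices given by rows, reduced modulo `p`. -/
def mulL (m p : ℕ) (A B : List (List ℕ)) : List (List ℕ) :=
  mulW (m * (p - 1) ^ 2 + 1) m p A B

theorem getD_map_getD (f : List ℕ → List ℕ) (A : List (List ℕ)) (i j : ℕ)
    (hf : (f []).getD j 0 = 0) :
    ((A.map f).getD i []).getD j 0 = (f (A.getD i [])).getD j 0 := by
  have e1 : (A.map f).getD i [] = ((A[i]?).map f).getD [] := by
    rw [List.getD_eq_getElem?_getD, List.getElem?_map]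
  have e2 : A.getD i [] = (A[i]?).getD [] := List.getD_eq_getElem?_getD
  rw [e1, e2]
  cases h : A[i]? with
  | none =>
    show ([] : List ℕ).getD j 0 = (f []).getD j 0
    rw [hf]; rfl
  | some row => rfl

/-- The identity matrix as rows. -/
def idL (m : ℕ) : List (List ℕ) :=
  (List.range m).map fun i => (List.range m).map fun j => if i = j then 1 else 0

theorem getD_map_range {β : Type*} (m : ℕ) (f : ℕ → β) (d : β) (i : ℕ) (hi : i < m) :
    ((List.range m).map f).getD i d = f i := by
  rw [List.getD_eq_getElem?_getD, List.getElem?_map, List.getElem?_range hi]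
  rfl

theorem sum_map_range {M : Type*} [AddCommMonoid M] (m : ℕ) (f : ℕ → M) :
    ((List.range m).map f).sum = ∑ k ∈ Finset.range m, f k := by
  induction m with
  | zero => simp
  | succ m ih => rw [List.range_succ, List.map_append, List.sum_append, ih, Finset.sum_range_succ]; simp

theorem sum_sum_enc {M : Type*} [AddCommMonoid M] (r n : ℕ) (f : ℕ → M) :
    ∑ k : Fin r ⊕ Fin n, f (enc k) = ∑ k ∈ Finset.range (r + n), f k := by
  rw [Fintype.sum_sum_type, Finset.sum_range_add]
  congr 1
  · exact Fin.sum_univ_eq_sum_range (fun k => f k) r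
  · exact Fin.sum_univ_eq_sum_range (fun k => f (r + k)) n

/-- The digits of the packed scalar products are the entries of the product. -/
theorem dot_digit (W r n p : ℕ) [NeZero p] (hW : (r + n) * (p - 1) ^ 2 < W)
    (A B : List (List ℕ)) (i j : Fin r ⊕ Fin n) :
    ((dotP p (A.getD (enc i) []) (packM W (r + n) p B) / W ^ enc j % W % p : ℕ) : ZMod p) =
      ∑ k : Fin r ⊕ Fin n, toMat r n p A i k * toMat r n p B k j := by
  have hp : 0 < p := Nat.pos_of_ne_zero (NeZero.ne p)
  have hj := enc_lt j
  unfold toMat packM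
  rw [List.range_eq_range', dotP_eq p (fun k => packRow W p (r + n) (B.getD k [])) (r + n) 0]
  have e1 : ∑ t ∈ Finset.range (r + n), ((A.getD (enc i) []).getD t 0 % p) *
        packRow W p (r + n) (B.getD (0 + t) [])
      = ∑ u ∈ Finset.range (r + n), (∑ t ∈ Finset.range (r + n),
          ((A.getD (enc i) []).getD t 0 % p) * ((B.getD t []).getD u 0 % p)) * W ^ u := by
    rw [Finset.sum_congr rfl (fun t _ => by rw [zero_add, packRow_eq, Finset.mul_sum]),
      Finset.sum_comm]
    apply Finset.sum_congr rfl
    intro u _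
    rw [Finset.sum_mul]
    apply Finset.sum_congr rfl
    intro t _
    ring
  rw [e1]
  have hb : ∀ u < r + n, ∑ t ∈ Finset.range (r + n),
      ((A.getD (enc i) []).getD t 0 % p) * ((B.getD t []).getD u 0 % p) < W := by
    intro u _
    refine lt_of_le_of_lt ?_ hW
    have h1 : ∀ t ∈ Finset.range (r + n),
        ((A.getD (enc i) []).getD t 0 % p) * ((B.getD t []).getD u 0 % p) ≤ (p - 1) ^ 2 := by
      intro t _
      have ha : (A.getD (enc i) []).getD t 0 % p ≤ p - 1 :=
        Nat.le_sub_one_of_lt (Nat.mod_lt _ hp)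
      have hb' : (B.getD t []).getD u 0 % p ≤ p - 1 :=
        Nat.le_sub_one_of_lt (Nat.mod_lt _ hp)
      rw [pow_two]
      exact Nat.mul_le_mul ha hb'
    have h2 := Finset.sum_le_sum h1
    rw [Finset.sum_const, Finset.card_range, smul_eq_mul] at h2
    exact h2
  rw [digit_sum W (r + n) _ (enc j) hj hb, ZMod.natCast_mod, Nat.cast_sum]
  rw [← sum_sum_enc r n (fun k => (((A.getD (enc i) []).getD k 0 % p * ((B.getD k []).getD (enc j) 0 % p) : ℕ) :
    ZMod p))]
  apply Finset.sum_congr rfl
  intro k _
  rw [Nat.cast_mul, ZMod.natCast_mod, ZMod.natCast_mod]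

theorem toMat_mulW (W r n p : ℕ) [NeZero p] (hW : (r + n) * (p - 1) ^ 2 < W)
    (A B : List (List ℕ)) :
    toMat r n p (mulW W (r + n) p A B) = toMat r n p A * toMat r n p B := by
  ext i j
  rw [Matrix.mul_apply, ← dot_digit W r n p hW A B i j]
  have hj := enc_lt j
  unfold toMat mulW
  have h0 : (unpack W p (r + n) (dotP p [] (packM W (r + n) p B))).getD (enc j) 0 = 0 := by
    rw [unpack_getD _ _ _ _ _ hj, dotP_nil_left]
    simp
  rw [getD_map_getD _ A (enc i) (enc j) h0, unpack_getD _ _ _ _ _ hj]

/-- Check `x / W ^ j % W ≡ c j` modulo `p` for `j < n`. -/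
def chkRow (W p : ℕ) : ℕ → List ℕ → ℕ → Bool
  | 0, _, _ => true
  | n + 1, [], x => Nat.beq (x % W % p) 0 && chkRow W p n [] (x / W)
  | n + 1, c :: r, x => Nat.beq (x % W % p) (c % p) && chkRow W p n r (x / W)

theorem chkRow_sound (W p : ℕ) : ∀ (n : ℕ) (c : List ℕ) (x : ℕ), chkRow W p n c x = true →
    ∀ j < n, x / W ^ j % W % p = c.getD j 0 % p
  | 0, _, _, _, j, hj => absurd hj (Nat.not_lt_zero _)
  | n + 1, [], x, h, j, hj => by
    simp only [chkRow, Bool.and_eq_true] at h
    cases j with
    | zero =>
      rw [pow_zero, Nat.div_one, Nat.eq_of_beq_eq_true h.1]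
      rfl
    | succ j =>
      have := chkRow_sound W p n [] (x / W) h.2 j (by omega)
      rw [pow_succ', ← Nat.div_div_eq_div_mul, this]
      rfl
  | n + 1, c :: r, x, h, j, hj => by
    simp only [chkRow, Bool.and_eq_true] at h
    cases j with
    | zero =>
      rw [pow_zero, Nat.div_one, Nat.eq_of_beq_eq_true h.1]
      rfl
    | succ j =>
      have := chkRow_sound W p n r (x / W) h.2 j (by omega)
      rw [pow_succ', ← Nat.div_div_eq_div_mul, this]
      rfl

/-- Check of the first `n` rows of a product `A * B = C` modulo `p`, the right factor being given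
by its packed rows. -/
def chkM (W p m : ℕ) : ℕ → List (List ℕ) → List (List ℕ) → List ℕ → Bool
  | 0, _, _, _ => true
  | n + 1, A, C, Bp =>
    chkRow W p m (C.headD []) (dotP p (A.headD []) Bp) && chkM W p m n A.tail C.tail Bp

theorem getD_tail_succ {β : Type*} (l : List β) (i : ℕ) (d : β) :
    l.tail.getD i d = l.getD (i + 1) d := by
  cases l <;> rfl

theorem headD_eq_getD_zero {β : Type*} (l : List β) (d : β) : l.headD d = l.getD 0 d := by
  cases l <;> rfl

theorem chkM_rows (W p m : ℕ) : ∀ (n : ℕ) (A C : List (List ℕ)) (Bp : List ℕ),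
    chkM W p m n A C Bp = true →
    ∀ i < n, chkRow W p m (C.getD i []) (dotP p (A.getD i []) Bp) = true
  | 0, _, _, _, _, i, hi => absurd hi (Nat.not_lt_zero _)
  | n + 1, A, C, Bp, h, i, hi => by
    simp only [chkM, Bool.and_eq_true] at h
    cases i with
    | zero =>
      rw [← headD_eq_getD_zero, ← headD_eq_getD_zero]
      exact h.1
    | succ i =>
      have := chkM_rows W p m n A.tail C.tail Bp h.2 i (by omega)
      rw [getD_tail_succ, getD_tail_succ] at this
      exact this

/-- Soundness of the product check. -/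
theorem chkM_sound (W r n p : ℕ) [NeZero p] (hW : (r + n) * (p - 1) ^ 2 < W)
    (A B C : List (List ℕ))
    (h : chkM W p (r + n) (r + n) A C (packM W (r + n) p B) = true) :
    toMat r n p A * toMat r n p B = toMat r n p C := by
  ext i j
  rw [Matrix.mul_apply, ← dot_digit W r n p hW A B i j]
  have h1 := chkRow_sound W p (r + n) _ _
    (chkM_rows W p (r + n) (r + n) A C _ h (enc i) (enc_lt i)) (enc j) (enc_lt j)
  rw [h1, ZMod.natCast_mod]
  rfl

theorem toMat_mul (r n p : ℕ) [NeZero p] (A B : List (List ℕ)) :
    toMat r n p (mulL (r + n) p A B) = toMat r n p A * toMat r n p B :=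
  toMat_mulW _ r n p (Nat.lt_succ_self _) A B

theorem enc_injective {r n : ℕ} : Function.Injective (enc : Fin r ⊕ Fin n → ℕ) := by
  intro a b h
  rcases a with a | a <;> rcases b with b | b
  · simp only [enc] at h
    exact congrArg Sum.inl (Fin.ext h)
  · simp only [enc] at h
    have := a.isLt
    omega
  · simp only [enc] at h
    have := b.isLt
    omega
  · simp only [enc] at h
    exact congrArg Sum.inr (Fin.ext (by omega))

theorem toMat_one (r n p : ℕ) : toMat r n p (idL (r + n)) = 1 := by
  ext i j
  unfold toMat idL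
  rw [getD_map_range _ _ _ _ (enc_lt i), getD_map_range _ _ _ _ (enc_lt j), Matrix.one_apply]
  by_cases h : i = j
  · subst h
    simp
  · have h' : enc i ≠ enc j := fun e => h (enc_injective e)
    simp [h, h']

/-- Normal form of a list of rows. -/
def normL (m p : ℕ) (A : List (List ℕ)) : List (List ℕ) :=
  (List.range m).map fun i => (List.range m).map fun j => (A.getD i []).getD j 0 % p

theorem exists_enc {r n : ℕ} (i : ℕ) (hi : i < r + n) : ∃ a : Fin r ⊕ Fin n, enc a = i := by
  by_cases h : i < r
  · exact ⟨Sum.inl ⟨i, h⟩, rfl⟩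
  · exact ⟨Sum.inr ⟨i - r, by omega⟩, by simp only [enc]; omega⟩

theorem normL_eq_of_toMat_eq (r n p : ℕ) (A B : List (List ℕ))
    (h : toMat r n p A = toMat r n p B) : normL (r + n) p A = normL (r + n) p B := by
  unfold normL
  apply List.map_congr_left
  intro i hi
  apply List.map_congr_left
  intro j hj
  rw [List.mem_range] at hi hj
  obtain ⟨a, rfl⟩ := exists_enc (r := r) (n := n) i hi
  obtain ⟨b, rfl⟩ := exists_enc (r := r) (n := n) j hj
  have h1 := congrFun (congrFun h a) b
  unfold toMat at h1
  exact (ZMod.natCast_eq_natCast_iff' _ _ _).mp h1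

end Cfsg.Agent.Lib.Helper56.FastMat
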