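import Mathlib
import Cfsg.Agent.Lib.Helper40.HPStmt
import Cfsg.Agent.Lib.Helper56.EPNEGSQFIXB1
import Cfsg.Agent.Lib.Helper20.EPNEGSQFIXB2
import Cfsg.Agent.Lib.Helper21.TPPERP
import Cfsg.Agent.Lib.Helper21.TPSUBPERP
import Cfsg.Agent.Lib.Helper48.TPORTHSUM
import Cfsg.Agent.Lib.Helper16.TPTSIN

/-!
# S5974 / NEGSQFIX0 (call by helper40), third seat

`q ≡ 3 (mod 4)`, `4 ∣ m`, `x * x = -1`: `x` fixes a hyperbolic `m`-space.  The chain of invariant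
anisotropic planes of `Helper20.EPNEGSQFIXB2.chain` gives an invariant nondegenerate `W` of
dimension `m`; it is of plus type by `Helper56.EPNEGSQFIXB1.core`.
-/

set_option autoImplicit false

namespace Cfsg.Agent.Lib.Helper56.HPNEGSQFIX0

open Module
open Cfsg.Agent.Lib.Helper44.TPStmt

universe u

theorem main : Cfsg.Agent.Lib.Helper40.HPStmt.NegSqFix0.{u} := by
  intro F _ _ hq d m _ _ hm4 hmd x hx hx2
  obtain ⟨W, hSt, hND, hfr⟩ := Cfsg.Agent.Lib.Helper20.EPNEGSQFIXB2.chain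
    Cfsg.Agent.Lib.Helper21.TPPERP.perp Cfsg.Agent.Lib.Helper48.TPORTHSUM.main
    F hq d x hx hx2 (m / 2) (by omega)
  have hfr' : finrank F ↥W = m := by rw [hfr]; omega
  have hPlus : Plus d F W := Cfsg.Agent.Lib.Helper56.EPNEGSQFIXB1.core
    Cfsg.Agent.Lib.Helper21.TPSUBPERP.main Cfsg.Agent.Lib.Helper48.TPORTHSUM.main
    Cfsg.Agent.Lib.Helper16.TPTSIN.main F hq d x hx hx2 (m / 4) W hND hSt (by omega)
  exact ⟨W, (Cfsg.Agent.Lib.Helper40.HPStmt.hypJ_iff d m W).mpr ⟨hfr', hND, hPlus⟩, hSt⟩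

end Cfsg.Agent.Lib.Helper56.HPNEGSQFIX0
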