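import Mathlib
import Cfsg.Agent.Lib.Helper94.OMiPStmt
import Cfsg.Agent.Lib.Helper12.OMiPELTCM
import Cfsg.Agent.Lib.Helper44.Inv8
import Cfsg.Agent.Lib.Helper44.NegPairs
import Cfsg.Agent.Lib.Helper10.HypINVOL

/-!
# S5991 / MPELTC (sub-call by helper94), second seat

Derived from the landed `Helper12.OMiPELTCM.main : OMiStmt.PEltCM` (an element with a fixed vector
`u₁`, `Q u₁ = β`, `Fix x ≤ ⟨u₁⟩ + (x - 1) V`, `dim (x - 1)^2 V ≤ 1`) and the Witt index bound
`Helper44.Inv8.minus_ts_le`.
-/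

set_option autoImplicit false

namespace Cfsg.Agent.Lib.Helper56.MPELTC

open Module QuadraticMap
open Cfsg.Agent.Lib.Helper44.QSpace Cfsg.Agent.Lib.Helper44.NegPairs
open Cfsg.Agent.Lib.Helper94.OMiPStmt

universe u

theorem main : MPEltC.{u} := by
  intro F _ _ p _ _ hodd d hd hde a b hab β hβ
  classical
  have key : ∃ x : Matrix.GeneralLinearGroup (Mi d) F,
      x ∈ Cfsg.Geo.omegaGL (Cfsg.quadFormMinus (d - 1) F a b) ∧ orderOf x = p ∧
      ∃ u₁ : Mi d → F, u₁ ∈ FxM (x : Matrix (Mi d) (Mi d) F) ∧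
        Cfsg.quadFormMinus (d - 1) F a b u₁ = β ∧
        FxM (x : Matrix (Mi d) (Mi d) F) ≤
          Submodule.span F {u₁} ⊔ LinearMap.range (NM (x : Matrix (Mi d) (Mi d) F)) ∧
        Module.finrank F ↥(LinearMap.range
          (NM (x : Matrix (Mi d) (Mi d) F) ∘ₗ NM (x : Matrix (Mi d) (Mi d) F))) ≤ 1 :=
    Cfsg.Agent.Lib.Helper12.OMiPELTCM.main F p hodd d (by omega) hde a b hab β hβ
  obtain ⟨x, hxΩ, hord, u₁, hu₁F, hQu₁, hFix, hN2⟩ := key
  refine ⟨x, hxΩ, hord, hN2, ?_, ?_⟩
  all_goals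
    have h2 : (2 : F) ≠ 0 := Cfsg.Agent.Lib.Helper10.HypINVOL.two_ne_zero_of_odd hodd
    have hxiso : x ∈ Cfsg.isometryGroup F (Cfsg.quadFormMinus (d - 1) F a b) := by
      obtain ⟨y, -, rfl⟩ := hxΩ
      exact y.2
    obtain ⟨Q, hQdef⟩ : ∃ Q : QuadraticForm F (Mi d → F), Q = minusQ (d - 1) F a b := ⟨_, rfl⟩
    obtain ⟨A, hAdef⟩ : ∃ A : (Mi d → F) →ₗ[F] (Mi d → F),
        A = Matrix.toLin' (x : Matrix (Mi d) (Mi d) F) := ⟨_, rfl⟩
    obtain ⟨N, hNdef⟩ : ∃ N : (Mi d → F) →ₗ[F] (Mi d → F), N = A - LinearMap.id := ⟨_, rfl⟩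
    have hA : ∀ v, Q (A v) = Q v := by
      intro v
      rw [hQdef, hAdef, Matrix.toLin'_apply]
      exact hxiso v v
    have hN : ∀ v, N v = A v - v := by
      intro v
      rw [hNdef, LinearMap.sub_apply, LinearMap.id_apply]
    have hpol : ∀ u v, polar Q (A u) (A v) = polar Q u v := by
      intro u v
      unfold polar
      rw [← map_add, hA, hA, hA]
    have hfix : ∀ t, N t = 0 → A t = t := by
      intro t ht
      rw [hN] at ht
      exact sub_eq_zero.mp ht
    have horth : ∀ u t, N t = 0 → polar Q (N u) t = 0 := by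
      intro u t ht
      have e1 : polar Q (A u) t = polar Q u t := by
        calc polar Q (A u) t = polar Q (A u) (A t) := by rw [hfix t ht]
          _ = polar Q u t := hpol u t
      rw [hN u, polar_sub_left, e1, sub_self]
    have hsing : ∀ s ∈ LinearMap.range N ⊓ LinearMap.ker N, Q s = 0 := by
      rintro s ⟨⟨u, rfl⟩, hs2⟩
      have h6 := horth u (N u) (LinearMap.mem_ker.mp hs2)
      rw [polar_self'] at h6
      exact (mul_eq_zero.mp h6).resolve_left h2
    have hu₁N : N u₁ = 0 := by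
      have h7 : u₁ ∈ LinearMap.ker (Matrix.toLin' (x : Matrix (Mi d) (Mi d) F) - LinearMap.id) :=
        hu₁F
      rw [← hAdef, ← hNdef] at h7
      exact LinearMap.mem_ker.mp h7
    have hQu₁' : Q u₁ = β := by rw [hQdef]; exact hQu₁
    -- decomposition of fixed vectors
    have hdec : ∀ w, N w = 0 → ∃ t : F, ∃ n ∈ LinearMap.range N ⊓ LinearMap.ker N,
        w = t • u₁ + n := by
      intro w hw
      have h8 : w ∈ Submodule.span F {u₁} ⊔ LinearMap.range N := by
        have h9 : w ∈ LinearMap.ker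
            (Matrix.toLin' (x : Matrix (Mi d) (Mi d) F) - LinearMap.id) := by
          rw [← hAdef, ← hNdef]
          exact LinearMap.mem_ker.mpr hw
        have h10 := hFix h9
        rw [hNdef, hAdef]
        exact h10
      obtain ⟨y, hy, n, hn, rfl⟩ := Submodule.mem_sup.mp h8
      obtain ⟨t, rfl⟩ := Submodule.mem_span_singleton.mp hy
      refine ⟨t, n, ⟨hn, LinearMap.mem_ker.mpr ?_⟩, rfl⟩
      rw [map_add, map_smul, hu₁N, smul_zero, zero_add] at hw
      exact hw
  · -- rank
    have hS : Sep (minusQ (d - 1) F a b) := sep_minusQ h2 (d - 1) a b hab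
    have hT : finrank F ↥(LinearMap.range N ⊓ LinearMap.ker N) ≤ d - 1 := by
      apply Cfsg.Agent.Lib.Helper44.Inv8.minus_ts_le hS hab
      intro w hw
      have := hsing w hw
      rw [hQdef] at this
      exact this
    have hker : LinearMap.ker N ≤ Submodule.span F {u₁} ⊔ (LinearMap.range N ⊓ LinearMap.ker N) := by
      intro w hw
      obtain ⟨t, n, hn, rfl⟩ := hdec w (LinearMap.mem_ker.mp hw)
      exact Submodule.add_mem_sup (Submodule.smul_mem _ t (Submodule.mem_span_singleton_self u₁)) hn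
    have h11 := Submodule.finrank_mono hker
    have h12 := Submodule.finrank_add_le_finrank_add_finrank (Submodule.span F {u₁})
      (LinearMap.range N ⊓ LinearMap.ker N)
    have hu₁0 : u₁ ≠ 0 := by
      rintro rfl
      apply hβ
      rw [← hQu₁', map_zero]
    have h13 : finrank F ↥(Submodule.span F {u₁}) = 1 := finrank_span_singleton hu₁0
    have h14 := LinearMap.finrank_range_add_finrank_ker N
    have hV : finrank F (Mi d → F) = 2 * d := by
      rw [Module.finrank_fintype_fun_eq_card, Fintype.card_sum, Fintype.card_sum,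
        Fintype.card_fin, Fintype.card_fin]
      omega
    have hk : finrank F ↥(LinearMap.ker N) ≤ d := by
      calc finrank F ↥(LinearMap.ker N)
          ≤ finrank F ↥(Submodule.span F {u₁} ⊔ (LinearMap.range N ⊓ LinearMap.ker N)) := h11
        _ ≤ finrank F ↥(Submodule.span F {u₁})
            + finrank F ↥(LinearMap.range N ⊓ LinearMap.ker N) := h12
        _ ≤ 1 + (d - 1) := by
            rw [h13]
            exact Nat.add_le_add_left hT 1
        _ = d := by omega
    have h15 : d ≤ finrank F ↥(LinearMap.range N) := by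
      rw [hV] at h14
      omega
    rw [hNdef, hAdef] at h15
    exact h15
  · -- values on fixed vectors
    intro w hw
    have hwN : N w = 0 := by
      have h7 : w ∈ LinearMap.ker (Matrix.toLin' (x : Matrix (Mi d) (Mi d) F) - LinearMap.id) :=
        hw
      rw [← hAdef, ← hNdef] at h7
      exact LinearMap.mem_ker.mp h7
    obtain ⟨t, n, hn, rfl⟩ := hdec w hwN
    refine ⟨t, ?_⟩
    show minusQ (d - 1) F a b (t • u₁ + n) = t * t * β
    rw [← hQdef]
    have e2 : Q (t • u₁ + n) = Q (t • u₁) + Q n + polar Q (t • u₁) n := QuadraticMap.map_add Q _ _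
    have e3 : Q (t • u₁) = (t * t) • Q u₁ := QuadraticMap.map_smul Q t u₁
    obtain ⟨v, rfl⟩ := hn.1
    have e4 : polar Q (t • u₁) (N v) = 0 := by
      rw [QuadraticMap.polar_smul_left, polar_comm, horth v u₁ hu₁N, smul_zero]
    rw [e2, e3, e4, hsing _ hn, hQu₁', smul_eq_mul]
    ring

end Cfsg.Agent.Lib.Helper56.MPELTC
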