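import Mathlib
import Cfsg.Agent.Lib.Helper94.OMiPStmt
import Cfsg.Agent.Lib.Helper85.OPPFIXA
import Cfsg.Agent.Lib.Helper44.NegPairs
import Cfsg.Agent.Lib.Helper10.HypINVOL

/-!
# S5991 / MPFIXA (sub-call by helper94), second seat

Port of `OPStmt.PFixA` to the minus form through the abstract core `Helper85.OPPFIXA.core`.
-/

set_option autoImplicit false

namespace Cfsg.Agent.Lib.Helper56.MPFIXA

open Module QuadraticMap
open Cfsg.Agent.Lib.Helper44.QSpace Cfsg.Agent.Lib.Helper44.NegPairs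
open Cfsg.Agent.Lib.Helper44.WittND Cfsg.Agent.Lib.Helper44.WittND2
open Cfsg.Agent.Lib.Helper94.OMiPStmt

universe u

theorem main : MPFixA.{u} := by
  intro F _ _ hodd d m hd hmodd a b hab x hx hNN W hWm hWnd hStab
  have h2 : (2 : F) ≠ 0 := Cfsg.Agent.Lib.Helper10.HypINVOL.two_ne_zero_of_odd hodd
  have hS : Sep (minusQ (d - 1) F a b) := sep_minusQ h2 (d - 1) a b hab
  have hA : ∀ v, minusQ (d - 1) F a b (Matrix.toLin' (x : Matrix (Mi d) (Mi d) F) v)
      = minusQ (d - 1) F a b v := by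
    intro v
    rw [Matrix.toLin'_apply]
    exact hx v v
  have hWnd' : NDsub (minusQ (d - 1) F a b) W := by
    intro y hy hyz
    by_contra hy0
    obtain ⟨-, z, hz, hz0⟩ := hWnd y hy hy0
    exact hz0 (hyz z hz)
  have hAW : ∀ w ∈ W, Matrix.toLin' (x : Matrix (Mi d) (Mi d) F) w ∈ W := by
    intro w hw
    exact hStab (Submodule.mem_map_of_mem hw)
  have hV : finrank F (Mi d → F) = 2 * d := by
    rw [Module.finrank_fintype_fun_eq_card, Fintype.card_sum, Fintype.card_sum, Fintype.card_fin,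
      Fintype.card_fin]
    omega
  exact Cfsg.Agent.Lib.Helper85.OPPFIXA.core h2 (minusQ (d - 1) F a b) hS
    (Matrix.toLin' (x : Matrix (Mi d) (Mi d) F)) hA hNN W hWnd' hAW m hWm hmodd d hV

end Cfsg.Agent.Lib.Helper56.MPFIXA
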