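import Mathlib
import Cfsg.Agent.Lib.Helper94.OMiPStmt
import Cfsg.Agent.Lib.Helper94.EllPFIX
import Cfsg.Agent.Lib.Helper56.OPPFIXB
import Cfsg.Agent.Lib.Helper44.NegPairs
import Cfsg.Agent.Lib.Helper10.HypINVOL

/-!
# S5991 / MTYPE (sub-call by helper94), third seat

An isometry `x`, a stable nondegenerate `W'` of odd dimension with `(x - 1) ^ 2 = 0` on `W'` and
`dim W' ≤ 2 dim (x - 1) W' + 1`, and `Q (Fix x) ⊆ β F²`: then `W'` has type `β` and
`dim W' ≡ 1 (mod 4)`.
-/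

set_option autoImplicit false

namespace Cfsg.Agent.Lib.Helper56.MTYPE

open Module QuadraticMap
open Cfsg.Agent.Lib.Helper44.QSpace Cfsg.Agent.Lib.Helper44.NegPairs
open Cfsg.Agent.Lib.Helper44.WittND Cfsg.Agent.Lib.Helper44.WittND2
open Cfsg.Agent.Lib.Helper94.OMiPStmt

universe u

section gen

variable {F : Type*} [Field F] {V : Type u} [AddCommGroup V] [Module F V] [FiniteDimensional F V]

theorem core (h2 : (2 : F) ≠ 0) (Q : QuadraticForm F V) (A : V →ₗ[F] V)
    (hA : ∀ v, Q (A v) = Q v) (W : Submodule F V) (hW : NDsub Q W) (hAW : ∀ w ∈ W, A w ∈ W)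
    (hodd : Odd (finrank F ↥W))
    (hN2 : ∀ v ∈ W, (A - LinearMap.id : V →ₗ[F] V) ((A - LinearMap.id : V →ₗ[F] V) v) = 0)
    (hdim : finrank F ↥W ≤ 2 * finrank F ↥(W.map (A - LinearMap.id : V →ₗ[F] V)) + 1)
    (β : F) (hβ : ∀ w ∈ LinearMap.ker (A - LinearMap.id : V →ₗ[F] V), ∃ c : F, Q w = c * c * β) :
    (∃ S : Submodule F V, S ≤ W ∧ (∀ s ∈ S, Q s = 0) ∧ 2 * finrank F ↥S + 1 = finrank F ↥W ∧
      ∃ w ∈ W, (∀ s ∈ S, polar Q s w = 0) ∧ Q w = β) ∧ finrank F ↥W % 4 = 1 := by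
  classical
  have heven := Cfsg.Agent.Lib.Helper56.OPPFIXB.even_rank_on h2 Q A hA W hW hAW
    (fun v hv => by rw [hN2 v hv, map_zero])
  obtain ⟨N, hNdef⟩ : ∃ N : V →ₗ[F] V, N = A - LinearMap.id := ⟨_, rfl⟩
  rw [← hNdef] at hN2 hdim hβ heven
  have hN : ∀ v, N v = A v - v := by
    intro v
    rw [hNdef, LinearMap.sub_apply, LinearMap.id_apply]
  have hpol : ∀ u v, polar Q (A u) (A v) = polar Q u v := by
    intro u v
    unfold polar
    rw [← map_add, hA, hA, hA]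
  have hNW : ∀ w ∈ W, N w ∈ W := by
    intro w hw
    rw [hN]
    exact W.sub_mem (hAW w hw) hw
  have hSW : W.map N ≤ W := by
    rintro _ ⟨w, hw, rfl⟩
    exact hNW w hw
  have hSker : W.map N ≤ LinearMap.ker N := by
    rintro _ ⟨w, hw, rfl⟩
    exact LinearMap.mem_ker.mpr (hN2 w hw)
  have hfix : ∀ t, N t = 0 → A t = t := by
    intro t ht
    rw [hN] at ht
    exact sub_eq_zero.mp ht
  -- `polar (N u) t = 0` for fixed `t`
  have horth : ∀ u t, N t = 0 → polar Q (N u) t = 0 := by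
    intro u t ht
    have e1 : polar Q (A u) t = polar Q u t := by
      calc polar Q (A u) t = polar Q (A u) (A t) := by rw [hfix t ht]
        _ = polar Q u t := hpol u t
    rw [hN u, polar_sub_left, e1, sub_self]
  have hsing : ∀ s ∈ W.map N, Q s = 0 := by
    rintro _ ⟨u, hu, rfl⟩
    have h6 := horth u (N u) (hN2 u hu)
    rw [polar_self'] at h6
    exact (mul_eq_zero.mp h6).resolve_left h2
  have hhalf := Cfsg.Agent.Lib.Helper94.EllPFIX.ts_half Q hW hSW hsing
  have hdimW : 2 * finrank F ↥(W.map N) + 1 = finrank F ↥W := by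
    obtain ⟨j, hj⟩ := hodd
    omega
  have e1 := Cfsg.Agent.Lib.Helper56.OPPFIXB.finrank_map_add N W
  have hSK : W.map N ≤ W ⊓ LinearMap.ker N := le_inf hSW hSker
  have hlt : W.map N < W ⊓ LinearMap.ker N := by
    refine lt_of_le_of_ne hSK ?_
    intro heq
    rw [← heq] at e1
    omega
  obtain ⟨w, hwK, hwS⟩ := SetLike.exists_of_lt hlt
  have hwW : w ∈ W := hwK.1
  have hwN : N w = 0 := LinearMap.mem_ker.mp hwK.2
  have hworth : ∀ s ∈ W.map N, polar Q s w = 0 := by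
    rintro _ ⟨u, -, rfl⟩
    exact horth u w hwN
  have hQw : Q w ≠ 0 := by
    intro hQw0
    have hT : ∀ t ∈ W.map N ⊔ Submodule.span F {w}, Q t = 0 := by
      intro t ht
      obtain ⟨s, hs, y, hy, rfl⟩ := Submodule.mem_sup.mp ht
      obtain ⟨c, rfl⟩ := Submodule.mem_span_singleton.mp hy
      have e2 : Q (s + c • w) = Q s + Q (c • w) + polar Q s (c • w) := QuadraticMap.map_add Q _ _
      have e3 : Q (c • w) = (c * c) • Q w := QuadraticMap.map_smul Q c w
      rw [e2, e3, QuadraticMap.polar_smul_right, hsing s hs, hQw0, hworth s hs]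
      simp
    have hTW : W.map N ⊔ Submodule.span F {w} ≤ W :=
      sup_le hSW ((Submodule.span_singleton_le_iff_mem w W).mpr hwW)
    have hST : W.map N < W.map N ⊔ Submodule.span F {w} := by
      refine lt_of_le_of_ne le_sup_left ?_
      intro heq
      apply hwS
      rw [heq]
      exact Submodule.mem_sup_right (Submodule.mem_span_singleton_self w)
    have h7 := Submodule.finrank_lt_finrank_of_lt hST
    have h8 := Cfsg.Agent.Lib.Helper94.EllPFIX.ts_half Q hW hTW hT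
    omega
  obtain ⟨c, hc⟩ := hβ w hwK.2
  have hc0 : c ≠ 0 := by
    rintro rfl
    apply hQw
    rw [hc]
    ring
  refine ⟨⟨W.map N, hSW, hsing, hdimW, c⁻¹ • w, W.smul_mem _ hwW, ?_, ?_⟩, ?_⟩
  · intro s hs
    rw [QuadraticMap.polar_smul_right, hworth s hs, smul_zero]
  · have e3 : Q (c⁻¹ • w) = (c⁻¹ * c⁻¹) • Q w := QuadraticMap.map_smul Q c⁻¹ w
    rw [e3, hc, smul_eq_mul]
    field_simp
  · obtain ⟨k, hk⟩ := heven
    omega

end gen

theorem main : MType.{u} := by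
  intro F _ _ hodd d hd a b hab x hx W' hWnd hWodd hStab hN2 hdim β hβ
  have h2 : (2 : F) ≠ 0 := Cfsg.Agent.Lib.Helper10.HypINVOL.two_ne_zero_of_odd hodd
  have hA : ∀ v, minusQ (d - 1) F a b (Matrix.toLin' (x : Matrix (Mi d) (Mi d) F) v)
      = minusQ (d - 1) F a b v := by
    intro v
    rw [Matrix.toLin'_apply]
    exact hx v v
  have hWnd' : NDsub (minusQ (d - 1) F a b) W' := by
    intro y hy hyz
    by_contra hy0
    obtain ⟨-, z, hz, hz0⟩ := hWnd y hy hy0
    exact hz0 (hyz z hz)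
  have hAW : ∀ w ∈ W', Matrix.toLin' (x : Matrix (Mi d) (Mi d) F) w ∈ W' := by
    intro w hw
    exact hStab (Submodule.mem_map_of_mem hw)
  exact core h2 (minusQ (d - 1) F a b) (Matrix.toLin' (x : Matrix (Mi d) (Mi d) F)) hA W' hWnd'
    hAW hWodd hN2 hdim β hβ

end Cfsg.Agent.Lib.Helper56.MTYPE
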