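import Mathlib
import Cfsg.Agent.Lib.Helper56.GF8
import Cfsg.Agent.Lib.Helper5.SL2Card

/-!
# A presentation of `PSL(2, 8)`

`P = ⟨x, y | x², y³, (xy)⁷, w⟩` (with `w` a word of length 34) has 504 elements (verified coset
enumeration: `rep : Idx → P` is a bijection) and is isomorphic to `PSL(2, L)` for every field `L`
with eight elements (`iso_PSL`). The tables `nx_x`, `nx_y` give right multiplication by the
generators on the representatives (`closed_x`, `closed_y`).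
-/

set_option autoImplicit false

namespace Cfsg.Agent.Lib.Helper56.P504

open Cfsg.Agent.Lib.Helper56.GF8

abbrev fx : FreeGroup (Fin 2) := FreeGroup.of 0
abbrev fy : FreeGroup (Fin 2) := FreeGroup.of 1

abbrev rels : Set (FreeGroup (Fin 2)) :=
  {fx * fx,
   fy * fy * fy,
   fx * fy * fx * fy * fx * fy * fx * fy * fx * fy * fx * fy * fx * fy,
   fx * fy * fx * fy * fx * fy * fy * fx * fy * fx * fy * fx * fy * fy * fx * fy * fy * fx * fy * fx * fy * fx * fy * fy * fx * fy * fx * fy * fx * fy * fy * fx * fy * fy}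

abbrev P := PresentedGroup rels

noncomputable def x : P := PresentedGroup.of 0
noncomputable def y : P := PresentedGroup.of 1

theorem hR0 : x * x = 1 := by
  have h : PresentedGroup.mk rels (fx * fx) = 1 :=
    PresentedGroup.one_of_mem (by simp [rels])
  simp only [map_mul] at h
  exact h
theorem relA (a : P) : a * x * x = a := by
  calc a * x * x = a * (x * x) := by simp only [mul_assoc]
    _ = a := by rw [hR0, mul_one]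
theorem hR1 : y * y * y = 1 := by
  have h : PresentedGroup.mk rels (fy * fy * fy) = 1 :=
    PresentedGroup.one_of_mem (by simp [rels])
  simp only [map_mul] at h
  exact h
theorem relB (a : P) : a * y * y * y = a := by
  calc a * y * y * y = a * (y * y * y) := by simp only [mul_assoc]
    _ = a := by rw [hR1, mul_one]
theorem hR2 : x * y * x * y * x * y * x * y * x * y * x * y * x * y = 1 := by
  have h : PresentedGroup.mk rels (fx * fy * fx * fy * fx * fy * fx * fy * fx * fy * fx * fy * fx * fy) = 1 :=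
    PresentedGroup.one_of_mem (by simp [rels])
  simp only [map_mul] at h
  exact h
theorem relC (a : P) : a * x * y * x * y * x * y * x * y * x * y * x * y * x * y = a := by
  calc a * x * y * x * y * x * y * x * y * x * y * x * y * x * y = a * (x * y * x * y * x * y * x * y * x * y * x * y * x * y) := by simp only [mul_assoc]
    _ = a := by rw [hR2, mul_one]
theorem hR3 : x * y * x * y * x * y * y * x * y * x * y * x * y * y * x * y * y * x * y * x * y * x * y * y * x * y * x * y * x * y * y * x * y * y = 1 := by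
  have h : PresentedGroup.mk rels (fx * fy * fx * fy * fx * fy * fy * fx * fy * fx * fy * fx * fy * fy * fx * fy * fy * fx * fy * fx * fy * fx * fy * fy * fx * fy * fx * fy * fx * fy * fy * fx * fy * fy) = 1 :=
    PresentedGroup.one_of_mem (by simp [rels])
  simp only [map_mul] at h
  exact h
theorem relD (a : P) : a * x * y * x * y * x * y * y * x * y * x * y * x * y * y * x * y * y * x * y * x * y * x * y * y * x * y * x * y * x * y * y * x * y * y = a := by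
  calc a * x * y * x * y * x * y * y * x * y * x * y * x * y * y * x * y * y * x * y * x * y * x * y * y * x * y * x * y * x * y * y * x * y * y = a * (x * y * x * y * x * y * y * x * y * x * y * x * y * y * x * y * y * x * y * x * y * x * y * y * x * y * x * y * x * y * y * x * y * y) := by simp only [mul_assoc]
    _ = a := by rw [hR3, mul_one]

noncomputable def r0 : P := 1
noncomputable def r1 : P := r0 * x
noncomputable def r2 : P := r0 * y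
noncomputable def r3 : P := r1 * y
noncomputable def r4 : P := r2 * x
noncomputable def r5 : P := r2 * y
noncomputable def r6 : P := r3 * x
noncomputable def r7 : P := r3 * y
noncomputable def r8 : P := r4 * y
noncomputable def r9 : P := r5 * x
noncomputable def r10 : P := r6 * y
noncomputable def r11 : P := r7 * x
noncomputable def r12 : P := r8 * x
noncomputable def r13 : P := r8 * y
noncomputable def r14 : P := r9 * y
noncomputable def r15 : P := r10 * x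
noncomputable def r16 : P := r10 * y
noncomputable def r17 : P := r11 * y
noncomputable def r18 : P := r12 * y
noncomputable def r19 : P := r13 * x
noncomputable def r20 : P := r14 * x
noncomputable def r21 : P := r14 * y
noncomputable def r22 : P := r15 * y
noncomputable def r23 : P := r16 * x
noncomputable def r24 : P := r17 * x
noncomputable def r25 : P := r17 * y
noncomputable def r26 : P := r18 * x
noncomputable def r27 : P := r18 * y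
noncomputable def r28 : P := r19 * y
noncomputable def r29 : P := r20 * y
noncomputable def r30 : P := r21 * x
noncomputable def r31 : P := r22 * x
noncomputable def r32 : P := r22 * y
noncomputable def r33 : P := r23 * y
noncomputable def r34 : P := r24 * y
noncomputable def r35 : P := r25 * x
noncomputable def r36 : P := r26 * y
noncomputable def r37 : P := r27 * x
noncomputable def r38 : P := r28 * x
noncomputable def r39 : P := r28 * y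
noncomputable def r40 : P := r29 * x
noncomputable def r41 : P := r29 * y
noncomputable def r42 : P := r30 * y
noncomputable def r43 : P := r31 * y
noncomputable def r44 : P := r32 * x
noncomputable def r45 : P := r33 * x
noncomputable def r46 : P := r33 * y
noncomputable def r47 : P := r34 * x
noncomputable def r48 : P := r34 * y
noncomputable def r49 : P := r35 * y
noncomputable def r50 : P := r36 * x
noncomputable def r51 : P := r36 * y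
noncomputable def r52 : P := r37 * y
noncomputable def r53 : P := r38 * y
noncomputable def r54 : P := r39 * x
noncomputable def r55 : P := r40 * y
noncomputable def r56 : P := r41 * x
noncomputable def r57 : P := r42 * x
noncomputable def r58 : P := r42 * y
noncomputable def r59 : P := r43 * y
noncomputable def r60 : P := r44 * y
noncomputable def r61 : P := r45 * y
noncomputable def r62 : P := r46 * x
noncomputable def r63 : P := r47 * y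
noncomputable def r64 : P := r48 * x
noncomputable def r65 : P := r49 * x
noncomputable def r66 : P := r51 * x
noncomputable def r67 : P := r52 * x
noncomputable def r68 : P := r52 * y
noncomputable def r69 : P := r53 * x
noncomputable def r70 : P := r53 * y
noncomputable def r71 : P := r54 * y
noncomputable def r72 : P := r55 * x
noncomputable def r73 : P := r55 * y
noncomputable def r74 : P := r56 * y
noncomputable def r75 : P := r57 * y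
noncomputable def r76 : P := r59 * x
noncomputable def r77 : P := r60 * x
noncomputable def r78 : P := r60 * y
noncomputable def r79 : P := r61 * x
noncomputable def r80 : P := r61 * y
noncomputable def r81 : P := r62 * y
noncomputable def r82 : P := r63 * x
noncomputable def r83 : P := r63 * y
noncomputable def r84 : P := r64 * y
noncomputable def r85 : P := r65 * y
noncomputable def r86 : P := r66 * y
noncomputable def r87 : P := r67 * y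
noncomputable def r88 : P := r68 * x
noncomputable def r89 : P := r69 * y
noncomputable def r90 : P := r70 * x
noncomputable def r91 : P := r71 * x
noncomputable def r92 : P := r73 * x
noncomputable def r93 : P := r74 * x
noncomputable def r94 : P := r74 * y
noncomputable def r95 : P := r75 * x
noncomputable def r96 : P := r75 * y
noncomputable def r97 : P := r76 * y
noncomputable def r98 : P := r77 * y
noncomputable def r99 : P := r78 * x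
noncomputable def r100 : P := r79 * y
noncomputable def r101 : P := r80 * x
noncomputable def r102 : P := r81 * x
noncomputable def r103 : P := r83 * x
noncomputable def r104 : P := r84 * x
noncomputable def r105 : P := r84 * y
noncomputable def r106 : P := r85 * x
noncomputable def r107 : P := r85 * y
noncomputable def r108 : P := r86 * x
noncomputable def r109 : P := r86 * y
noncomputable def r110 : P := r87 * x
noncomputable def r111 : P := r87 * y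
noncomputable def r112 : P := r88 * y
noncomputable def r113 : P := r89 * x
noncomputable def r114 : P := r89 * y
noncomputable def r115 : P := r90 * y
noncomputable def r116 : P := r91 * y
noncomputable def r117 : P := r92 * y
noncomputable def r118 : P := r93 * y
noncomputable def r119 : P := r94 * x
noncomputable def r120 : P := r95 * y
noncomputable def r121 : P := r96 * x
noncomputable def r122 : P := r97 * x
noncomputable def r123 : P := r97 * y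
noncomputable def r124 : P := r98 * x
noncomputable def r125 : P := r98 * y
noncomputable def r126 : P := r99 * y
noncomputable def r127 : P := r100 * x
noncomputable def r128 : P := r100 * y
noncomputable def r129 : P := r101 * y
noncomputable def r130 : P := r102 * y
noncomputable def r131 : P := r103 * y
noncomputable def r132 : P := r104 * y
noncomputable def r133 : P := r105 * x
noncomputable def r134 : P := r106 * y
noncomputable def r135 : P := r107 * x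
noncomputable def r136 : P := r108 * y
noncomputable def r137 : P := r109 * x
noncomputable def r138 : P := r110 * y
noncomputable def r139 : P := r111 * x
noncomputable def r140 : P := r112 * x
noncomputable def r141 : P := r114 * x
noncomputable def r142 : P := r115 * x
noncomputable def r143 : P := r115 * y
noncomputable def r144 : P := r116 * x
noncomputable def r145 : P := r116 * y
noncomputable def r146 : P := r117 * x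
noncomputable def r147 : P := r117 * y
noncomputable def r148 : P := r118 * x
noncomputable def r149 : P := r118 * y
noncomputable def r150 : P := r119 * y
noncomputable def r151 : P := r120 * x
noncomputable def r152 : P := r120 * y
noncomputable def r153 : P := r121 * y
noncomputable def r154 : P := r122 * y
noncomputable def r155 : P := r123 * x
noncomputable def r156 : P := r124 * y
noncomputable def r157 : P := r125 * x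
noncomputable def r158 : P := r126 * x
noncomputable def r159 : P := r128 * x
noncomputable def r160 : P := r129 * x
noncomputable def r161 : P := r129 * y
noncomputable def r162 : P := r130 * x
noncomputable def r163 : P := r130 * y
noncomputable def r164 : P := r131 * x
noncomputable def r165 : P := r131 * y
noncomputable def r166 : P := r132 * x
noncomputable def r167 : P := r132 * y
noncomputable def r168 : P := r133 * y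
noncomputable def r169 : P := r134 * x
noncomputable def r170 : P := r134 * y
noncomputable def r171 : P := r135 * y
noncomputable def r172 : P := r136 * x
noncomputable def r173 : P := r136 * y
noncomputable def r174 : P := r137 * y
noncomputable def r175 : P := r138 * x
noncomputable def r176 : P := r138 * y
noncomputable def r177 : P := r139 * y
noncomputable def r178 : P := r140 * y
noncomputable def r179 : P := r141 * y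
noncomputable def r180 : P := r142 * y
noncomputable def r181 : P := r143 * x
noncomputable def r182 : P := r144 * y
noncomputable def r183 : P := r145 * x
noncomputable def r184 : P := r146 * y
noncomputable def r185 : P := r147 * x
noncomputable def r186 : P := r148 * y
noncomputable def r187 : P := r149 * x
noncomputable def r188 : P := r150 * x
noncomputable def r189 : P := r152 * x
noncomputable def r190 : P := r153 * x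
noncomputable def r191 : P := r153 * y
noncomputable def r192 : P := r154 * x
noncomputable def r193 : P := r154 * y
noncomputable def r194 : P := r155 * y
noncomputable def r195 : P := r156 * x
noncomputable def r196 : P := r156 * y
noncomputable def r197 : P := r157 * y
noncomputable def r198 : P := r158 * y
noncomputable def r199 : P := r159 * y
noncomputable def r200 : P := r160 * y
noncomputable def r201 : P := r161 * x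
noncomputable def r202 : P := r162 * y
noncomputable def r203 : P := r163 * x
noncomputable def r204 : P := r164 * y
noncomputable def r205 : P := r165 * x
noncomputable def r206 : P := r166 * y
noncomputable def r207 : P := r167 * x
noncomputable def r208 : P := r168 * x
noncomputable def r209 : P := r170 * x
noncomputable def r210 : P := r171 * x
noncomputable def r211 : P := r171 * y
noncomputable def r212 : P := r172 * y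
noncomputable def r213 : P := r173 * x
noncomputable def r214 : P := r174 * x
noncomputable def r215 : P := r176 * x
noncomputable def r216 : P := r177 * x
noncomputable def r217 : P := r177 * y
noncomputable def r218 : P := r178 * x
noncomputable def r219 : P := r178 * y
noncomputable def r220 : P := r179 * x
noncomputable def r221 : P := r179 * y
noncomputable def r222 : P := r180 * x
noncomputable def r223 : P := r180 * y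
noncomputable def r224 : P := r181 * y
noncomputable def r225 : P := r182 * x
noncomputable def r226 : P := r182 * y
noncomputable def r227 : P := r183 * y
noncomputable def r228 : P := r184 * x
noncomputable def r229 : P := r184 * y
noncomputable def r230 : P := r185 * y
noncomputable def r231 : P := r186 * x
noncomputable def r232 : P := r186 * y
noncomputable def r233 : P := r187 * y
noncomputable def r234 : P := r188 * y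
noncomputable def r235 : P := r189 * y
noncomputable def r236 : P := r190 * y
noncomputable def r237 : P := r191 * x
noncomputable def r238 : P := r193 * x
noncomputable def r239 : P := r194 * x
noncomputable def r240 : P := r196 * x
noncomputable def r241 : P := r197 * x
noncomputable def r242 : P := r197 * y
noncomputable def r243 : P := r198 * x
noncomputable def r244 : P := r198 * y
noncomputable def r245 : P := r199 * x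
noncomputable def r246 : P := r199 * y
noncomputable def r247 : P := r200 * x
noncomputable def r248 : P := r200 * y
noncomputable def r249 : P := r201 * y
noncomputable def r250 : P := r202 * x
noncomputable def r251 : P := r202 * y
noncomputable def r252 : P := r203 * y
noncomputable def r253 : P := r204 * x
noncomputable def r254 : P := r204 * y
noncomputable def r255 : P := r205 * y
noncomputable def r256 : P := r206 * x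
noncomputable def r257 : P := r206 * y
noncomputable def r258 : P := r207 * y
noncomputable def r259 : P := r208 * y
noncomputable def r260 : P := r209 * y
noncomputable def r261 : P := r210 * y
noncomputable def r262 : P := r212 * y
noncomputable def r263 : P := r213 * y
noncomputable def r264 : P := r214 * y
noncomputable def r265 : P := r215 * y
noncomputable def r266 : P := r216 * y
noncomputable def r267 : P := r217 * x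
noncomputable def r268 : P := r218 * y
noncomputable def r269 : P := r219 * x
noncomputable def r270 : P := r220 * y
noncomputable def r271 : P := r221 * x
noncomputable def r272 : P := r222 * y
noncomputable def r273 : P := r223 * x
noncomputable def r274 : P := r224 * x
noncomputable def r275 : P := r226 * x
noncomputable def r276 : P := r227 * x
noncomputable def r277 : P := r227 * y
noncomputable def r278 : P := r228 * y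
noncomputable def r279 : P := r229 * x
noncomputable def r280 : P := r230 * x
noncomputable def r281 : P := r232 * x
noncomputable def r282 : P := r233 * x
noncomputable def r283 : P := r233 * y
noncomputable def r284 : P := r234 * x
noncomputable def r285 : P := r234 * y
noncomputable def r286 : P := r235 * x
noncomputable def r287 : P := r235 * y
noncomputable def r288 : P := r236 * x
noncomputable def r289 : P := r236 * y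
noncomputable def r290 : P := r237 * y
noncomputable def r291 : P := r238 * y
noncomputable def r292 : P := r239 * y
noncomputable def r293 : P := r240 * y
noncomputable def r294 : P := r241 * y
noncomputable def r295 : P := r242 * x
noncomputable def r296 : P := r243 * y
noncomputable def r297 : P := r244 * x
noncomputable def r298 : P := r245 * y
noncomputable def r299 : P := r246 * x
noncomputable def r300 : P := r247 * y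
noncomputable def r301 : P := r248 * x
noncomputable def r302 : P := r249 * x
noncomputable def r303 : P := r251 * x
noncomputable def r304 : P := r252 * x
noncomputable def r305 : P := r252 * y
noncomputable def r306 : P := r253 * y
noncomputable def r307 : P := r254 * x
noncomputable def r308 : P := r255 * x
noncomputable def r309 : P := r257 * x
noncomputable def r310 : P := r258 * x
noncomputable def r311 : P := r258 * y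
noncomputable def r312 : P := r259 * x
noncomputable def r313 : P := r259 * y
noncomputable def r314 : P := r260 * x
noncomputable def r315 : P := r260 * y
noncomputable def r316 : P := r261 * x
noncomputable def r317 : P := r261 * y
noncomputable def r318 : P := r262 * x
noncomputable def r319 : P := r263 * x
noncomputable def r320 : P := r263 * y
noncomputable def r321 : P := r264 * x
noncomputable def r322 : P := r264 * y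
noncomputable def r323 : P := r265 * y
noncomputable def r324 : P := r266 * x
noncomputable def r325 : P := r266 * y
noncomputable def r326 : P := r267 * y
noncomputable def r327 : P := r268 * x
noncomputable def r328 : P := r268 * y
noncomputable def r329 : P := r269 * y
noncomputable def r330 : P := r270 * y
noncomputable def r331 : P := r271 * y
noncomputable def r332 : P := r272 * x
noncomputable def r333 : P := r272 * y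
noncomputable def r334 : P := r273 * y
noncomputable def r335 : P := r274 * y
noncomputable def r336 : P := r275 * y
noncomputable def r337 : P := r276 * y
noncomputable def r338 : P := r278 * y
noncomputable def r339 : P := r279 * y
noncomputable def r340 : P := r280 * y
noncomputable def r341 : P := r281 * y
noncomputable def r342 : P := r282 * y
noncomputable def r343 : P := r283 * x
noncomputable def r344 : P := r284 * y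
noncomputable def r345 : P := r285 * x
noncomputable def r346 : P := r286 * y
noncomputable def r347 : P := r287 * x
noncomputable def r348 : P := r288 * y
noncomputable def r349 : P := r289 * x
noncomputable def r350 : P := r290 * x
noncomputable def r351 : P := r291 * x
noncomputable def r352 : P := r291 * y
noncomputable def r353 : P := r292 * x
noncomputable def r354 : P := r292 * y
noncomputable def r355 : P := r293 * y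
noncomputable def r356 : P := r294 * x
noncomputable def r357 : P := r294 * y
noncomputable def r358 : P := r295 * y
noncomputable def r359 : P := r296 * x
noncomputable def r360 : P := r296 * y
noncomputable def r361 : P := r297 * y
noncomputable def r362 : P := r298 * y
noncomputable def r363 : P := r299 * y
noncomputable def r364 : P := r300 * x
noncomputable def r365 : P := r300 * y
noncomputable def r366 : P := r301 * y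
noncomputable def r367 : P := r302 * y
noncomputable def r368 : P := r303 * y
noncomputable def r369 : P := r304 * y
noncomputable def r370 : P := r306 * y
noncomputable def r371 : P := r307 * y
noncomputable def r372 : P := r308 * y
noncomputable def r373 : P := r309 * y
noncomputable def r374 : P := r310 * y
noncomputable def r375 : P := r311 * x
noncomputable def r376 : P := r312 * y
noncomputable def r377 : P := r313 * x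
noncomputable def r378 : P := r314 * y
noncomputable def r379 : P := r315 * x
noncomputable def r380 : P := r316 * y
noncomputable def r381 : P := r317 * x
noncomputable def r382 : P := r318 * y
noncomputable def r383 : P := r319 * y
noncomputable def r384 : P := r320 * x
noncomputable def r385 : P := r321 * y
noncomputable def r386 : P := r322 * x
noncomputable def r387 : P := r323 * x
noncomputable def r388 : P := r324 * y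
noncomputable def r389 : P := r325 * x
noncomputable def r390 : P := r328 * x
noncomputable def r391 : P := r329 * x
noncomputable def r392 : P := r329 * y
noncomputable def r393 : P := r331 * x
noncomputable def r394 : P := r333 * x
noncomputable def r395 : P := r334 * x
noncomputable def r396 : P := r334 * y
noncomputable def r397 : P := r335 * x
noncomputable def r398 : P := r335 * y
noncomputable def r399 : P := r336 * x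
noncomputable def r400 : P := r336 * y
noncomputable def r401 : P := r337 * y
noncomputable def r402 : P := r339 * x
noncomputable def r403 : P := r339 * y
noncomputable def r404 : P := r340 * x
noncomputable def r405 : P := r340 * y
noncomputable def r406 : P := r341 * y
noncomputable def r407 : P := r342 * x
noncomputable def r408 : P := r342 * y
noncomputable def r409 : P := r343 * y
noncomputable def r410 : P := r344 * x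
noncomputable def r411 : P := r344 * y
noncomputable def r412 : P := r345 * y
noncomputable def r413 : P := r346 * y
noncomputable def r414 : P := r347 * y
noncomputable def r415 : P := r348 * x
noncomputable def r416 : P := r348 * y
noncomputable def r417 : P := r349 * y
noncomputable def r418 : P := r350 * y
noncomputable def r419 : P := r352 * x
noncomputable def r420 : P := r353 * y
noncomputable def r421 : P := r354 * x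
noncomputable def r422 : P := r357 * x
noncomputable def r423 : P := r365 * x
noncomputable def r424 : P := r366 * x
noncomputable def r425 : P := r366 * y
noncomputable def r426 : P := r367 * y
noncomputable def r427 : P := r369 * y
noncomputable def r428 : P := r371 * x
noncomputable def r429 : P := r371 * y
noncomputable def r430 : P := r373 * y
noncomputable def r431 : P := r374 * x
noncomputable def r432 : P := r374 * y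
noncomputable def r433 : P := r375 * y
noncomputable def r434 : P := r376 * x
noncomputable def r435 : P := r377 * y
noncomputable def r436 : P := r378 * y
noncomputable def r437 : P := r380 * x
noncomputable def r438 : P := r380 * y
noncomputable def r439 : P := r381 * y
noncomputable def r440 : P := r382 * y
noncomputable def r441 : P := r383 * y
noncomputable def r442 : P := r386 * y
noncomputable def r443 : P := r388 * y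
noncomputable def r444 : P := r389 * y
noncomputable def r445 : P := r391 * y
noncomputable def r446 : P := r394 * y
noncomputable def r447 : P := r395 * y
noncomputable def r448 : P := r396 * x
noncomputable def r449 : P := r397 * y
noncomputable def r450 : P := r401 * x
noncomputable def r451 : P := r402 * y
noncomputable def r452 : P := r406 * x
noncomputable def r453 : P := r407 * y
noncomputable def r454 : P := r408 * x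
noncomputable def r455 : P := r412 * y
noncomputable def r456 : P := r417 * x
noncomputable def r457 : P := r417 * y
noncomputable def r458 : P := r418 * y
noncomputable def r459 : P := r421 * y
noncomputable def r460 : P := r422 * y
noncomputable def r461 : P := r423 * y
noncomputable def r462 : P := r424 * y
noncomputable def r463 : P := r425 * x
noncomputable def r464 : P := r430 * x
noncomputable def r465 : P := r431 * y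
noncomputable def r466 : P := r432 * x
noncomputable def r467 : P := r435 * y
noncomputable def r468 : P := r439 * x
noncomputable def r469 : P := r439 * y
noncomputable def r470 : P := r441 * x
noncomputable def r471 : P := r444 * x
noncomputable def r472 : P := r444 * y
noncomputable def r473 : P := r446 * y
noncomputable def r474 : P := r447 * x
noncomputable def r475 : P := r447 * y
noncomputable def r476 : P := r448 * y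
noncomputable def r477 : P := r449 * x
noncomputable def r478 : P := r450 * y
noncomputable def r479 : P := r451 * y
noncomputable def r480 : P := r453 * y
noncomputable def r481 : P := r454 * y
noncomputable def r482 : P := r456 * y
noncomputable def r483 : P := r457 * x
noncomputable def r484 : P := r460 * x
noncomputable def r485 : P := r460 * y
noncomputable def r486 : P := r462 * x
noncomputable def r487 : P := r462 * y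
noncomputable def r488 : P := r463 * y
noncomputable def r489 : P := r465 * y
noncomputable def r490 : P := r466 * y
noncomputable def r491 : P := r468 * y
noncomputable def r492 : P := r472 * x
noncomputable def r493 : P := r475 * x
noncomputable def r494 : P := r478 * x
noncomputable def r495 : P := r479 * x
noncomputable def r496 : P := r481 * x
noncomputable def r497 : P := r482 * x
noncomputable def r498 : P := r485 * x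
noncomputable def r499 : P := r487 * x
noncomputable def r500 : P := r490 * x
noncomputable def r501 : P := r491 * x
noncomputable def r502 : P := r493 * y
noncomputable def r503 : P := r499 * y
theorem e_0_x : r0 * x = r1 := rfl
theorem e_0_y : r0 * y = r2 := rfl
theorem e_1_y : r1 * y = r3 := rfl
theorem e_2_x : r2 * x = r4 := rfl
theorem e_2_y : r2 * y = r5 := rfl
theorem e_3_x : r3 * x = r6 := rfl
theorem e_3_y : r3 * y = r7 := rfl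
theorem e_4_y : r4 * y = r8 := rfl
theorem e_5_x : r5 * x = r9 := rfl
theorem e_6_y : r6 * y = r10 := rfl
theorem e_7_x : r7 * x = r11 := rfl
theorem e_8_x : r8 * x = r12 := rfl
theorem e_8_y : r8 * y = r13 := rfl
theorem e_9_y : r9 * y = r14 := rfl
theorem e_10_x : r10 * x = r15 := rfl
theorem e_10_y : r10 * y = r16 := rfl
theorem e_11_y : r11 * y = r17 := rfl
theorem e_12_y : r12 * y = r18 := rfl
theorem e_13_x : r13 * x = r19 := rfl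
theorem e_14_x : r14 * x = r20 := rfl
theorem e_14_y : r14 * y = r21 := rfl
theorem e_15_y : r15 * y = r22 := rfl
theorem e_16_x : r16 * x = r23 := rfl
theorem e_17_x : r17 * x = r24 := rfl
theorem e_17_y : r17 * y = r25 := rfl
theorem e_18_x : r18 * x = r26 := rfl
theorem e_18_y : r18 * y = r27 := rfl
theorem e_19_y : r19 * y = r28 := rfl
theorem e_20_y : r20 * y = r29 := rfl
theorem e_21_x : r21 * x = r30 := rfl
theorem e_22_x : r22 * x = r31 := rfl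
theorem e_22_y : r22 * y = r32 := rfl
theorem e_23_y : r23 * y = r33 := rfl
theorem e_24_y : r24 * y = r34 := rfl
theorem e_25_x : r25 * x = r35 := rfl
theorem e_26_y : r26 * y = r36 := rfl
theorem e_27_x : r27 * x = r37 := rfl
theorem e_28_x : r28 * x = r38 := rfl
theorem e_28_y : r28 * y = r39 := rfl
theorem e_29_x : r29 * x = r40 := rfl
theorem e_29_y : r29 * y = r41 := rfl
theorem e_30_y : r30 * y = r42 := rfl
theorem e_31_y : r31 * y = r43 := rfl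
theorem e_32_x : r32 * x = r44 := rfl
theorem e_33_x : r33 * x = r45 := rfl
theorem e_33_y : r33 * y = r46 := rfl
theorem e_34_x : r34 * x = r47 := rfl
theorem e_34_y : r34 * y = r48 := rfl
theorem e_35_y : r35 * y = r49 := rfl
theorem e_36_x : r36 * x = r50 := rfl
theorem e_36_y : r36 * y = r51 := rfl
theorem e_37_y : r37 * y = r52 := rfl
theorem e_38_y : r38 * y = r53 := rfl
theorem e_39_x : r39 * x = r54 := rfl
theorem e_40_y : r40 * y = r55 := rfl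
theorem e_41_x : r41 * x = r56 := rfl
theorem e_42_x : r42 * x = r57 := rfl
theorem e_42_y : r42 * y = r58 := rfl
theorem e_43_y : r43 * y = r59 := rfl
theorem e_44_y : r44 * y = r60 := rfl
theorem e_45_y : r45 * y = r61 := rfl
theorem e_46_x : r46 * x = r62 := rfl
theorem e_47_y : r47 * y = r63 := rfl
theorem e_48_x : r48 * x = r64 := rfl
theorem e_49_x : r49 * x = r65 := rfl
theorem e_51_x : r51 * x = r66 := rfl
theorem e_52_x : r52 * x = r67 := rfl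
theorem e_52_y : r52 * y = r68 := rfl
theorem e_53_x : r53 * x = r69 := rfl
theorem e_53_y : r53 * y = r70 := rfl
theorem e_54_y : r54 * y = r71 := rfl
theorem e_55_x : r55 * x = r72 := rfl
theorem e_55_y : r55 * y = r73 := rfl
theorem e_56_y : r56 * y = r74 := rfl
theorem e_57_y : r57 * y = r75 := rfl
theorem e_59_x : r59 * x = r76 := rfl
theorem e_60_x : r60 * x = r77 := rfl
theorem e_60_y : r60 * y = r78 := rfl
theorem e_61_x : r61 * x = r79 := rfl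
theorem e_61_y : r61 * y = r80 := rfl
theorem e_62_y : r62 * y = r81 := rfl
theorem e_63_x : r63 * x = r82 := rfl
theorem e_63_y : r63 * y = r83 := rfl
theorem e_64_y : r64 * y = r84 := rfl
theorem e_65_y : r65 * y = r85 := rfl
theorem e_66_y : r66 * y = r86 := rfl
theorem e_67_y : r67 * y = r87 := rfl
theorem e_68_x : r68 * x = r88 := rfl
theorem e_69_y : r69 * y = r89 := rfl
theorem e_70_x : r70 * x = r90 := rfl
theorem e_71_x : r71 * x = r91 := rfl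
theorem e_73_x : r73 * x = r92 := rfl
theorem e_74_x : r74 * x = r93 := rfl
theorem e_74_y : r74 * y = r94 := rfl
theorem e_75_x : r75 * x = r95 := rfl
theorem e_75_y : r75 * y = r96 := rfl
theorem e_76_y : r76 * y = r97 := rfl
theorem e_77_y : r77 * y = r98 := rfl
theorem e_78_x : r78 * x = r99 := rfl
theorem e_79_y : r79 * y = r100 := rfl
theorem e_80_x : r80 * x = r101 := rfl
theorem e_81_x : r81 * x = r102 := rfl
theorem e_83_x : r83 * x = r103 := rfl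
theorem e_84_x : r84 * x = r104 := rfl
theorem e_84_y : r84 * y = r105 := rfl
theorem e_85_x : r85 * x = r106 := rfl
theorem e_85_y : r85 * y = r107 := rfl
theorem e_86_x : r86 * x = r108 := rfl
theorem e_86_y : r86 * y = r109 := rfl
theorem e_87_x : r87 * x = r110 := rfl
theorem e_87_y : r87 * y = r111 := rfl
theorem e_88_y : r88 * y = r112 := rfl
theorem e_89_x : r89 * x = r113 := rfl
theorem e_89_y : r89 * y = r114 := rfl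
theorem e_90_y : r90 * y = r115 := rfl
theorem e_91_y : r91 * y = r116 := rfl
theorem e_92_y : r92 * y = r117 := rfl
theorem e_93_y : r93 * y = r118 := rfl
theorem e_94_x : r94 * x = r119 := rfl
theorem e_95_y : r95 * y = r120 := rfl
theorem e_96_x : r96 * x = r121 := rfl
theorem e_97_x : r97 * x = r122 := rfl
theorem e_97_y : r97 * y = r123 := rfl
theorem e_98_x : r98 * x = r124 := rfl
theorem e_98_y : r98 * y = r125 := rfl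
theorem e_99_y : r99 * y = r126 := rfl
theorem e_100_x : r100 * x = r127 := rfl
theorem e_100_y : r100 * y = r128 := rfl
theorem e_101_y : r101 * y = r129 := rfl
theorem e_102_y : r102 * y = r130 := rfl
theorem e_103_y : r103 * y = r131 := rfl
theorem e_104_y : r104 * y = r132 := rfl
theorem e_105_x : r105 * x = r133 := rfl
theorem e_106_y : r106 * y = r134 := rfl
theorem e_107_x : r107 * x = r135 := rfl
theorem e_108_y : r108 * y = r136 := rfl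
theorem e_109_x : r109 * x = r137 := rfl
theorem e_110_y : r110 * y = r138 := rfl
theorem e_111_x : r111 * x = r139 := rfl
theorem e_112_x : r112 * x = r140 := rfl
theorem e_114_x : r114 * x = r141 := rfl
theorem e_115_x : r115 * x = r142 := rfl
theorem e_115_y : r115 * y = r143 := rfl
theorem e_116_x : r116 * x = r144 := rfl
theorem e_116_y : r116 * y = r145 := rfl
theorem e_117_x : r117 * x = r146 := rfl
theorem e_117_y : r117 * y = r147 := rfl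
theorem e_118_x : r118 * x = r148 := rfl
theorem e_118_y : r118 * y = r149 := rfl
theorem e_119_y : r119 * y = r150 := rfl
theorem e_120_x : r120 * x = r151 := rfl
theorem e_120_y : r120 * y = r152 := rfl
theorem e_121_y : r121 * y = r153 := rfl
theorem e_122_y : r122 * y = r154 := rfl
theorem e_123_x : r123 * x = r155 := rfl
theorem e_124_y : r124 * y = r156 := rfl
theorem e_125_x : r125 * x = r157 := rfl
theorem e_126_x : r126 * x = r158 := rfl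
theorem e_128_x : r128 * x = r159 := rfl
theorem e_129_x : r129 * x = r160 := rfl
theorem e_129_y : r129 * y = r161 := rfl
theorem e_130_x : r130 * x = r162 := rfl
theorem e_130_y : r130 * y = r163 := rfl
theorem e_131_x : r131 * x = r164 := rfl
theorem e_131_y : r131 * y = r165 := rfl
theorem e_132_x : r132 * x = r166 := rfl
theorem e_132_y : r132 * y = r167 := rfl
theorem e_133_y : r133 * y = r168 := rfl
theorem e_134_x : r134 * x = r169 := rfl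
theorem e_134_y : r134 * y = r170 := rfl
theorem e_135_y : r135 * y = r171 := rfl
theorem e_136_x : r136 * x = r172 := rfl
theorem e_136_y : r136 * y = r173 := rfl
theorem e_137_y : r137 * y = r174 := rfl
theorem e_138_x : r138 * x = r175 := rfl
theorem e_138_y : r138 * y = r176 := rfl
theorem e_139_y : r139 * y = r177 := rfl
theorem e_140_y : r140 * y = r178 := rfl
theorem e_141_y : r141 * y = r179 := rfl
theorem e_142_y : r142 * y = r180 := rfl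
theorem e_143_x : r143 * x = r181 := rfl
theorem e_144_y : r144 * y = r182 := rfl
theorem e_145_x : r145 * x = r183 := rfl
theorem e_146_y : r146 * y = r184 := rfl
theorem e_147_x : r147 * x = r185 := rfl
theorem e_148_y : r148 * y = r186 := rfl
theorem e_149_x : r149 * x = r187 := rfl
theorem e_150_x : r150 * x = r188 := rfl
theorem e_152_x : r152 * x = r189 := rfl
theorem e_153_x : r153 * x = r190 := rfl
theorem e_153_y : r153 * y = r191 := rfl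
theorem e_154_x : r154 * x = r192 := rfl
theorem e_154_y : r154 * y = r193 := rfl
theorem e_155_y : r155 * y = r194 := rfl
theorem e_156_x : r156 * x = r195 := rfl
theorem e_156_y : r156 * y = r196 := rfl
theorem e_157_y : r157 * y = r197 := rfl
theorem e_158_y : r158 * y = r198 := rfl
theorem e_159_y : r159 * y = r199 := rfl
theorem e_160_y : r160 * y = r200 := rfl
theorem e_161_x : r161 * x = r201 := rfl
theorem e_162_y : r162 * y = r202 := rfl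
theorem e_163_x : r163 * x = r203 := rfl
theorem e_164_y : r164 * y = r204 := rfl
theorem e_165_x : r165 * x = r205 := rfl
theorem e_166_y : r166 * y = r206 := rfl
theorem e_167_x : r167 * x = r207 := rfl
theorem e_168_x : r168 * x = r208 := rfl
theorem e_170_x : r170 * x = r209 := rfl
theorem e_171_x : r171 * x = r210 := rfl
theorem e_171_y : r171 * y = r211 := rfl
theorem e_172_y : r172 * y = r212 := rfl
theorem e_173_x : r173 * x = r213 := rfl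
theorem e_174_x : r174 * x = r214 := rfl
theorem e_176_x : r176 * x = r215 := rfl
theorem e_177_x : r177 * x = r216 := rfl
theorem e_177_y : r177 * y = r217 := rfl
theorem e_178_x : r178 * x = r218 := rfl
theorem e_178_y : r178 * y = r219 := rfl
theorem e_179_x : r179 * x = r220 := rfl
theorem e_179_y : r179 * y = r221 := rfl
theorem e_180_x : r180 * x = r222 := rfl
theorem e_180_y : r180 * y = r223 := rfl
theorem e_181_y : r181 * y = r224 := rfl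
theorem e_182_x : r182 * x = r225 := rfl
theorem e_182_y : r182 * y = r226 := rfl
theorem e_183_y : r183 * y = r227 := rfl
theorem e_184_x : r184 * x = r228 := rfl
theorem e_184_y : r184 * y = r229 := rfl
theorem e_185_y : r185 * y = r230 := rfl
theorem e_186_x : r186 * x = r231 := rfl
theorem e_186_y : r186 * y = r232 := rfl
theorem e_187_y : r187 * y = r233 := rfl
theorem e_188_y : r188 * y = r234 := rfl
theorem e_189_y : r189 * y = r235 := rfl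
theorem e_190_y : r190 * y = r236 := rfl
theorem e_191_x : r191 * x = r237 := rfl
theorem e_193_x : r193 * x = r238 := rfl
theorem e_194_x : r194 * x = r239 := rfl
theorem e_196_x : r196 * x = r240 := rfl
theorem e_197_x : r197 * x = r241 := rfl
theorem e_197_y : r197 * y = r242 := rfl
theorem e_198_x : r198 * x = r243 := rfl
theorem e_198_y : r198 * y = r244 := rfl
theorem e_199_x : r199 * x = r245 := rfl
theorem e_199_y : r199 * y = r246 := rfl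
theorem e_200_x : r200 * x = r247 := rfl
theorem e_200_y : r200 * y = r248 := rfl
theorem e_201_y : r201 * y = r249 := rfl
theorem e_202_x : r202 * x = r250 := rfl
theorem e_202_y : r202 * y = r251 := rfl
theorem e_203_y : r203 * y = r252 := rfl
theorem e_204_x : r204 * x = r253 := rfl
theorem e_204_y : r204 * y = r254 := rfl
theorem e_205_y : r205 * y = r255 := rfl
theorem e_206_x : r206 * x = r256 := rfl
theorem e_206_y : r206 * y = r257 := rfl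
theorem e_207_y : r207 * y = r258 := rfl
theorem e_208_y : r208 * y = r259 := rfl
theorem e_209_y : r209 * y = r260 := rfl
theorem e_210_y : r210 * y = r261 := rfl
theorem e_212_y : r212 * y = r262 := rfl
theorem e_213_y : r213 * y = r263 := rfl
theorem e_214_y : r214 * y = r264 := rfl
theorem e_215_y : r215 * y = r265 := rfl
theorem e_216_y : r216 * y = r266 := rfl
theorem e_217_x : r217 * x = r267 := rfl
theorem e_218_y : r218 * y = r268 := rfl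
theorem e_219_x : r219 * x = r269 := rfl
theorem e_220_y : r220 * y = r270 := rfl
theorem e_221_x : r221 * x = r271 := rfl
theorem e_222_y : r222 * y = r272 := rfl
theorem e_223_x : r223 * x = r273 := rfl
theorem e_224_x : r224 * x = r274 := rfl
theorem e_226_x : r226 * x = r275 := rfl
theorem e_227_x : r227 * x = r276 := rfl
theorem e_227_y : r227 * y = r277 := rfl
theorem e_228_y : r228 * y = r278 := rfl
theorem e_229_x : r229 * x = r279 := rfl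
theorem e_230_x : r230 * x = r280 := rfl
theorem e_232_x : r232 * x = r281 := rfl
theorem e_233_x : r233 * x = r282 := rfl
theorem e_233_y : r233 * y = r283 := rfl
theorem e_234_x : r234 * x = r284 := rfl
theorem e_234_y : r234 * y = r285 := rfl
theorem e_235_x : r235 * x = r286 := rfl
theorem e_235_y : r235 * y = r287 := rfl
theorem e_236_x : r236 * x = r288 := rfl
theorem e_236_y : r236 * y = r289 := rfl
theorem e_237_y : r237 * y = r290 := rfl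
theorem e_238_y : r238 * y = r291 := rfl
theorem e_239_y : r239 * y = r292 := rfl
theorem e_240_y : r240 * y = r293 := rfl
theorem e_241_y : r241 * y = r294 := rfl
theorem e_242_x : r242 * x = r295 := rfl
theorem e_243_y : r243 * y = r296 := rfl
theorem e_244_x : r244 * x = r297 := rfl
theorem e_245_y : r245 * y = r298 := rfl
theorem e_246_x : r246 * x = r299 := rfl
theorem e_247_y : r247 * y = r300 := rfl
theorem e_248_x : r248 * x = r301 := rfl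
theorem e_249_x : r249 * x = r302 := rfl
theorem e_251_x : r251 * x = r303 := rfl
theorem e_252_x : r252 * x = r304 := rfl
theorem e_252_y : r252 * y = r305 := rfl
theorem e_253_y : r253 * y = r306 := rfl
theorem e_254_x : r254 * x = r307 := rfl
theorem e_255_x : r255 * x = r308 := rfl
theorem e_257_x : r257 * x = r309 := rfl
theorem e_258_x : r258 * x = r310 := rfl
theorem e_258_y : r258 * y = r311 := rfl
theorem e_259_x : r259 * x = r312 := rfl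
theorem e_259_y : r259 * y = r313 := rfl
theorem e_260_x : r260 * x = r314 := rfl
theorem e_260_y : r260 * y = r315 := rfl
theorem e_261_x : r261 * x = r316 := rfl
theorem e_261_y : r261 * y = r317 := rfl
theorem e_262_x : r262 * x = r318 := rfl
theorem e_263_x : r263 * x = r319 := rfl
theorem e_263_y : r263 * y = r320 := rfl
theorem e_264_x : r264 * x = r321 := rfl
theorem e_264_y : r264 * y = r322 := rfl
theorem e_265_y : r265 * y = r323 := rfl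
theorem e_266_x : r266 * x = r324 := rfl
theorem e_266_y : r266 * y = r325 := rfl
theorem e_267_y : r267 * y = r326 := rfl
theorem e_268_x : r268 * x = r327 := rfl
theorem e_268_y : r268 * y = r328 := rfl
theorem e_269_y : r269 * y = r329 := rfl
theorem e_270_y : r270 * y = r330 := rfl
theorem e_271_y : r271 * y = r331 := rfl
theorem e_272_x : r272 * x = r332 := rfl
theorem e_272_y : r272 * y = r333 := rfl
theorem e_273_y : r273 * y = r334 := rfl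
theorem e_274_y : r274 * y = r335 := rfl
theorem e_275_y : r275 * y = r336 := rfl
theorem e_276_y : r276 * y = r337 := rfl
theorem e_278_y : r278 * y = r338 := rfl
theorem e_279_y : r279 * y = r339 := rfl
theorem e_280_y : r280 * y = r340 := rfl
theorem e_281_y : r281 * y = r341 := rfl
theorem e_282_y : r282 * y = r342 := rfl
theorem e_283_x : r283 * x = r343 := rfl
theorem e_284_y : r284 * y = r344 := rfl
theorem e_285_x : r285 * x = r345 := rfl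
theorem e_286_y : r286 * y = r346 := rfl
theorem e_287_x : r287 * x = r347 := rfl
theorem e_288_y : r288 * y = r348 := rfl
theorem e_289_x : r289 * x = r349 := rfl
theorem e_290_x : r290 * x = r350 := rfl
theorem e_291_x : r291 * x = r351 := rfl
theorem e_291_y : r291 * y = r352 := rfl
theorem e_292_x : r292 * x = r353 := rfl
theorem e_292_y : r292 * y = r354 := rfl
theorem e_293_y : r293 * y = r355 := rfl
theorem e_294_x : r294 * x = r356 := rfl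
theorem e_294_y : r294 * y = r357 := rfl
theorem e_295_y : r295 * y = r358 := rfl
theorem e_296_x : r296 * x = r359 := rfl
theorem e_296_y : r296 * y = r360 := rfl
theorem e_297_y : r297 * y = r361 := rfl
theorem e_298_y : r298 * y = r362 := rfl
theorem e_299_y : r299 * y = r363 := rfl
theorem e_300_x : r300 * x = r364 := rfl
theorem e_300_y : r300 * y = r365 := rfl
theorem e_301_y : r301 * y = r366 := rfl
theorem e_302_y : r302 * y = r367 := rfl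
theorem e_303_y : r303 * y = r368 := rfl
theorem e_304_y : r304 * y = r369 := rfl
theorem e_306_y : r306 * y = r370 := rfl
theorem e_307_y : r307 * y = r371 := rfl
theorem e_308_y : r308 * y = r372 := rfl
theorem e_309_y : r309 * y = r373 := rfl
theorem e_310_y : r310 * y = r374 := rfl
theorem e_311_x : r311 * x = r375 := rfl
theorem e_312_y : r312 * y = r376 := rfl
theorem e_313_x : r313 * x = r377 := rfl
theorem e_314_y : r314 * y = r378 := rfl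
theorem e_315_x : r315 * x = r379 := rfl
theorem e_316_y : r316 * y = r380 := rfl
theorem e_317_x : r317 * x = r381 := rfl
theorem e_318_y : r318 * y = r382 := rfl
theorem e_319_y : r319 * y = r383 := rfl
theorem e_320_x : r320 * x = r384 := rfl
theorem e_321_y : r321 * y = r385 := rfl
theorem e_322_x : r322 * x = r386 := rfl
theorem e_323_x : r323 * x = r387 := rfl
theorem e_324_y : r324 * y = r388 := rfl
theorem e_325_x : r325 * x = r389 := rfl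
theorem e_328_x : r328 * x = r390 := rfl
theorem e_329_x : r329 * x = r391 := rfl
theorem e_329_y : r329 * y = r392 := rfl
theorem e_331_x : r331 * x = r393 := rfl
theorem e_333_x : r333 * x = r394 := rfl
theorem e_334_x : r334 * x = r395 := rfl
theorem e_334_y : r334 * y = r396 := rfl
theorem e_335_x : r335 * x = r397 := rfl
theorem e_335_y : r335 * y = r398 := rfl
theorem e_336_x : r336 * x = r399 := rfl
theorem e_336_y : r336 * y = r400 := rfl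
theorem e_337_y : r337 * y = r401 := rfl
theorem e_339_x : r339 * x = r402 := rfl
theorem e_339_y : r339 * y = r403 := rfl
theorem e_340_x : r340 * x = r404 := rfl
theorem e_340_y : r340 * y = r405 := rfl
theorem e_341_y : r341 * y = r406 := rfl
theorem e_342_x : r342 * x = r407 := rfl
theorem e_342_y : r342 * y = r408 := rfl
theorem e_343_y : r343 * y = r409 := rfl
theorem e_344_x : r344 * x = r410 := rfl
theorem e_344_y : r344 * y = r411 := rfl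
theorem e_345_y : r345 * y = r412 := rfl
theorem e_346_y : r346 * y = r413 := rfl
theorem e_347_y : r347 * y = r414 := rfl
theorem e_348_x : r348 * x = r415 := rfl
theorem e_348_y : r348 * y = r416 := rfl
theorem e_349_y : r349 * y = r417 := rfl
theorem e_350_y : r350 * y = r418 := rfl
theorem e_352_x : r352 * x = r419 := rfl
theorem e_353_y : r353 * y = r420 := rfl
theorem e_354_x : r354 * x = r421 := rfl
theorem e_357_x : r357 * x = r422 := rfl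
theorem e_365_x : r365 * x = r423 := rfl
theorem e_366_x : r366 * x = r424 := rfl
theorem e_366_y : r366 * y = r425 := rfl
theorem e_367_y : r367 * y = r426 := rfl
theorem e_369_y : r369 * y = r427 := rfl
theorem e_371_x : r371 * x = r428 := rfl
theorem e_371_y : r371 * y = r429 := rfl
theorem e_373_y : r373 * y = r430 := rfl
theorem e_374_x : r374 * x = r431 := rfl
theorem e_374_y : r374 * y = r432 := rfl
theorem e_375_y : r375 * y = r433 := rfl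
theorem e_376_x : r376 * x = r434 := rfl
theorem e_377_y : r377 * y = r435 := rfl
theorem e_378_y : r378 * y = r436 := rfl
theorem e_380_x : r380 * x = r437 := rfl
theorem e_380_y : r380 * y = r438 := rfl
theorem e_381_y : r381 * y = r439 := rfl
theorem e_382_y : r382 * y = r440 := rfl
theorem e_383_y : r383 * y = r441 := rfl
theorem e_386_y : r386 * y = r442 := rfl
theorem e_388_y : r388 * y = r443 := rfl
theorem e_389_y : r389 * y = r444 := rfl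
theorem e_391_y : r391 * y = r445 := rfl
theorem e_394_y : r394 * y = r446 := rfl
theorem e_395_y : r395 * y = r447 := rfl
theorem e_396_x : r396 * x = r448 := rfl
theorem e_397_y : r397 * y = r449 := rfl
theorem e_401_x : r401 * x = r450 := rfl
theorem e_402_y : r402 * y = r451 := rfl
theorem e_406_x : r406 * x = r452 := rfl
theorem e_407_y : r407 * y = r453 := rfl
theorem e_408_x : r408 * x = r454 := rfl
theorem e_412_y : r412 * y = r455 := rfl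
theorem e_417_x : r417 * x = r456 := rfl
theorem e_417_y : r417 * y = r457 := rfl
theorem e_418_y : r418 * y = r458 := rfl
theorem e_421_y : r421 * y = r459 := rfl
theorem e_422_y : r422 * y = r460 := rfl
theorem e_423_y : r423 * y = r461 := rfl
theorem e_424_y : r424 * y = r462 := rfl
theorem e_425_x : r425 * x = r463 := rfl
theorem e_430_x : r430 * x = r464 := rfl
theorem e_431_y : r431 * y = r465 := rfl
theorem e_432_x : r432 * x = r466 := rfl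
theorem e_435_y : r435 * y = r467 := rfl
theorem e_439_x : r439 * x = r468 := rfl
theorem e_439_y : r439 * y = r469 := rfl
theorem e_441_x : r441 * x = r470 := rfl
theorem e_444_x : r444 * x = r471 := rfl
theorem e_444_y : r444 * y = r472 := rfl
theorem e_446_y : r446 * y = r473 := rfl
theorem e_447_x : r447 * x = r474 := rfl
theorem e_447_y : r447 * y = r475 := rfl
theorem e_448_y : r448 * y = r476 := rfl
theorem e_449_x : r449 * x = r477 := rfl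
theorem e_450_y : r450 * y = r478 := rfl
theorem e_451_y : r451 * y = r479 := rfl
theorem e_453_y : r453 * y = r480 := rfl
theorem e_454_y : r454 * y = r481 := rfl
theorem e_456_y : r456 * y = r482 := rfl
theorem e_457_x : r457 * x = r483 := rfl
theorem e_460_x : r460 * x = r484 := rfl
theorem e_460_y : r460 * y = r485 := rfl
theorem e_462_x : r462 * x = r486 := rfl
theorem e_462_y : r462 * y = r487 := rfl
theorem e_463_y : r463 * y = r488 := rfl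
theorem e_465_y : r465 * y = r489 := rfl
theorem e_466_y : r466 * y = r490 := rfl
theorem e_468_y : r468 * y = r491 := rfl
theorem e_472_x : r472 * x = r492 := rfl
theorem e_475_x : r475 * x = r493 := rfl
theorem e_478_x : r478 * x = r494 := rfl
theorem e_479_x : r479 * x = r495 := rfl
theorem e_481_x : r481 * x = r496 := rfl
theorem e_482_x : r482 * x = r497 := rfl
theorem e_485_x : r485 * x = r498 := rfl
theorem e_487_x : r487 * x = r499 := rfl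
theorem e_490_x : r490 * x = r500 := rfl
theorem e_491_x : r491 * x = r501 := rfl
theorem e_493_y : r493 * y = r502 := rfl
theorem e_499_y : r499 * y = r503 := rfl
theorem e_1_x : r1 * x = r0 := by
  have h := relA r0
  simp only [e_0_x] at h
  exact h
theorem e_4_x : r4 * x = r2 := by
  have h := relA r2
  simp only [e_2_x] at h
  exact h
theorem e_6_x : r6 * x = r3 := by
  have h := relA r3
  simp only [e_3_x] at h
  exact h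
theorem e_9_x : r9 * x = r5 := by
  have h := relA r5
  simp only [e_5_x] at h
  exact h
theorem e_11_x : r11 * x = r7 := by
  have h := relA r7
  simp only [e_7_x] at h
  exact h
theorem e_12_x : r12 * x = r8 := by
  have h := relA r8
  simp only [e_8_x] at h
  exact h
theorem e_15_x : r15 * x = r10 := by
  have h := relA r10
  simp only [e_10_x] at h
  exact h
theorem e_19_x : r19 * x = r13 := by
  have h := relA r13
  simp only [e_13_x] at h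
  exact h
theorem e_20_x : r20 * x = r14 := by
  have h := relA r14
  simp only [e_14_x] at h
  exact h
theorem e_23_x : r23 * x = r16 := by
  have h := relA r16
  simp only [e_16_x] at h
  exact h
theorem e_24_x : r24 * x = r17 := by
  have h := relA r17
  simp only [e_17_x] at h
  exact h
theorem e_26_x : r26 * x = r18 := by
  have h := relA r18
  simp only [e_18_x] at h
  exact h
theorem e_30_x : r30 * x = r21 := by
  have h := relA r21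
  simp only [e_21_x] at h
  exact h
theorem e_31_x : r31 * x = r22 := by
  have h := relA r22
  simp only [e_22_x] at h
  exact h
theorem e_35_x : r35 * x = r25 := by
  have h := relA r25
  simp only [e_25_x] at h
  exact h
theorem e_37_x : r37 * x = r27 := by
  have h := relA r27
  simp only [e_27_x] at h
  exact h
theorem e_38_x : r38 * x = r28 := by
  have h := relA r28
  simp only [e_28_x] at h
  exact h
theorem e_40_x : r40 * x = r29 := by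
  have h := relA r29
  simp only [e_29_x] at h
  exact h
theorem e_44_x : r44 * x = r32 := by
  have h := relA r32
  simp only [e_32_x] at h
  exact h
theorem e_45_x : r45 * x = r33 := by
  have h := relA r33
  simp only [e_33_x] at h
  exact h
theorem e_47_x : r47 * x = r34 := by
  have h := relA r34
  simp only [e_34_x] at h
  exact h
theorem e_50_x : r50 * x = r36 := by
  have h := relA r36
  simp only [e_36_x] at h
  exact h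
theorem e_54_x : r54 * x = r39 := by
  have h := relA r39
  simp only [e_39_x] at h
  exact h
theorem e_56_x : r56 * x = r41 := by
  have h := relA r41
  simp only [e_41_x] at h
  exact h
theorem e_57_x : r57 * x = r42 := by
  have h := relA r42
  simp only [e_42_x] at h
  exact h
theorem e_62_x : r62 * x = r46 := by
  have h := relA r46
  simp only [e_46_x] at h
  exact h
theorem e_64_x : r64 * x = r48 := by
  have h := relA r48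
  simp only [e_48_x] at h
  exact h
theorem e_65_x : r65 * x = r49 := by
  have h := relA r49
  simp only [e_49_x] at h
  exact h
theorem e_66_x : r66 * x = r51 := by
  have h := relA r51
  simp only [e_51_x] at h
  exact h
theorem e_67_x : r67 * x = r52 := by
  have h := relA r52
  simp only [e_52_x] at h
  exact h
theorem e_69_x : r69 * x = r53 := by
  have h := relA r53
  simp only [e_53_x] at h
  exact h
theorem e_72_x : r72 * x = r55 := by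
  have h := relA r55
  simp only [e_55_x] at h
  exact h
theorem e_76_x : r76 * x = r59 := by
  have h := relA r59
  simp only [e_59_x] at h
  exact h
theorem e_77_x : r77 * x = r60 := by
  have h := relA r60
  simp only [e_60_x] at h
  exact h
theorem e_79_x : r79 * x = r61 := by
  have h := relA r61
  simp only [e_61_x] at h
  exact h
theorem e_82_x : r82 * x = r63 := by
  have h := relA r63
  simp only [e_63_x] at h
  exact h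
theorem e_88_x : r88 * x = r68 := by
  have h := relA r68
  simp only [e_68_x] at h
  exact h
theorem e_90_x : r90 * x = r70 := by
  have h := relA r70
  simp only [e_70_x] at h
  exact h
theorem e_91_x : r91 * x = r71 := by
  have h := relA r71
  simp only [e_71_x] at h
  exact h
theorem e_92_x : r92 * x = r73 := by
  have h := relA r73
  simp only [e_73_x] at h
  exact h
theorem e_93_x : r93 * x = r74 := by
  have h := relA r74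
  simp only [e_74_x] at h
  exact h
theorem e_95_x : r95 * x = r75 := by
  have h := relA r75
  simp only [e_75_x] at h
  exact h
theorem e_99_x : r99 * x = r78 := by
  have h := relA r78
  simp only [e_78_x] at h
  exact h
theorem e_101_x : r101 * x = r80 := by
  have h := relA r80
  simp only [e_80_x] at h
  exact h
theorem e_102_x : r102 * x = r81 := by
  have h := relA r81
  simp only [e_81_x] at h
  exact h
theorem e_103_x : r103 * x = r83 := by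
  have h := relA r83
  simp only [e_83_x] at h
  exact h
theorem e_104_x : r104 * x = r84 := by
  have h := relA r84
  simp only [e_84_x] at h
  exact h
theorem e_106_x : r106 * x = r85 := by
  have h := relA r85
  simp only [e_85_x] at h
  exact h
theorem e_108_x : r108 * x = r86 := by
  have h := relA r86
  simp only [e_86_x] at h
  exact h
theorem e_110_x : r110 * x = r87 := by
  have h := relA r87
  simp only [e_87_x] at h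
  exact h
theorem e_113_x : r113 * x = r89 := by
  have h := relA r89
  simp only [e_89_x] at h
  exact h
theorem e_119_x : r119 * x = r94 := by
  have h := relA r94
  simp only [e_94_x] at h
  exact h
theorem e_121_x : r121 * x = r96 := by
  have h := relA r96
  simp only [e_96_x] at h
  exact h
theorem e_122_x : r122 * x = r97 := by
  have h := relA r97
  simp only [e_97_x] at h
  exact h
theorem e_124_x : r124 * x = r98 := by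
  have h := relA r98
  simp only [e_98_x] at h
  exact h
theorem e_127_x : r127 * x = r100 := by
  have h := relA r100
  simp only [e_100_x] at h
  exact h
theorem e_133_x : r133 * x = r105 := by
  have h := relA r105
  simp only [e_105_x] at h
  exact h
theorem e_135_x : r135 * x = r107 := by
  have h := relA r107
  simp only [e_107_x] at h
  exact h
theorem e_137_x : r137 * x = r109 := by
  have h := relA r109
  simp only [e_109_x] at h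
  exact h
theorem e_139_x : r139 * x = r111 := by
  have h := relA r111
  simp only [e_111_x] at h
  exact h
theorem e_140_x : r140 * x = r112 := by
  have h := relA r112
  simp only [e_112_x] at h
  exact h
theorem e_141_x : r141 * x = r114 := by
  have h := relA r114
  simp only [e_114_x] at h
  exact h
theorem e_142_x : r142 * x = r115 := by
  have h := relA r115
  simp only [e_115_x] at h
  exact h
theorem e_144_x : r144 * x = r116 := by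
  have h := relA r116
  simp only [e_116_x] at h
  exact h
theorem e_146_x : r146 * x = r117 := by
  have h := relA r117
  simp only [e_117_x] at h
  exact h
theorem e_148_x : r148 * x = r118 := by
  have h := relA r118
  simp only [e_118_x] at h
  exact h
theorem e_151_x : r151 * x = r120 := by
  have h := relA r120
  simp only [e_120_x] at h
  exact h
theorem e_155_x : r155 * x = r123 := by
  have h := relA r123
  simp only [e_123_x] at h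
  exact h
theorem e_157_x : r157 * x = r125 := by
  have h := relA r125
  simp only [e_125_x] at h
  exact h
theorem e_158_x : r158 * x = r126 := by
  have h := relA r126
  simp only [e_126_x] at h
  exact h
theorem e_159_x : r159 * x = r128 := by
  have h := relA r128
  simp only [e_128_x] at h
  exact h
theorem e_160_x : r160 * x = r129 := by
  have h := relA r129
  simp only [e_129_x] at h
  exact h
theorem e_162_x : r162 * x = r130 := by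
  have h := relA r130
  simp only [e_130_x] at h
  exact h
theorem e_164_x : r164 * x = r131 := by
  have h := relA r131
  simp only [e_131_x] at h
  exact h
theorem e_166_x : r166 * x = r132 := by
  have h := relA r132
  simp only [e_132_x] at h
  exact h
theorem e_169_x : r169 * x = r134 := by
  have h := relA r134
  simp only [e_134_x] at h
  exact h
theorem e_172_x : r172 * x = r136 := by
  have h := relA r136
  simp only [e_136_x] at h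
  exact h
theorem e_175_x : r175 * x = r138 := by
  have h := relA r138
  simp only [e_138_x] at h
  exact h
theorem e_181_x : r181 * x = r143 := by
  have h := relA r143
  simp only [e_143_x] at h
  exact h
theorem e_183_x : r183 * x = r145 := by
  have h := relA r145
  simp only [e_145_x] at h
  exact h
theorem e_185_x : r185 * x = r147 := by
  have h := relA r147
  simp only [e_147_x] at h
  exact h
theorem e_187_x : r187 * x = r149 := by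
  have h := relA r149
  simp only [e_149_x] at h
  exact h
theorem e_188_x : r188 * x = r150 := by
  have h := relA r150
  simp only [e_150_x] at h
  exact h
theorem e_189_x : r189 * x = r152 := by
  have h := relA r152
  simp only [e_152_x] at h
  exact h
theorem e_190_x : r190 * x = r153 := by
  have h := relA r153
  simp only [e_153_x] at h
  exact h
theorem e_192_x : r192 * x = r154 := by
  have h := relA r154
  simp only [e_154_x] at h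
  exact h
theorem e_195_x : r195 * x = r156 := by
  have h := relA r156
  simp only [e_156_x] at h
  exact h
theorem e_201_x : r201 * x = r161 := by
  have h := relA r161
  simp only [e_161_x] at h
  exact h
theorem e_203_x : r203 * x = r163 := by
  have h := relA r163
  simp only [e_163_x] at h
  exact h
theorem e_205_x : r205 * x = r165 := by
  have h := relA r165
  simp only [e_165_x] at h
  exact h
theorem e_207_x : r207 * x = r167 := by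
  have h := relA r167
  simp only [e_167_x] at h
  exact h
theorem e_208_x : r208 * x = r168 := by
  have h := relA r168
  simp only [e_168_x] at h
  exact h
theorem e_209_x : r209 * x = r170 := by
  have h := relA r170
  simp only [e_170_x] at h
  exact h
theorem e_210_x : r210 * x = r171 := by
  have h := relA r171
  simp only [e_171_x] at h
  exact h
theorem e_213_x : r213 * x = r173 := by
  have h := relA r173
  simp only [e_173_x] at h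
  exact h
theorem e_214_x : r214 * x = r174 := by
  have h := relA r174
  simp only [e_174_x] at h
  exact h
theorem e_215_x : r215 * x = r176 := by
  have h := relA r176
  simp only [e_176_x] at h
  exact h
theorem e_216_x : r216 * x = r177 := by
  have h := relA r177
  simp only [e_177_x] at h
  exact h
theorem e_218_x : r218 * x = r178 := by
  have h := relA r178
  simp only [e_178_x] at h
  exact h
theorem e_220_x : r220 * x = r179 := by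
  have h := relA r179
  simp only [e_179_x] at h
  exact h
theorem e_222_x : r222 * x = r180 := by
  have h := relA r180
  simp only [e_180_x] at h
  exact h
theorem e_225_x : r225 * x = r182 := by
  have h := relA r182
  simp only [e_182_x] at h
  exact h
theorem e_228_x : r228 * x = r184 := by
  have h := relA r184
  simp only [e_184_x] at h
  exact h
theorem e_231_x : r231 * x = r186 := by
  have h := relA r186
  simp only [e_186_x] at h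
  exact h
theorem e_237_x : r237 * x = r191 := by
  have h := relA r191
  simp only [e_191_x] at h
  exact h
theorem e_238_x : r238 * x = r193 := by
  have h := relA r193
  simp only [e_193_x] at h
  exact h
theorem e_239_x : r239 * x = r194 := by
  have h := relA r194
  simp only [e_194_x] at h
  exact h
theorem e_240_x : r240 * x = r196 := by
  have h := relA r196
  simp only [e_196_x] at h
  exact h
theorem e_241_x : r241 * x = r197 := by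
  have h := relA r197
  simp only [e_197_x] at h
  exact h
theorem e_243_x : r243 * x = r198 := by
  have h := relA r198
  simp only [e_198_x] at h
  exact h
theorem e_245_x : r245 * x = r199 := by
  have h := relA r199
  simp only [e_199_x] at h
  exact h
theorem e_247_x : r247 * x = r200 := by
  have h := relA r200
  simp only [e_200_x] at h
  exact h
theorem e_250_x : r250 * x = r202 := by
  have h := relA r202
  simp only [e_202_x] at h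
  exact h
theorem e_253_x : r253 * x = r204 := by
  have h := relA r204
  simp only [e_204_x] at h
  exact h
theorem e_256_x : r256 * x = r206 := by
  have h := relA r206
  simp only [e_206_x] at h
  exact h
theorem e_267_x : r267 * x = r217 := by
  have h := relA r217
  simp only [e_217_x] at h
  exact h
theorem e_269_x : r269 * x = r219 := by
  have h := relA r219
  simp only [e_219_x] at h
  exact h
theorem e_271_x : r271 * x = r221 := by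
  have h := relA r221
  simp only [e_221_x] at h
  exact h
theorem e_273_x : r273 * x = r223 := by
  have h := relA r223
  simp only [e_223_x] at h
  exact h
theorem e_274_x : r274 * x = r224 := by
  have h := relA r224
  simp only [e_224_x] at h
  exact h
theorem e_275_x : r275 * x = r226 := by
  have h := relA r226
  simp only [e_226_x] at h
  exact h
theorem e_276_x : r276 * x = r227 := by
  have h := relA r227
  simp only [e_227_x] at h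
  exact h
theorem e_279_x : r279 * x = r229 := by
  have h := relA r229
  simp only [e_229_x] at h
  exact h
theorem e_280_x : r280 * x = r230 := by
  have h := relA r230
  simp only [e_230_x] at h
  exact h
theorem e_281_x : r281 * x = r232 := by
  have h := relA r232
  simp only [e_232_x] at h
  exact h
theorem e_282_x : r282 * x = r233 := by
  have h := relA r233
  simp only [e_233_x] at h
  exact h
theorem e_284_x : r284 * x = r234 := by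
  have h := relA r234
  simp only [e_234_x] at h
  exact h
theorem e_286_x : r286 * x = r235 := by
  have h := relA r235
  simp only [e_235_x] at h
  exact h
theorem e_288_x : r288 * x = r236 := by
  have h := relA r236
  simp only [e_236_x] at h
  exact h
theorem e_295_x : r295 * x = r242 := by
  have h := relA r242
  simp only [e_242_x] at h
  exact h
theorem e_297_x : r297 * x = r244 := by
  have h := relA r244
  simp only [e_244_x] at h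
  exact h
theorem e_299_x : r299 * x = r246 := by
  have h := relA r246
  simp only [e_246_x] at h
  exact h
theorem e_301_x : r301 * x = r248 := by
  have h := relA r248
  simp only [e_248_x] at h
  exact h
theorem e_302_x : r302 * x = r249 := by
  have h := relA r249
  simp only [e_249_x] at h
  exact h
theorem e_303_x : r303 * x = r251 := by
  have h := relA r251
  simp only [e_251_x] at h
  exact h
theorem e_304_x : r304 * x = r252 := by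
  have h := relA r252
  simp only [e_252_x] at h
  exact h
theorem e_307_x : r307 * x = r254 := by
  have h := relA r254
  simp only [e_254_x] at h
  exact h
theorem e_308_x : r308 * x = r255 := by
  have h := relA r255
  simp only [e_255_x] at h
  exact h
theorem e_309_x : r309 * x = r257 := by
  have h := relA r257
  simp only [e_257_x] at h
  exact h
theorem e_310_x : r310 * x = r258 := by
  have h := relA r258
  simp only [e_258_x] at h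
  exact h
theorem e_312_x : r312 * x = r259 := by
  have h := relA r259
  simp only [e_259_x] at h
  exact h
theorem e_314_x : r314 * x = r260 := by
  have h := relA r260
  simp only [e_260_x] at h
  exact h
theorem e_316_x : r316 * x = r261 := by
  have h := relA r261
  simp only [e_261_x] at h
  exact h
theorem e_318_x : r318 * x = r262 := by
  have h := relA r262
  simp only [e_262_x] at h
  exact h
theorem e_319_x : r319 * x = r263 := by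
  have h := relA r263
  simp only [e_263_x] at h
  exact h
theorem e_321_x : r321 * x = r264 := by
  have h := relA r264
  simp only [e_264_x] at h
  exact h
theorem e_324_x : r324 * x = r266 := by
  have h := relA r266
  simp only [e_266_x] at h
  exact h
theorem e_327_x : r327 * x = r268 := by
  have h := relA r268
  simp only [e_268_x] at h
  exact h
theorem e_332_x : r332 * x = r272 := by
  have h := relA r272
  simp only [e_272_x] at h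
  exact h
theorem e_343_x : r343 * x = r283 := by
  have h := relA r283
  simp only [e_283_x] at h
  exact h
theorem e_345_x : r345 * x = r285 := by
  have h := relA r285
  simp only [e_285_x] at h
  exact h
theorem e_347_x : r347 * x = r287 := by
  have h := relA r287
  simp only [e_287_x] at h
  exact h
theorem e_349_x : r349 * x = r289 := by
  have h := relA r289
  simp only [e_289_x] at h
  exact h
theorem e_350_x : r350 * x = r290 := by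
  have h := relA r290
  simp only [e_290_x] at h
  exact h
theorem e_351_x : r351 * x = r291 := by
  have h := relA r291
  simp only [e_291_x] at h
  exact h
theorem e_353_x : r353 * x = r292 := by
  have h := relA r292
  simp only [e_292_x] at h
  exact h
theorem e_356_x : r356 * x = r294 := by
  have h := relA r294
  simp only [e_294_x] at h
  exact h
theorem e_359_x : r359 * x = r296 := by
  have h := relA r296
  simp only [e_296_x] at h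
  exact h
theorem e_364_x : r364 * x = r300 := by
  have h := relA r300
  simp only [e_300_x] at h
  exact h
theorem e_375_x : r375 * x = r311 := by
  have h := relA r311
  simp only [e_311_x] at h
  exact h
theorem e_377_x : r377 * x = r313 := by
  have h := relA r313
  simp only [e_313_x] at h
  exact h
theorem e_379_x : r379 * x = r315 := by
  have h := relA r315
  simp only [e_315_x] at h
  exact h
theorem e_381_x : r381 * x = r317 := by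
  have h := relA r317
  simp only [e_317_x] at h
  exact h
theorem e_384_x : r384 * x = r320 := by
  have h := relA r320
  simp only [e_320_x] at h
  exact h
theorem e_386_x : r386 * x = r322 := by
  have h := relA r322
  simp only [e_322_x] at h
  exact h
theorem e_387_x : r387 * x = r323 := by
  have h := relA r323
  simp only [e_323_x] at h
  exact h
theorem e_389_x : r389 * x = r325 := by
  have h := relA r325
  simp only [e_325_x] at h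
  exact h
theorem e_390_x : r390 * x = r328 := by
  have h := relA r328
  simp only [e_328_x] at h
  exact h
theorem e_391_x : r391 * x = r329 := by
  have h := relA r329
  simp only [e_329_x] at h
  exact h
theorem e_393_x : r393 * x = r331 := by
  have h := relA r331
  simp only [e_331_x] at h
  exact h
theorem e_394_x : r394 * x = r333 := by
  have h := relA r333
  simp only [e_333_x] at h
  exact h
theorem e_395_x : r395 * x = r334 := by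
  have h := relA r334
  simp only [e_334_x] at h
  exact h
theorem e_397_x : r397 * x = r335 := by
  have h := relA r335
  simp only [e_335_x] at h
  exact h
theorem e_399_x : r399 * x = r336 := by
  have h := relA r336
  simp only [e_336_x] at h
  exact h
theorem e_402_x : r402 * x = r339 := by
  have h := relA r339
  simp only [e_339_x] at h
  exact h
theorem e_404_x : r404 * x = r340 := by
  have h := relA r340
  simp only [e_340_x] at h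
  exact h
theorem e_407_x : r407 * x = r342 := by
  have h := relA r342
  simp only [e_342_x] at h
  exact h
theorem e_410_x : r410 * x = r344 := by
  have h := relA r344
  simp only [e_344_x] at h
  exact h
theorem e_415_x : r415 * x = r348 := by
  have h := relA r348
  simp only [e_348_x] at h
  exact h
theorem e_419_x : r419 * x = r352 := by
  have h := relA r352
  simp only [e_352_x] at h
  exact h
theorem e_421_x : r421 * x = r354 := by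
  have h := relA r354
  simp only [e_354_x] at h
  exact h
theorem e_422_x : r422 * x = r357 := by
  have h := relA r357
  simp only [e_357_x] at h
  exact h
theorem e_423_x : r423 * x = r365 := by
  have h := relA r365
  simp only [e_365_x] at h
  exact h
theorem e_424_x : r424 * x = r366 := by
  have h := relA r366
  simp only [e_366_x] at h
  exact h
theorem e_428_x : r428 * x = r371 := by
  have h := relA r371
  simp only [e_371_x] at h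
  exact h
theorem e_431_x : r431 * x = r374 := by
  have h := relA r374
  simp only [e_374_x] at h
  exact h
theorem e_434_x : r434 * x = r376 := by
  have h := relA r376
  simp only [e_376_x] at h
  exact h
theorem e_437_x : r437 * x = r380 := by
  have h := relA r380
  simp only [e_380_x] at h
  exact h
theorem e_448_x : r448 * x = r396 := by
  have h := relA r396
  simp only [e_396_x] at h
  exact h
theorem e_450_x : r450 * x = r401 := by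
  have h := relA r401
  simp only [e_401_x] at h
  exact h
theorem e_452_x : r452 * x = r406 := by
  have h := relA r406
  simp only [e_406_x] at h
  exact h
theorem e_454_x : r454 * x = r408 := by
  have h := relA r408
  simp only [e_408_x] at h
  exact h
theorem e_456_x : r456 * x = r417 := by
  have h := relA r417
  simp only [e_417_x] at h
  exact h
theorem e_463_x : r463 * x = r425 := by
  have h := relA r425
  simp only [e_425_x] at h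
  exact h
theorem e_464_x : r464 * x = r430 := by
  have h := relA r430
  simp only [e_430_x] at h
  exact h
theorem e_466_x : r466 * x = r432 := by
  have h := relA r432
  simp only [e_432_x] at h
  exact h
theorem e_468_x : r468 * x = r439 := by
  have h := relA r439
  simp only [e_439_x] at h
  exact h
theorem e_470_x : r470 * x = r441 := by
  have h := relA r441
  simp only [e_441_x] at h
  exact h
theorem e_471_x : r471 * x = r444 := by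
  have h := relA r444
  simp only [e_444_x] at h
  exact h
theorem e_474_x : r474 * x = r447 := by
  have h := relA r447
  simp only [e_447_x] at h
  exact h
theorem e_477_x : r477 * x = r449 := by
  have h := relA r449
  simp only [e_449_x] at h
  exact h
theorem e_483_x : r483 * x = r457 := by
  have h := relA r457
  simp only [e_457_x] at h
  exact h
theorem e_484_x : r484 * x = r460 := by
  have h := relA r460
  simp only [e_460_x] at h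
  exact h
theorem e_486_x : r486 * x = r462 := by
  have h := relA r462
  simp only [e_462_x] at h
  exact h
theorem e_492_x : r492 * x = r472 := by
  have h := relA r472
  simp only [e_472_x] at h
  exact h
theorem e_493_x : r493 * x = r475 := by
  have h := relA r475
  simp only [e_475_x] at h
  exact h
theorem e_494_x : r494 * x = r478 := by
  have h := relA r478
  simp only [e_478_x] at h
  exact h
theorem e_495_x : r495 * x = r479 := by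
  have h := relA r479
  simp only [e_479_x] at h
  exact h
theorem e_496_x : r496 * x = r481 := by
  have h := relA r481
  simp only [e_481_x] at h
  exact h
theorem e_497_x : r497 * x = r482 := by
  have h := relA r482
  simp only [e_482_x] at h
  exact h
theorem e_498_x : r498 * x = r485 := by
  have h := relA r485
  simp only [e_485_x] at h
  exact h
theorem e_499_x : r499 * x = r487 := by
  have h := relA r487
  simp only [e_487_x] at h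
  exact h
theorem e_500_x : r500 * x = r490 := by
  have h := relA r490
  simp only [e_490_x] at h
  exact h
theorem e_501_x : r501 * x = r491 := by
  have h := relA r491
  simp only [e_491_x] at h
  exact h
theorem e_5_y : r5 * y = r0 := by
  have h := relB r0
  simp only [e_0_y, e_2_y] at h
  exact h
theorem e_7_y : r7 * y = r1 := by
  have h := relB r1
  simp only [e_1_y, e_3_y] at h
  exact h
theorem e_13_y : r13 * y = r4 := by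
  have h := relB r4
  simp only [e_4_y, e_8_y] at h
  exact h
theorem e_16_y : r16 * y = r6 := by
  have h := relB r6
  simp only [e_6_y, e_10_y] at h
  exact h
theorem e_21_y : r21 * y = r9 := by
  have h := relB r9
  simp only [e_9_y, e_14_y] at h
  exact h
theorem e_25_y : r25 * y = r11 := by
  have h := relB r11
  simp only [e_11_y, e_17_y] at h
  exact h
theorem e_27_y : r27 * y = r12 := by
  have h := relB r12
  simp only [e_12_y, e_18_y] at h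
  exact h
theorem e_32_y : r32 * y = r15 := by
  have h := relB r15
  simp only [e_15_y, e_22_y] at h
  exact h
theorem e_39_y : r39 * y = r19 := by
  have h := relB r19
  simp only [e_19_y, e_28_y] at h
  exact h
theorem e_41_y : r41 * y = r20 := by
  have h := relB r20
  simp only [e_20_y, e_29_y] at h
  exact h
theorem e_46_y : r46 * y = r23 := by
  have h := relB r23
  simp only [e_23_y, e_33_y] at h
  exact h
theorem e_48_y : r48 * y = r24 := by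
  have h := relB r24
  simp only [e_24_y, e_34_y] at h
  exact h
theorem e_51_y : r51 * y = r26 := by
  have h := relB r26
  simp only [e_26_y, e_36_y] at h
  exact h
theorem e_58_y : r58 * y = r30 := by
  have h := relB r30
  simp only [e_30_y, e_42_y] at h
  exact h
theorem e_59_y : r59 * y = r31 := by
  have h := relB r31
  simp only [e_31_y, e_43_y] at h
  exact h
theorem e_68_y : r68 * y = r37 := by
  have h := relB r37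
  simp only [e_37_y, e_52_y] at h
  exact h
theorem e_70_y : r70 * y = r38 := by
  have h := relB r38
  simp only [e_38_y, e_53_y] at h
  exact h
theorem e_73_y : r73 * y = r40 := by
  have h := relB r40
  simp only [e_40_y, e_55_y] at h
  exact h
theorem e_78_y : r78 * y = r44 := by
  have h := relB r44
  simp only [e_44_y, e_60_y] at h
  exact h
theorem e_80_y : r80 * y = r45 := by
  have h := relB r45
  simp only [e_45_y, e_61_y] at h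
  exact h
theorem e_83_y : r83 * y = r47 := by
  have h := relB r47
  simp only [e_47_y, e_63_y] at h
  exact h
theorem e_94_y : r94 * y = r56 := by
  have h := relB r56
  simp only [e_56_y, e_74_y] at h
  exact h
theorem e_96_y : r96 * y = r57 := by
  have h := relB r57
  simp only [e_57_y, e_75_y] at h
  exact h
theorem e_105_y : r105 * y = r64 := by
  have h := relB r64
  simp only [e_64_y, e_84_y] at h
  exact h
theorem e_107_y : r107 * y = r65 := by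
  have h := relB r65
  simp only [e_65_y, e_85_y] at h
  exact h
theorem e_109_y : r109 * y = r66 := by
  have h := relB r66
  simp only [e_66_y, e_86_y] at h
  exact h
theorem e_111_y : r111 * y = r67 := by
  have h := relB r67
  simp only [e_67_y, e_87_y] at h
  exact h
theorem e_114_y : r114 * y = r69 := by
  have h := relB r69
  simp only [e_69_y, e_89_y] at h
  exact h
theorem e_123_y : r123 * y = r76 := by
  have h := relB r76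
  simp only [e_76_y, e_97_y] at h
  exact h
theorem e_125_y : r125 * y = r77 := by
  have h := relB r77
  simp only [e_77_y, e_98_y] at h
  exact h
theorem e_128_y : r128 * y = r79 := by
  have h := relB r79
  simp only [e_79_y, e_100_y] at h
  exact h
theorem e_143_y : r143 * y = r90 := by
  have h := relB r90
  simp only [e_90_y, e_115_y] at h
  exact h
theorem e_145_y : r145 * y = r91 := by
  have h := relB r91
  simp only [e_91_y, e_116_y] at h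
  exact h
theorem e_147_y : r147 * y = r92 := by
  have h := relB r92
  simp only [e_92_y, e_117_y] at h
  exact h
theorem e_149_y : r149 * y = r93 := by
  have h := relB r93
  simp only [e_93_y, e_118_y] at h
  exact h
theorem e_152_y : r152 * y = r95 := by
  have h := relB r95
  simp only [e_95_y, e_120_y] at h
  exact h
theorem e_161_y : r161 * y = r101 := by
  have h := relB r101
  simp only [e_101_y, e_129_y] at h
  exact h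
theorem e_163_y : r163 * y = r102 := by
  have h := relB r102
  simp only [e_102_y, e_130_y] at h
  exact h
theorem e_165_y : r165 * y = r103 := by
  have h := relB r103
  simp only [e_103_y, e_131_y] at h
  exact h
theorem e_167_y : r167 * y = r104 := by
  have h := relB r104
  simp only [e_104_y, e_132_y] at h
  exact h
theorem e_170_y : r170 * y = r106 := by
  have h := relB r106
  simp only [e_106_y, e_134_y] at h
  exact h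
theorem e_173_y : r173 * y = r108 := by
  have h := relB r108
  simp only [e_108_y, e_136_y] at h
  exact h
theorem e_176_y : r176 * y = r110 := by
  have h := relB r110
  simp only [e_110_y, e_138_y] at h
  exact h
theorem e_191_y : r191 * y = r121 := by
  have h := relB r121
  simp only [e_121_y, e_153_y] at h
  exact h
theorem e_193_y : r193 * y = r122 := by
  have h := relB r122
  simp only [e_122_y, e_154_y] at h
  exact h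
theorem e_196_y : r196 * y = r124 := by
  have h := relB r124
  simp only [e_124_y, e_156_y] at h
  exact h
theorem e_211_y : r211 * y = r135 := by
  have h := relB r135
  simp only [e_135_y, e_171_y] at h
  exact h
theorem e_217_y : r217 * y = r139 := by
  have h := relB r139
  simp only [e_139_y, e_177_y] at h
  exact h
theorem e_219_y : r219 * y = r140 := by
  have h := relB r140
  simp only [e_140_y, e_178_y] at h
  exact h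
theorem e_221_y : r221 * y = r141 := by
  have h := relB r141
  simp only [e_141_y, e_179_y] at h
  exact h
theorem e_223_y : r223 * y = r142 := by
  have h := relB r142
  simp only [e_142_y, e_180_y] at h
  exact h
theorem e_226_y : r226 * y = r144 := by
  have h := relB r144
  simp only [e_144_y, e_182_y] at h
  exact h
theorem e_229_y : r229 * y = r146 := by
  have h := relB r146
  simp only [e_146_y, e_184_y] at h
  exact h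
theorem e_232_y : r232 * y = r148 := by
  have h := relB r148
  simp only [e_148_y, e_186_y] at h
  exact h
theorem e_242_y : r242 * y = r157 := by
  have h := relB r157
  simp only [e_157_y, e_197_y] at h
  exact h
theorem e_244_y : r244 * y = r158 := by
  have h := relB r158
  simp only [e_158_y, e_198_y] at h
  exact h
theorem e_246_y : r246 * y = r159 := by
  have h := relB r159
  simp only [e_159_y, e_199_y] at h
  exact h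
theorem e_248_y : r248 * y = r160 := by
  have h := relB r160
  simp only [e_160_y, e_200_y] at h
  exact h
theorem e_251_y : r251 * y = r162 := by
  have h := relB r162
  simp only [e_162_y, e_202_y] at h
  exact h
theorem e_254_y : r254 * y = r164 := by
  have h := relB r164
  simp only [e_164_y, e_204_y] at h
  exact h
theorem e_257_y : r257 * y = r166 := by
  have h := relB r166
  simp only [e_166_y, e_206_y] at h
  exact h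
theorem e_262_y : r262 * y = r172 := by
  have h := relB r172
  simp only [e_172_y, e_212_y] at h
  exact h
theorem e_277_y : r277 * y = r183 := by
  have h := relB r183
  simp only [e_183_y, e_227_y] at h
  exact h
theorem e_283_y : r283 * y = r187 := by
  have h := relB r187
  simp only [e_187_y, e_233_y] at h
  exact h
theorem e_285_y : r285 * y = r188 := by
  have h := relB r188
  simp only [e_188_y, e_234_y] at h
  exact h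
theorem e_287_y : r287 * y = r189 := by
  have h := relB r189
  simp only [e_189_y, e_235_y] at h
  exact h
theorem e_289_y : r289 * y = r190 := by
  have h := relB r190
  simp only [e_190_y, e_236_y] at h
  exact h
theorem e_305_y : r305 * y = r203 := by
  have h := relB r203
  simp only [e_203_y, e_252_y] at h
  exact h
theorem e_311_y : r311 * y = r207 := by
  have h := relB r207
  simp only [e_207_y, e_258_y] at h
  exact h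
theorem e_313_y : r313 * y = r208 := by
  have h := relB r208
  simp only [e_208_y, e_259_y] at h
  exact h
theorem e_315_y : r315 * y = r209 := by
  have h := relB r209
  simp only [e_209_y, e_260_y] at h
  exact h
theorem e_317_y : r317 * y = r210 := by
  have h := relB r210
  simp only [e_210_y, e_261_y] at h
  exact h
theorem e_320_y : r320 * y = r213 := by
  have h := relB r213
  simp only [e_213_y, e_263_y] at h
  exact h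
theorem e_322_y : r322 * y = r214 := by
  have h := relB r214
  simp only [e_214_y, e_264_y] at h
  exact h
theorem e_323_y : r323 * y = r215 := by
  have h := relB r215
  simp only [e_215_y, e_265_y] at h
  exact h
theorem e_325_y : r325 * y = r216 := by
  have h := relB r216
  simp only [e_216_y, e_266_y] at h
  exact h
theorem e_328_y : r328 * y = r218 := by
  have h := relB r218
  simp only [e_218_y, e_268_y] at h
  exact h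
theorem e_330_y : r330 * y = r220 := by
  have h := relB r220
  simp only [e_220_y, e_270_y] at h
  exact h
theorem e_333_y : r333 * y = r222 := by
  have h := relB r222
  simp only [e_222_y, e_272_y] at h
  exact h
theorem e_338_y : r338 * y = r228 := by
  have h := relB r228
  simp only [e_228_y, e_278_y] at h
  exact h
theorem e_352_y : r352 * y = r238 := by
  have h := relB r238
  simp only [e_238_y, e_291_y] at h
  exact h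
theorem e_354_y : r354 * y = r239 := by
  have h := relB r239
  simp only [e_239_y, e_292_y] at h
  exact h
theorem e_355_y : r355 * y = r240 := by
  have h := relB r240
  simp only [e_240_y, e_293_y] at h
  exact h
theorem e_357_y : r357 * y = r241 := by
  have h := relB r241
  simp only [e_241_y, e_294_y] at h
  exact h
theorem e_360_y : r360 * y = r243 := by
  have h := relB r243
  simp only [e_243_y, e_296_y] at h
  exact h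
theorem e_362_y : r362 * y = r245 := by
  have h := relB r245
  simp only [e_245_y, e_298_y] at h
  exact h
theorem e_365_y : r365 * y = r247 := by
  have h := relB r247
  simp only [e_247_y, e_300_y] at h
  exact h
theorem e_370_y : r370 * y = r253 := by
  have h := relB r253
  simp only [e_253_y, e_306_y] at h
  exact h
theorem e_392_y : r392 * y = r269 := by
  have h := relB r269
  simp only [e_269_y, e_329_y] at h
  exact h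
theorem e_396_y : r396 * y = r273 := by
  have h := relB r273
  simp only [e_273_y, e_334_y] at h
  exact h
theorem e_398_y : r398 * y = r274 := by
  have h := relB r274
  simp only [e_274_y, e_335_y] at h
  exact h
theorem e_400_y : r400 * y = r275 := by
  have h := relB r275
  simp only [e_275_y, e_336_y] at h
  exact h
theorem e_401_y : r401 * y = r276 := by
  have h := relB r276
  simp only [e_276_y, e_337_y] at h
  exact h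
theorem e_403_y : r403 * y = r279 := by
  have h := relB r279
  simp only [e_279_y, e_339_y] at h
  exact h
theorem e_405_y : r405 * y = r280 := by
  have h := relB r280
  simp only [e_280_y, e_340_y] at h
  exact h
theorem e_406_y : r406 * y = r281 := by
  have h := relB r281
  simp only [e_281_y, e_341_y] at h
  exact h
theorem e_408_y : r408 * y = r282 := by
  have h := relB r282
  simp only [e_282_y, e_342_y] at h
  exact h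
theorem e_411_y : r411 * y = r284 := by
  have h := relB r284
  simp only [e_284_y, e_344_y] at h
  exact h
theorem e_413_y : r413 * y = r286 := by
  have h := relB r286
  simp only [e_286_y, e_346_y] at h
  exact h
theorem e_416_y : r416 * y = r288 := by
  have h := relB r288
  simp only [e_288_y, e_348_y] at h
  exact h
theorem e_425_y : r425 * y = r301 := by
  have h := relB r301
  simp only [e_301_y, e_366_y] at h
  exact h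
theorem e_426_y : r426 * y = r302 := by
  have h := relB r302
  simp only [e_302_y, e_367_y] at h
  exact h
theorem e_427_y : r427 * y = r304 := by
  have h := relB r304
  simp only [e_304_y, e_369_y] at h
  exact h
theorem e_429_y : r429 * y = r307 := by
  have h := relB r307
  simp only [e_307_y, e_371_y] at h
  exact h
theorem e_430_y : r430 * y = r309 := by
  have h := relB r309
  simp only [e_309_y, e_373_y] at h
  exact h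
theorem e_432_y : r432 * y = r310 := by
  have h := relB r310
  simp only [e_310_y, e_374_y] at h
  exact h
theorem e_436_y : r436 * y = r314 := by
  have h := relB r314
  simp only [e_314_y, e_378_y] at h
  exact h
theorem e_438_y : r438 * y = r316 := by
  have h := relB r316
  simp only [e_316_y, e_380_y] at h
  exact h
theorem e_440_y : r440 * y = r318 := by
  have h := relB r318
  simp only [e_318_y, e_382_y] at h
  exact h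
theorem e_441_y : r441 * y = r319 := by
  have h := relB r319
  simp only [e_319_y, e_383_y] at h
  exact h
theorem e_443_y : r443 * y = r324 := by
  have h := relB r324
  simp only [e_324_y, e_388_y] at h
  exact h
theorem e_455_y : r455 * y = r345 := by
  have h := relB r345
  simp only [e_345_y, e_412_y] at h
  exact h
theorem e_457_y : r457 * y = r349 := by
  have h := relB r349
  simp only [e_349_y, e_417_y] at h
  exact h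
theorem e_458_y : r458 * y = r350 := by
  have h := relB r350
  simp only [e_350_y, e_418_y] at h
  exact h
theorem e_467_y : r467 * y = r377 := by
  have h := relB r377
  simp only [e_377_y, e_435_y] at h
  exact h
theorem e_469_y : r469 * y = r381 := by
  have h := relB r381
  simp only [e_381_y, e_439_y] at h
  exact h
theorem e_472_y : r472 * y = r389 := by
  have h := relB r389
  simp only [e_389_y, e_444_y] at h
  exact h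
theorem e_473_y : r473 * y = r394 := by
  have h := relB r394
  simp only [e_394_y, e_446_y] at h
  exact h
theorem e_475_y : r475 * y = r395 := by
  have h := relB r395
  simp only [e_395_y, e_447_y] at h
  exact h
theorem e_479_y : r479 * y = r402 := by
  have h := relB r402
  simp only [e_402_y, e_451_y] at h
  exact h
theorem e_480_y : r480 * y = r407 := by
  have h := relB r407
  simp only [e_407_y, e_453_y] at h
  exact h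
theorem e_485_y : r485 * y = r422 := by
  have h := relB r422
  simp only [e_422_y, e_460_y] at h
  exact h
theorem e_487_y : r487 * y = r424 := by
  have h := relB r424
  simp only [e_424_y, e_462_y] at h
  exact h
theorem e_489_y : r489 * y = r431 := by
  have h := relB r431
  simp only [e_431_y, e_465_y] at h
  exact h
theorem e_43_x : r43 * x = r58 := by
  have h := relC r0
  simp only [e_0_x, e_1_y, e_3_x, e_6_y, e_10_x, e_15_y, e_22_x, e_31_y] at h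
  have h2 : r58 * y * x * y * x * y = r0 := by simp only [e_58_y, e_30_x, e_21_y, e_9_x, e_5_y]
  exact (mul_right_cancel (mul_right_cancel (mul_right_cancel (mul_right_cancel (mul_right_cancel (h.trans h2.symm))))))
theorem e_50_y : r50 * y = r35 := by
  have h := relC r1
  simp only [e_1_x, e_0_y, e_2_x, e_4_y, e_8_x, e_12_y, e_18_x, e_26_y, e_36_x] at h
  have h2 : r35 * x * y * x * y = r1 := by simp only [e_35_x, e_25_y, e_11_x, e_7_y]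
  exact (mul_right_cancel (mul_right_cancel (mul_right_cancel (mul_right_cancel (h.trans h2.symm)))))
theorem e_72_y : r72 * y = r54 := by
  have h := relC r4
  simp only [e_4_x, e_2_y, e_5_x, e_9_y, e_14_x, e_20_y, e_29_x, e_40_y, e_55_x] at h
  have h2 : r54 * x * y * x * y = r4 := by simp only [e_54_x, e_39_y, e_19_x, e_13_y]
  exact (mul_right_cancel (mul_right_cancel (mul_right_cancel (mul_right_cancel (h.trans h2.symm)))))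
theorem e_82_y : r82 * y = r62 := by
  have h := relC r6
  simp only [e_6_x, e_3_y, e_7_x, e_11_y, e_17_x, e_24_y, e_34_x, e_47_y, e_63_x] at h
  have h2 : r62 * x * y * x * y = r6 := by simp only [e_62_x, e_46_y, e_23_x, e_16_y]
  exact (mul_right_cancel (mul_right_cancel (mul_right_cancel (mul_right_cancel (h.trans h2.symm)))))
theorem e_113_y : r113 * y = r88 := by
  have h := relC r12
  simp only [e_12_x, e_8_y, e_13_x, e_19_y, e_28_x, e_38_y, e_53_x, e_69_y, e_89_x] at h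
  have h2 : r88 * x * y * x * y = r12 := by simp only [e_88_x, e_68_y, e_37_x, e_27_y]
  exact (mul_right_cancel (mul_right_cancel (mul_right_cancel (mul_right_cancel (h.trans h2.symm)))))
theorem e_127_y : r127 * y = r99 := by
  have h := relC r15
  simp only [e_15_x, e_10_y, e_16_x, e_23_y, e_33_x, e_45_y, e_61_x, e_79_y, e_100_x] at h
  have h2 : r99 * x * y * x * y = r15 := by simp only [e_99_x, e_78_y, e_44_x, e_32_y]
  exact (mul_right_cancel (mul_right_cancel (mul_right_cancel (mul_right_cancel (h.trans h2.symm)))))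
theorem e_151_y : r151 * y = r119 := by
  have h := relC r20
  simp only [e_20_x, e_14_y, e_21_x, e_30_y, e_42_x, e_57_y, e_75_x, e_95_y, e_120_x] at h
  have h2 : r119 * x * y * x * y = r20 := by simp only [e_119_x, e_94_y, e_56_x, e_41_y]
  exact (mul_right_cancel (mul_right_cancel (mul_right_cancel (mul_right_cancel (h.trans h2.symm)))))
theorem e_169_y : r169 * y = r133 := by
  have h := relC r24
  simp only [e_24_x, e_17_y, e_25_x, e_35_y, e_49_x, e_65_y, e_85_x, e_106_y, e_134_x] at h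
  have h2 : r133 * x * y * x * y = r24 := by simp only [e_133_x, e_105_y, e_64_x, e_48_y]
  exact (mul_right_cancel (mul_right_cancel (mul_right_cancel (mul_right_cancel (h.trans h2.symm)))))
theorem e_175_y : r175 * y = r137 := by
  have h := relC r26
  simp only [e_26_x, e_18_y, e_27_x, e_37_y, e_52_x, e_67_y, e_87_x, e_110_y, e_138_x] at h
  have h2 : r137 * x * y * x * y = r26 := by simp only [e_137_x, e_109_y, e_66_x, e_51_y]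
  exact (mul_right_cancel (mul_right_cancel (mul_right_cancel (mul_right_cancel (h.trans h2.symm)))))
theorem e_195_y : r195 * y = r155 := by
  have h := relC r31
  simp only [e_31_x, e_22_y, e_32_x, e_44_y, e_60_x, e_77_y, e_98_x, e_124_y, e_156_x] at h
  have h2 : r155 * x * y * x * y = r31 := by simp only [e_155_x, e_123_y, e_76_x, e_59_y]
  exact (mul_right_cancel (mul_right_cancel (mul_right_cancel (mul_right_cancel (h.trans h2.symm)))))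
theorem e_225_y : r225 * y = r181 := by
  have h := relC r38
  simp only [e_38_x, e_28_y, e_39_x, e_54_y, e_71_x, e_91_y, e_116_x, e_144_y, e_182_x] at h
  have h2 : r181 * x * y * x * y = r38 := by simp only [e_181_x, e_143_y, e_90_x, e_70_y]
  exact (mul_right_cancel (mul_right_cancel (mul_right_cancel (mul_right_cancel (h.trans h2.symm)))))
theorem e_231_y : r231 * y = r185 := by
  have h := relC r40
  simp only [e_40_x, e_29_y, e_41_x, e_56_y, e_74_x, e_93_y, e_118_x, e_148_y, e_186_x] at h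
  have h2 : r185 * x * y * x * y = r40 := by simp only [e_185_x, e_147_y, e_92_x, e_73_y]
  exact (mul_right_cancel (mul_right_cancel (mul_right_cancel (mul_right_cancel (h.trans h2.symm)))))
theorem e_250_y : r250 * y = r201 := by
  have h := relC r45
  simp only [e_45_x, e_33_y, e_46_x, e_62_y, e_81_x, e_102_y, e_130_x, e_162_y, e_202_x] at h
  have h2 : r201 * x * y * x * y = r45 := by simp only [e_201_x, e_161_y, e_101_x, e_80_y]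
  exact (mul_right_cancel (mul_right_cancel (mul_right_cancel (mul_right_cancel (h.trans h2.symm)))))
theorem e_256_y : r256 * y = r205 := by
  have h := relC r47
  simp only [e_47_x, e_34_y, e_48_x, e_64_y, e_84_x, e_104_y, e_132_x, e_166_y, e_206_x] at h
  have h2 : r205 * x * y * x * y = r47 := by simp only [e_205_x, e_165_y, e_103_x, e_83_y]
  exact (mul_right_cancel (mul_right_cancel (mul_right_cancel (mul_right_cancel (h.trans h2.symm)))))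
theorem e_327_y : r327 * y = r267 := by
  have h := relC r67
  simp only [e_67_x, e_52_y, e_68_x, e_88_y, e_112_x, e_140_y, e_178_x, e_218_y, e_268_x] at h
  have h2 : r267 * x * y * x * y = r67 := by simp only [e_267_x, e_217_y, e_139_x, e_111_y]
  exact (mul_right_cancel (mul_right_cancel (mul_right_cancel (mul_right_cancel (h.trans h2.symm)))))
theorem e_332_y : r332 * y = r271 := by
  have h := relC r69
  simp only [e_69_x, e_53_y, e_70_x, e_90_y, e_115_x, e_142_y, e_180_x, e_222_y, e_272_x] at h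
  have h2 : r271 * x * y * x * y = r69 := by simp only [e_271_x, e_221_y, e_141_x, e_114_y]
  exact (mul_right_cancel (mul_right_cancel (mul_right_cancel (mul_right_cancel (h.trans h2.symm)))))
theorem e_359_y : r359 * y = r295 := by
  have h := relC r77
  simp only [e_77_x, e_60_y, e_78_x, e_99_y, e_126_x, e_158_y, e_198_x, e_243_y, e_296_x] at h
  have h2 : r295 * x * y * x * y = r77 := by simp only [e_295_x, e_242_y, e_157_x, e_125_y]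
  exact (mul_right_cancel (mul_right_cancel (mul_right_cancel (mul_right_cancel (h.trans h2.symm)))))
theorem e_364_y : r364 * y = r299 := by
  have h := relC r79
  simp only [e_79_x, e_61_y, e_80_x, e_101_y, e_129_x, e_160_y, e_200_x, e_247_y, e_300_x] at h
  have h2 : r299 * x * y * x * y = r79 := by simp only [e_299_x, e_246_y, e_159_x, e_128_y]
  exact (mul_right_cancel (mul_right_cancel (mul_right_cancel (mul_right_cancel (h.trans h2.symm)))))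
theorem e_410_y : r410 * y = r343 := by
  have h := relC r93
  simp only [e_93_x, e_74_y, e_94_x, e_119_y, e_150_x, e_188_y, e_234_x, e_284_y, e_344_x] at h
  have h2 : r343 * x * y * x * y = r93 := by simp only [e_343_x, e_283_y, e_187_x, e_149_y]
  exact (mul_right_cancel (mul_right_cancel (mul_right_cancel (mul_right_cancel (h.trans h2.symm)))))
theorem e_415_y : r415 * y = r347 := by
  have h := relC r95
  simp only [e_95_x, e_75_y, e_96_x, e_121_y, e_153_x, e_190_y, e_236_x, e_288_y, e_348_x] at h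
  have h2 : r347 * x * y * x * y = r95 := by simp only [e_347_x, e_287_y, e_189_x, e_152_y]
  exact (mul_right_cancel (mul_right_cancel (mul_right_cancel (mul_right_cancel (h.trans h2.symm)))))
theorem e_434_y : r434 * y = r375 := by
  have h := relC r104
  simp only [e_104_x, e_84_y, e_105_x, e_133_y, e_168_x, e_208_y, e_259_x, e_312_y, e_376_x] at h
  have h2 : r375 * x * y * x * y = r104 := by simp only [e_375_x, e_311_y, e_207_x, e_167_y]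
  exact (mul_right_cancel (mul_right_cancel (mul_right_cancel (mul_right_cancel (h.trans h2.symm)))))
theorem e_437_y : r437 * y = r379 := by
  have h := relC r106
  simp only [e_106_x, e_85_y, e_107_x, e_135_y, e_171_x, e_210_y, e_261_x, e_316_y, e_380_x] at h
  have h2 : r379 * x * y * x * y = r106 := by simp only [e_379_x, e_315_y, e_209_x, e_170_y]
  exact (mul_right_cancel (mul_right_cancel (mul_right_cancel (mul_right_cancel (h.trans h2.symm)))))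
theorem e_477_y : r477 * y = r448 := by
  have h := relC r142
  simp only [e_142_x, e_115_y, e_143_x, e_181_y, e_224_x, e_274_y, e_335_x, e_397_y, e_449_x] at h
  have h2 : r448 * x * y * x * y = r142 := by simp only [e_448_x, e_396_y, e_273_x, e_223_y]
  exact (mul_right_cancel (mul_right_cancel (mul_right_cancel (mul_right_cancel (h.trans h2.symm)))))
theorem e_270_x : r270 * x = r293 := by
  have h := relD r13
  simp only [e_13_x, e_19_y, e_28_x, e_38_y, e_53_x, e_69_y, e_89_y, e_114_x, e_141_y, e_179_x, e_220_y] at h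
  have h2 : r293 * y * y * x * y * y * x * y * x * y * x * y * y * x * y * x * y * x * y * y * x * y * y = r13 := by simp only [e_293_y, e_355_y, e_240_x, e_196_y, e_124_y, e_156_x, e_195_y, e_155_x, e_123_y, e_76_x, e_59_y, e_31_y, e_43_x, e_58_y, e_30_x, e_21_y, e_9_x, e_5_y, e_0_y, e_2_x, e_4_y, e_8_y]
  exact (mul_right_cancel (mul_right_cancel (mul_right_cancel (mul_right_cancel (mul_right_cancel (mul_right_cancel (mul_right_cancel (mul_right_cancel (mul_right_cancel (mul_right_cancel (mul_right_cancel (mul_right_cancel (mul_right_cancel (mul_right_cancel (mul_right_cancel (mul_right_cancel (mul_right_cancel (mul_right_cancel (mul_right_cancel (mul_right_cancel (mul_right_cancel (mul_right_cancel (h.trans h2.symm)))))))))))))))))))))))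
theorem e_298_x : r298 * x = r265 := by
  have h := relD r16
  simp only [e_16_x, e_23_y, e_33_x, e_45_y, e_61_x, e_79_y, e_100_y, e_128_x, e_159_y, e_199_x, e_245_y] at h
  have h2 : r265 * y * y * x * y * y * x * y * x * y * x * y * y * x * y * x * y * x * y * y * x * y * y = r16 := by simp only [e_265_y, e_323_y, e_215_x, e_176_y, e_110_y, e_138_x, e_175_y, e_137_x, e_109_y, e_66_x, e_51_y, e_26_y, e_36_x, e_50_y, e_35_x, e_25_y, e_11_x, e_7_y, e_1_y, e_3_x, e_6_y, e_10_y]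
  exact (mul_right_cancel (mul_right_cancel (mul_right_cancel (mul_right_cancel (mul_right_cancel (mul_right_cancel (mul_right_cancel (mul_right_cancel (mul_right_cancel (mul_right_cancel (mul_right_cancel (mul_right_cancel (mul_right_cancel (mul_right_cancel (mul_right_cancel (mul_right_cancel (mul_right_cancel (mul_right_cancel (mul_right_cancel (mul_right_cancel (mul_right_cancel (mul_right_cancel (h.trans h2.symm)))))))))))))))))))))))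
theorem e_420_y : r420 * y = r384 := by
  have h := relD r36
  simp only [e_36_x, e_50_y, e_35_x, e_25_y, e_11_x, e_7_y, e_1_y, e_3_x, e_6_y, e_10_x, e_15_y, e_22_x, e_31_y, e_43_y, e_59_x, e_76_y, e_97_y, e_123_x, e_155_y, e_194_x, e_239_y, e_292_x, e_353_y] at h
  have h2 : r384 * x * y * x * y * x * y * y * x * y * y = r36 := by simp only [e_384_x, e_320_y, e_213_x, e_173_y, e_108_x, e_86_y, e_109_y, e_66_x, e_51_y, e_26_y]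
  exact (mul_right_cancel (mul_right_cancel (mul_right_cancel (mul_right_cancel (mul_right_cancel (mul_right_cancel (mul_right_cancel (mul_right_cancel (mul_right_cancel (mul_right_cancel (h.trans h2.symm)))))))))))
theorem e_341_x : r341 * x = r362 := by
  have h := relD r41
  simp only [e_41_x, e_56_y, e_74_x, e_93_y, e_118_x, e_148_y, e_186_y, e_232_x, e_281_y] at h
  have h2 : r362 * y * x * y * y * x * y * y * x * y * x * y * x * y * y * x * y * x * y * x * y * y * x * y * y = r41 := by simp only [e_362_y, e_245_x, e_199_y, e_246_y, e_159_x, e_128_y, e_79_y, e_100_x, e_127_y, e_99_x, e_78_y, e_44_x, e_32_y, e_15_y, e_22_x, e_31_y, e_43_x, e_58_y, e_30_x, e_21_y, e_9_y, e_14_x, e_20_y, e_29_y]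
  exact (mul_right_cancel (mul_right_cancel (mul_right_cancel (mul_right_cancel (mul_right_cancel (mul_right_cancel (mul_right_cancel (mul_right_cancel (mul_right_cancel (mul_right_cancel (mul_right_cancel (mul_right_cancel (mul_right_cancel (mul_right_cancel (mul_right_cancel (mul_right_cancel (mul_right_cancel (mul_right_cancel (mul_right_cancel (mul_right_cancel (mul_right_cancel (mul_right_cancel (mul_right_cancel (mul_right_cancel (h.trans h2.symm)))))))))))))))))))))))))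
theorem e_385_y : r385 * y = r419 := by
  have h := relD r43
  simp only [e_43_x, e_58_y, e_30_x, e_21_y, e_9_x, e_5_y, e_0_y, e_2_x, e_4_y, e_8_x, e_12_y, e_18_x, e_26_y, e_36_y, e_51_x, e_66_y, e_86_y, e_109_x, e_137_y, e_174_x, e_214_y, e_264_x, e_321_y] at h
  have h2 : r419 * x * y * x * y * x * y * y * x * y * y = r43 := by simp only [e_419_x, e_352_y, e_238_x, e_193_y, e_122_x, e_97_y, e_123_y, e_76_x, e_59_y, e_31_y]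
  exact (mul_right_cancel (mul_right_cancel (mul_right_cancel (mul_right_cancel (mul_right_cancel (mul_right_cancel (mul_right_cancel (mul_right_cancel (mul_right_cancel (mul_right_cancel (h.trans h2.symm)))))))))))
theorem e_373_x : r373 * x = r330 := by
  have h := relD r48
  simp only [e_48_x, e_64_y, e_84_x, e_104_y, e_132_x, e_166_y, e_206_y, e_257_x, e_309_y] at h
  have h2 : r330 * y * x * y * y * x * y * y * x * y * x * y * x * y * y * x * y * x * y * x * y * y * x * y * y = r48 := by simp only [e_330_y, e_220_x, e_179_y, e_221_y, e_141_x, e_114_y, e_69_y, e_89_x, e_113_y, e_88_x, e_68_y, e_37_x, e_27_y, e_12_y, e_18_x, e_26_y, e_36_x, e_50_y, e_35_x, e_25_y, e_11_y, e_17_x, e_24_y, e_34_y]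
  exact (mul_right_cancel (mul_right_cancel (mul_right_cancel (mul_right_cancel (mul_right_cancel (mul_right_cancel (mul_right_cancel (mul_right_cancel (mul_right_cancel (mul_right_cancel (mul_right_cancel (mul_right_cancel (mul_right_cancel (mul_right_cancel (mul_right_cancel (mul_right_cancel (mul_right_cancel (mul_right_cancel (mul_right_cancel (mul_right_cancel (mul_right_cancel (mul_right_cancel (mul_right_cancel (mul_right_cancel (h.trans h2.symm)))))))))))))))))))))))))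
theorem e_438_x : r438 * x = r403 := by
  have h := relD r55
  simp only [e_55_x, e_72_y, e_54_x, e_39_y, e_19_x, e_13_y, e_4_y, e_8_x, e_12_y, e_18_x, e_26_y, e_36_x, e_50_y, e_35_y, e_49_x, e_65_y, e_85_y, e_107_x, e_135_y, e_171_x, e_210_y, e_261_x, e_316_y, e_380_y] at h
  have h2 : r403 * y * x * y * x * y * y * x * y * y = r55 := by simp only [e_403_y, e_279_x, e_229_y, e_146_x, e_117_y, e_147_y, e_92_x, e_73_y, e_40_y]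
  exact (mul_right_cancel (mul_right_cancel (mul_right_cancel (mul_right_cancel (mul_right_cancel (mul_right_cancel (mul_right_cancel (mul_right_cancel (mul_right_cancel (h.trans h2.symm))))))))))
theorem e_416_x : r416 * x = r429 := by
  have h := relD r63
  simp only [e_63_x, e_82_y, e_62_x, e_46_y, e_23_x, e_16_y, e_6_y, e_10_x, e_15_y, e_22_x, e_31_y, e_43_x, e_58_y, e_30_y, e_42_x, e_57_y, e_75_y, e_96_x, e_121_y, e_153_x, e_190_y, e_236_x, e_288_y, e_348_y] at h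
  have h2 : r429 * y * x * y * x * y * y * x * y * y = r63 := by simp only [e_429_y, e_307_x, e_254_y, e_164_x, e_131_y, e_165_y, e_103_x, e_83_y, e_47_y]
  exact (mul_right_cancel (mul_right_cancel (mul_right_cancel (mul_right_cancel (mul_right_cancel (mul_right_cancel (mul_right_cancel (mul_right_cancel (mul_right_cancel (h.trans h2.symm))))))))))
theorem e_446_x : r446 * x = r413 := by
  have h := relD r70
  simp only [e_70_x, e_90_y, e_115_x, e_142_y, e_180_x, e_222_y, e_272_y, e_333_x, e_394_y] at h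
  have h2 : r413 * y * x * y * y * x * y * y * x * y * x * y * x * y * y * x * y * x * y * x * y * y * x * y * y = r70 := by simp only [e_413_y, e_286_x, e_235_y, e_287_y, e_189_x, e_152_y, e_95_y, e_120_x, e_151_y, e_119_x, e_94_y, e_56_x, e_41_y, e_20_y, e_29_x, e_40_y, e_55_x, e_72_y, e_54_x, e_39_y, e_19_y, e_28_x, e_38_y, e_53_y]
  exact (mul_right_cancel (mul_right_cancel (mul_right_cancel (mul_right_cancel (mul_right_cancel (mul_right_cancel (mul_right_cancel (mul_right_cancel (mul_right_cancel (mul_right_cancel (mul_right_cancel (mul_right_cancel (mul_right_cancel (mul_right_cancel (mul_right_cancel (mul_right_cancel (mul_right_cancel (mul_right_cancel (mul_right_cancel (mul_right_cancel (mul_right_cancel (mul_right_cancel (mul_right_cancel (mul_right_cancel (h.trans h2.symm)))))))))))))))))))))))))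
theorem e_461_x : r461 * x = r436 := by
  have h := relD r80
  simp only [e_80_x, e_101_y, e_129_x, e_160_y, e_200_x, e_247_y, e_300_y, e_365_x, e_423_y] at h
  have h2 : r436 * y * x * y * y * x * y * y * x * y * x * y * x * y * y * x * y * x * y * x * y * y * x * y * y = r80 := by simp only [e_436_y, e_314_x, e_260_y, e_315_y, e_209_x, e_170_y, e_106_y, e_134_x, e_169_y, e_133_x, e_105_y, e_64_x, e_48_y, e_24_y, e_34_x, e_47_y, e_63_x, e_82_y, e_62_x, e_46_y, e_23_y, e_33_x, e_45_y, e_61_y]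
  exact (mul_right_cancel (mul_right_cancel (mul_right_cancel (mul_right_cancel (mul_right_cancel (mul_right_cancel (mul_right_cancel (mul_right_cancel (mul_right_cancel (mul_right_cancel (mul_right_cancel (mul_right_cancel (mul_right_cancel (mul_right_cancel (mul_right_cancel (mul_right_cancel (mul_right_cancel (mul_right_cancel (mul_right_cancel (mul_right_cancel (mul_right_cancel (mul_right_cancel (mul_right_cancel (mul_right_cancel (h.trans h2.symm)))))))))))))))))))))))))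
theorem e_58_x : r58 * x = r43 := by
  have h := relA r43
  simp only [e_43_x] at h
  exact h
theorem e_265_x : r265 * x = r298 := by
  have h := relA r265
  have h2 : r298 * x = r265 := by simp only [e_298_x]
  exact (mul_right_cancel (h.trans h2.symm))
theorem e_293_x : r293 * x = r270 := by
  have h := relA r270
  simp only [e_270_x] at h
  exact h
theorem e_330_x : r330 * x = r373 := by
  have h := relA r330
  have h2 : r373 * x = r330 := by simp only [e_373_x]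
  exact (mul_right_cancel (h.trans h2.symm))
theorem e_362_x : r362 * x = r341 := by
  have h := relA r341
  simp only [e_341_x] at h
  exact h
theorem e_403_x : r403 * x = r438 := by
  have h := relA r403
  have h2 : r438 * x = r403 := by simp only [e_438_x]
  exact (mul_right_cancel (h.trans h2.symm))
theorem e_413_x : r413 * x = r446 := by
  have h := relA r413
  have h2 : r446 * x = r413 := by simp only [e_446_x]
  exact (mul_right_cancel (h.trans h2.symm))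
theorem e_429_x : r429 * x = r416 := by
  have h := relA r416
  simp only [e_416_x] at h
  exact h
theorem e_436_x : r436 * x = r461 := by
  have h := relA r436
  have h2 : r461 * x = r436 := by simp only [e_461_x]
  exact (mul_right_cancel (h.trans h2.symm))
theorem e_49_y : r49 * y = r50 := by
  have h := relB r35
  simp only [e_35_y] at h
  have h2 : r50 * y = r35 := by simp only [e_50_y]
  exact (mul_right_cancel (h.trans h2.symm))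
theorem e_71_y : r71 * y = r72 := by
  have h := relB r54
  simp only [e_54_y] at h
  have h2 : r72 * y = r54 := by simp only [e_72_y]
  exact (mul_right_cancel (h.trans h2.symm))
theorem e_81_y : r81 * y = r82 := by
  have h := relB r62
  simp only [e_62_y] at h
  have h2 : r82 * y = r62 := by simp only [e_82_y]
  exact (mul_right_cancel (h.trans h2.symm))
theorem e_112_y : r112 * y = r113 := by
  have h := relB r88
  simp only [e_88_y] at h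
  have h2 : r113 * y = r88 := by simp only [e_113_y]
  exact (mul_right_cancel (h.trans h2.symm))
theorem e_126_y : r126 * y = r127 := by
  have h := relB r99
  simp only [e_99_y] at h
  have h2 : r127 * y = r99 := by simp only [e_127_y]
  exact (mul_right_cancel (h.trans h2.symm))
theorem e_150_y : r150 * y = r151 := by
  have h := relB r119
  simp only [e_119_y] at h
  have h2 : r151 * y = r119 := by simp only [e_151_y]
  exact (mul_right_cancel (h.trans h2.symm))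
theorem e_168_y : r168 * y = r169 := by
  have h := relB r133
  simp only [e_133_y] at h
  have h2 : r169 * y = r133 := by simp only [e_169_y]
  exact (mul_right_cancel (h.trans h2.symm))
theorem e_174_y : r174 * y = r175 := by
  have h := relB r137
  simp only [e_137_y] at h
  have h2 : r175 * y = r137 := by simp only [e_175_y]
  exact (mul_right_cancel (h.trans h2.symm))
theorem e_194_y : r194 * y = r195 := by
  have h := relB r155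
  simp only [e_155_y] at h
  have h2 : r195 * y = r155 := by simp only [e_195_y]
  exact (mul_right_cancel (h.trans h2.symm))
theorem e_224_y : r224 * y = r225 := by
  have h := relB r181
  simp only [e_181_y] at h
  have h2 : r225 * y = r181 := by simp only [e_225_y]
  exact (mul_right_cancel (h.trans h2.symm))
theorem e_230_y : r230 * y = r231 := by
  have h := relB r185
  simp only [e_185_y] at h
  have h2 : r231 * y = r185 := by simp only [e_231_y]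
  exact (mul_right_cancel (h.trans h2.symm))
theorem e_249_y : r249 * y = r250 := by
  have h := relB r201
  simp only [e_201_y] at h
  have h2 : r250 * y = r201 := by simp only [e_250_y]
  exact (mul_right_cancel (h.trans h2.symm))
theorem e_255_y : r255 * y = r256 := by
  have h := relB r205
  simp only [e_205_y] at h
  have h2 : r256 * y = r205 := by simp only [e_256_y]
  exact (mul_right_cancel (h.trans h2.symm))
theorem e_326_y : r326 * y = r327 := by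
  have h := relB r267
  simp only [e_267_y] at h
  have h2 : r327 * y = r267 := by simp only [e_327_y]
  exact (mul_right_cancel (h.trans h2.symm))
theorem e_331_y : r331 * y = r332 := by
  have h := relB r271
  simp only [e_271_y] at h
  have h2 : r332 * y = r271 := by simp only [e_332_y]
  exact (mul_right_cancel (h.trans h2.symm))
theorem e_358_y : r358 * y = r359 := by
  have h := relB r295
  simp only [e_295_y] at h
  have h2 : r359 * y = r295 := by simp only [e_359_y]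
  exact (mul_right_cancel (h.trans h2.symm))
theorem e_363_y : r363 * y = r364 := by
  have h := relB r299
  simp only [e_299_y] at h
  have h2 : r364 * y = r299 := by simp only [e_364_y]
  exact (mul_right_cancel (h.trans h2.symm))
theorem e_419_y : r419 * y = r321 := by
  have h := relB r321
  simp only [e_321_y, e_385_y] at h
  exact h
theorem e_409_y : r409 * y = r410 := by
  have h := relB r343
  simp only [e_343_y] at h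
  have h2 : r410 * y = r343 := by simp only [e_410_y]
  exact (mul_right_cancel (h.trans h2.symm))
theorem e_414_y : r414 * y = r415 := by
  have h := relB r347
  simp only [e_347_y] at h
  have h2 : r415 * y = r347 := by simp only [e_415_y]
  exact (mul_right_cancel (h.trans h2.symm))
theorem e_384_y : r384 * y = r353 := by
  have h := relB r353
  simp only [e_353_y, e_420_y] at h
  exact h
theorem e_433_y : r433 * y = r434 := by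
  have h := relB r375
  simp only [e_375_y] at h
  have h2 : r434 * y = r375 := by simp only [e_434_y]
  exact (mul_right_cancel (h.trans h2.symm))
theorem e_476_y : r476 * y = r477 := by
  have h := relB r448
  simp only [e_448_y] at h
  have h2 : r477 * y = r448 := by simp only [e_477_y]
  exact (mul_right_cancel (h.trans h2.symm))
theorem e_212_x : r212 * x = r211 := by
  have h := relC r50
  simp only [e_50_x, e_36_y, e_51_x, e_66_y, e_86_x, e_108_y, e_136_x, e_172_y] at h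
  have h2 : r211 * y * x * y * x * y = r50 := by simp only [e_211_y, e_135_x, e_107_y, e_65_x, e_49_y]
  exact (mul_right_cancel (mul_right_cancel (mul_right_cancel (mul_right_cancel (mul_right_cancel (h.trans h2.symm))))))
theorem e_192_y : r192 * y = r237 := by
  have h := relC r57
  simp only [e_57_x, e_42_y, e_58_x, e_43_y, e_59_x, e_76_y, e_97_x, e_122_y, e_154_x] at h
  have h2 : r237 * x * y * x * y = r57 := by simp only [e_237_x, e_191_y, e_121_x, e_96_y]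
  exact (mul_right_cancel (mul_right_cancel (mul_right_cancel (mul_right_cancel (h.trans h2.symm)))))
theorem e_278_x : r278 * x = r277 := by
  have h := relC r72
  simp only [e_72_x, e_55_y, e_73_x, e_92_y, e_117_x, e_146_y, e_184_x, e_228_y] at h
  have h2 : r277 * y * x * y * x * y = r72 := by simp only [e_277_y, e_183_x, e_145_y, e_91_x, e_71_y]
  exact (mul_right_cancel (mul_right_cancel (mul_right_cancel (mul_right_cancel (mul_right_cancel (h.trans h2.symm))))))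
theorem e_306_x : r306 * x = r305 := by
  have h := relC r82
  simp only [e_82_x, e_63_y, e_83_x, e_103_y, e_131_x, e_164_y, e_204_x, e_253_y] at h
  have h2 : r305 * y * x * y * x * y = r82 := by simp only [e_305_y, e_203_x, e_163_y, e_102_x, e_81_y]
  exact (mul_right_cancel (mul_right_cancel (mul_right_cancel (mul_right_cancel (mul_right_cancel (h.trans h2.symm))))))
theorem e_385_x : r385 * x = r420 := by
  have h := relC r108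
  simp only [e_108_x, e_86_y, e_109_x, e_137_y, e_174_x, e_214_y, e_264_x, e_321_y] at h
  have h2 : r420 * y * x * y * x * y = r108 := by simp only [e_420_y, e_384_x, e_320_y, e_213_x, e_173_y]
  exact (mul_right_cancel (mul_right_cancel (mul_right_cancel (mul_right_cancel (mul_right_cancel (h.trans h2.symm))))))
theorem e_355_x : r355 * x = r392 := by
  have h := relC r113
  simp only [e_113_x, e_89_y, e_114_x, e_141_y, e_179_x, e_220_y, e_270_x, e_293_y] at h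
  have h2 : r392 * y * x * y * x * y = r113 := by simp only [e_392_y, e_269_x, e_219_y, e_140_x, e_112_y]
  exact (mul_right_cancel (mul_right_cancel (mul_right_cancel (mul_right_cancel (mul_right_cancel (h.trans h2.symm))))))
theorem e_420_x : r420 * x = r385 := by
  have h := relC r122
  simp only [e_122_x, e_97_y, e_123_x, e_155_y, e_194_x, e_239_y, e_292_x, e_353_y] at h
  have h2 : r385 * y * x * y * x * y = r122 := by simp only [e_385_y, e_419_x, e_352_y, e_238_x, e_193_y]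
  exact (mul_right_cancel (mul_right_cancel (mul_right_cancel (mul_right_cancel (mul_right_cancel (h.trans h2.symm))))))
theorem e_387_y : r387 * y = r297 := by
  have h := relC r127
  simp only [e_127_x, e_100_y, e_128_x, e_159_y, e_199_x, e_245_y, e_298_x, e_265_y, e_323_x] at h
  have h2 : r297 * x * y * x * y = r127 := by simp only [e_297_x, e_244_y, e_158_x, e_126_y]
  exact (mul_right_cancel (mul_right_cancel (mul_right_cancel (mul_right_cancel (h.trans h2.symm)))))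
theorem e_404_y : r404 * y = r437 := by
  have h := relC r146
  simp only [e_146_x, e_117_y, e_147_x, e_185_y, e_230_x, e_280_y, e_340_x] at h
  have h2 : r437 * x * y * x * y * x * y = r146 := by simp only [e_437_x, e_380_y, e_438_x, e_403_y, e_279_x, e_229_y]
  exact (mul_right_cancel (mul_right_cancel (mul_right_cancel (mul_right_cancel (mul_right_cancel (mul_right_cancel (h.trans h2.symm)))))))
theorem e_372_x : r372 * x = r414 := by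
  have h := relC r164
  simp only [e_164_x, e_131_y, e_165_x, e_205_y, e_255_x, e_308_y] at h
  have h2 : r414 * y * x * y * x * y * x * y = r164 := by simp only [e_414_y, e_415_x, e_348_y, e_416_x, e_429_y, e_307_x, e_254_y]
  exact (mul_right_cancel (mul_right_cancel (mul_right_cancel (mul_right_cancel (mul_right_cancel (mul_right_cancel (mul_right_cancel (h.trans h2.symm))))))))
theorem e_452_y : r452 * y = r386 := by
  have h := relC r175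
  simp only [e_175_x, e_138_y, e_176_x, e_215_y, e_265_x, e_298_y, e_362_x, e_341_y, e_406_x] at h
  have h2 : r386 * x * y * x * y = r175 := by simp only [e_386_x, e_322_y, e_214_x, e_174_y]
  exact (mul_right_cancel (mul_right_cancel (mul_right_cancel (mul_right_cancel (h.trans h2.symm)))))
theorem e_464_y : r464 * y = r421 := by
  have h := relC r195
  simp only [e_195_x, e_156_y, e_196_x, e_240_y, e_293_x, e_270_y, e_330_x, e_373_y, e_430_x] at h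
  have h2 : r421 * x * y * x * y = r195 := by simp only [e_421_x, e_354_y, e_239_x, e_194_y]
  exact (mul_right_cancel (mul_right_cancel (mul_right_cancel (mul_right_cancel (h.trans h2.symm)))))
theorem e_393_y : r393 * y = r308 := by
  have h := relC r220
  simp only [e_220_x, e_179_y, e_221_x, e_271_y, e_331_x] at h
  have h2 : r308 * x * y * x * y * x * y * x * y = r220 := by simp only [e_308_x, e_255_y, e_256_x, e_206_y, e_257_x, e_309_y, e_373_x, e_330_y]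
  exact (mul_right_cancel (mul_right_cancel (mul_right_cancel (mul_right_cancel (mul_right_cancel (mul_right_cancel (mul_right_cancel (mul_right_cancel (h.trans h2.symm)))))))))
theorem e_363_x : r363 * x = r405 := by
  have h := relC r231
  simp only [e_231_x, e_186_y, e_232_x, e_281_y, e_341_x, e_362_y, e_245_x, e_199_y, e_246_x, e_299_y] at h
  have h2 : r405 * y * x * y = r231 := by simp only [e_405_y, e_280_x, e_230_y]
  exact (mul_right_cancel (mul_right_cancel (mul_right_cancel (h.trans h2.symm))))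
theorem e_501_y : r501 * y = r495 := by
  have h := relC r316
  simp only [e_316_x, e_261_y, e_317_x, e_381_y, e_439_x, e_468_y, e_491_x] at h
  have h2 : r495 * x * y * x * y * x * y = r316 := by simp only [e_495_x, e_479_y, e_402_x, e_339_y, e_403_x, e_438_y]
  exact (mul_right_cancel (mul_right_cancel (mul_right_cancel (mul_right_cancel (mul_right_cancel (mul_right_cancel (h.trans h2.symm)))))))
theorem e_440_x : r440 * x = r455 := by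
  have h := relD r2
  simp only [e_2_x, e_4_y, e_8_x, e_12_y, e_18_x, e_26_y, e_36_y, e_51_x, e_66_y, e_86_x, e_108_y, e_136_x, e_172_y, e_212_y, e_262_x, e_318_y, e_382_y] at h
  have h2 : r455 * y * x * y * x * y * y * x * y * x * y * x * y * y * x * y * y = r2 := by simp only [e_455_y, e_345_x, e_285_y, e_188_x, e_150_y, e_151_y, e_119_x, e_94_y, e_56_x, e_41_y, e_20_x, e_14_y, e_21_y, e_9_x, e_5_y, e_0_y]
  exact (mul_right_cancel (mul_right_cancel (mul_right_cancel (mul_right_cancel (mul_right_cancel (mul_right_cancel (mul_right_cancel (mul_right_cancel (mul_right_cancel (mul_right_cancel (mul_right_cancel (mul_right_cancel (mul_right_cancel (mul_right_cancel (mul_right_cancel (mul_right_cancel (h.trans h2.symm)))))))))))))))))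
theorem e_458_x : r458 * x = r467 := by
  have h := relD r3
  simp only [e_3_x, e_6_y, e_10_x, e_15_y, e_22_x, e_31_y, e_43_y, e_59_x, e_76_y, e_97_x, e_122_y, e_154_x, e_192_y, e_237_y, e_290_x, e_350_y, e_418_y] at h
  have h2 : r467 * y * x * y * x * y * y * x * y * x * y * x * y * y * x * y * y = r3 := by simp only [e_467_y, e_377_x, e_313_y, e_208_x, e_168_y, e_169_y, e_133_x, e_105_y, e_64_x, e_48_y, e_24_x, e_17_y, e_25_y, e_11_x, e_7_y, e_1_y]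
  exact (mul_right_cancel (mul_right_cancel (mul_right_cancel (mul_right_cancel (mul_right_cancel (mul_right_cancel (mul_right_cancel (mul_right_cancel (mul_right_cancel (mul_right_cancel (mul_right_cancel (mul_right_cancel (mul_right_cancel (mul_right_cancel (mul_right_cancel (mul_right_cancel (h.trans h2.symm)))))))))))))))))
theorem e_338_x : r338 * x = r370 := by
  have h := relD r5
  simp only [e_5_x, e_9_y, e_14_x, e_20_y, e_29_x, e_40_y, e_55_y, e_73_x, e_92_y, e_117_x, e_146_y, e_184_x, e_228_y, e_278_y] at h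
  have h2 : r370 * y * y * x * y * x * y * x * y * y * x * y * x * y * x * y * y * x * y * y = r5 := by simp only [e_370_y, e_253_y, e_306_x, e_305_y, e_203_x, e_163_y, e_102_x, e_81_y, e_82_y, e_62_x, e_46_y, e_23_x, e_16_y, e_6_x, e_3_y, e_7_y, e_1_x, e_0_y, e_2_y]
  exact (mul_right_cancel (mul_right_cancel (mul_right_cancel (mul_right_cancel (mul_right_cancel (mul_right_cancel (mul_right_cancel (mul_right_cancel (mul_right_cancel (mul_right_cancel (mul_right_cancel (mul_right_cancel (mul_right_cancel (mul_right_cancel (mul_right_cancel (mul_right_cancel (mul_right_cancel (mul_right_cancel (mul_right_cancel (h.trans h2.symm))))))))))))))))))))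
theorem e_370_x : r370 * x = r338 := by
  have h := relD r7
  simp only [e_7_x, e_11_y, e_17_x, e_24_y, e_34_x, e_47_y, e_63_y, e_83_x, e_103_y, e_131_x, e_164_y, e_204_x, e_253_y, e_306_y] at h
  have h2 : r338 * y * y * x * y * x * y * x * y * y * x * y * x * y * x * y * y * x * y * y = r7 := by simp only [e_338_y, e_228_y, e_278_x, e_277_y, e_183_x, e_145_y, e_91_x, e_71_y, e_72_y, e_54_x, e_39_y, e_19_x, e_13_y, e_4_x, e_2_y, e_5_y, e_0_x, e_1_y, e_3_y]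
  exact (mul_right_cancel (mul_right_cancel (mul_right_cancel (mul_right_cancel (mul_right_cancel (mul_right_cancel (mul_right_cancel (mul_right_cancel (mul_right_cancel (mul_right_cancel (mul_right_cancel (mul_right_cancel (mul_right_cancel (mul_right_cancel (mul_right_cancel (mul_right_cancel (mul_right_cancel (mul_right_cancel (mul_right_cancel (h.trans h2.symm))))))))))))))))))))
theorem e_435_x : r435 * x = r398 := by
  have h := relD r8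
  simp only [e_8_x, e_12_y, e_18_x, e_26_y, e_36_x, e_50_y, e_35_y, e_49_x, e_65_y, e_85_x, e_106_y, e_134_x, e_169_y, e_133_y, e_168_x, e_208_y, e_259_y, e_313_x, e_377_y] at h
  have h2 : r398 * y * x * y * y * x * y * x * y * x * y * y * x * y * y = r8 := by simp only [e_398_y, e_274_x, e_224_y, e_225_y, e_181_x, e_143_y, e_90_x, e_70_y, e_38_x, e_28_y, e_39_y, e_19_x, e_13_y, e_4_y]
  exact (mul_right_cancel (mul_right_cancel (mul_right_cancel (mul_right_cancel (mul_right_cancel (mul_right_cancel (mul_right_cancel (mul_right_cancel (mul_right_cancel (mul_right_cancel (mul_right_cancel (mul_right_cancel (mul_right_cancel (mul_right_cancel (h.trans h2.symm)))))))))))))))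
theorem e_412_x : r412 * x = r426 := by
  have h := relD r10
  simp only [e_10_x, e_15_y, e_22_x, e_31_y, e_43_x, e_58_y, e_30_y, e_42_x, e_57_y, e_75_x, e_95_y, e_120_x, e_151_y, e_119_y, e_150_x, e_188_y, e_234_y, e_285_x, e_345_y] at h
  have h2 : r426 * y * x * y * y * x * y * x * y * x * y * y * x * y * y = r10 := by simp only [e_426_y, e_302_x, e_249_y, e_250_y, e_201_x, e_161_y, e_101_x, e_80_y, e_45_x, e_33_y, e_46_y, e_23_x, e_16_y, e_6_y]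
  exact (mul_right_cancel (mul_right_cancel (mul_right_cancel (mul_right_cancel (mul_right_cancel (mul_right_cancel (mul_right_cancel (mul_right_cancel (mul_right_cancel (mul_right_cancel (mul_right_cancel (mul_right_cancel (mul_right_cancel (mul_right_cancel (h.trans h2.symm)))))))))))))))
theorem e_473_x : r473 * x = r469 := by
  have h := relD r12
  simp only [e_12_x, e_8_y, e_13_x, e_19_y, e_28_x, e_38_y, e_53_y, e_70_x, e_90_y, e_115_x, e_142_y, e_180_x, e_222_y, e_272_y, e_333_x, e_394_y, e_446_y] at h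
  have h2 : r469 * y * x * y * x * y * y * x * y * x * y * x * y * y * x * y * y = r12 := by simp only [e_469_y, e_381_x, e_317_y, e_210_x, e_171_y, e_211_y, e_135_x, e_107_y, e_65_x, e_49_y, e_50_x, e_36_y, e_51_y, e_26_x, e_18_y, e_27_y]
  exact (mul_right_cancel (mul_right_cancel (mul_right_cancel (mul_right_cancel (mul_right_cancel (mul_right_cancel (mul_right_cancel (mul_right_cancel (mul_right_cancel (mul_right_cancel (mul_right_cancel (mul_right_cancel (mul_right_cancel (mul_right_cancel (mul_right_cancel (mul_right_cancel (h.trans h2.symm)))))))))))))))))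
theorem e_461_y : r461 * y = r483 := by
  have h := relD r15
  simp only [e_15_x, e_10_y, e_16_x, e_23_y, e_33_x, e_45_y, e_61_y, e_80_x, e_101_y, e_129_x, e_160_y, e_200_x, e_247_y, e_300_y, e_365_x, e_423_y] at h
  have h2 : r483 * x * y * x * y * x * y * y * x * y * x * y * x * y * y * x * y * y = r15 := by simp only [e_483_x, e_457_y, e_349_x, e_289_y, e_190_x, e_153_y, e_191_y, e_121_x, e_96_y, e_57_x, e_42_y, e_58_x, e_43_y, e_59_y, e_31_x, e_22_y, e_32_y]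
  exact (mul_right_cancel (mul_right_cancel (mul_right_cancel (mul_right_cancel (mul_right_cancel (mul_right_cancel (mul_right_cancel (mul_right_cancel (mul_right_cancel (mul_right_cancel (mul_right_cancel (mul_right_cancel (mul_right_cancel (mul_right_cancel (mul_right_cancel (mul_right_cancel (mul_right_cancel (h.trans h2.symm))))))))))))))))))
theorem e_369_x : r369 * x = r326 := by
  have h := relD r18
  simp only [e_18_x, e_26_y, e_36_x, e_50_y, e_35_x, e_25_y, e_11_y, e_17_x, e_24_y, e_34_x, e_47_y, e_63_x, e_82_y, e_62_y, e_81_x, e_102_y, e_130_y, e_163_x, e_203_y, e_252_x, e_304_y] at h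
  have h2 : r326 * y * y * x * y * x * y * x * y * y * x * y * y = r18 := by simp only [e_326_y, e_327_y, e_267_x, e_217_y, e_139_x, e_111_y, e_67_x, e_52_y, e_68_y, e_37_x, e_27_y, e_12_y]
  exact (mul_right_cancel (mul_right_cancel (mul_right_cancel (mul_right_cancel (mul_right_cancel (mul_right_cancel (mul_right_cancel (mul_right_cancel (mul_right_cancel (mul_right_cancel (mul_right_cancel (mul_right_cancel (h.trans h2.symm)))))))))))))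
theorem e_428_y : r428 * y = r450 := by
  have h := relD r20
  simp only [e_20_x, e_14_y, e_21_x, e_30_y, e_42_x, e_57_y, e_75_y, e_96_x, e_121_y, e_153_x, e_190_y, e_236_x, e_288_y, e_348_y, e_416_x, e_429_y, e_307_y, e_371_x] at h
  have h2 : r450 * x * y * x * y * y * x * y * x * y * x * y * y * x * y * y = r20 := by simp only [e_450_x, e_401_y, e_276_x, e_227_y, e_277_y, e_183_x, e_145_y, e_91_x, e_71_y, e_72_x, e_55_y, e_73_y, e_40_x, e_29_y, e_41_y]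
  exact (mul_right_cancel (mul_right_cancel (mul_right_cancel (mul_right_cancel (mul_right_cancel (mul_right_cancel (mul_right_cancel (mul_right_cancel (mul_right_cancel (mul_right_cancel (mul_right_cancel (mul_right_cancel (mul_right_cancel (mul_right_cancel (mul_right_cancel (h.trans h2.symm))))))))))))))))
theorem e_346_x : r346 * x = r382 := by
  have h := relD r21
  simp only [e_21_x, e_30_y, e_42_x, e_57_y, e_75_x, e_95_y, e_120_y, e_152_x, e_189_y, e_235_x, e_286_y] at h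
  have h2 : r382 * y * y * x * y * y * x * y * x * y * x * y * y * x * y * x * y * x * y * y * x * y * y = r21 := by simp only [e_382_y, e_440_y, e_318_x, e_262_y, e_172_y, e_212_x, e_211_y, e_135_x, e_107_y, e_65_x, e_49_y, e_50_y, e_35_x, e_25_y, e_11_x, e_7_y, e_1_x, e_0_y, e_2_y, e_5_x, e_9_y, e_14_y]
  exact (mul_right_cancel (mul_right_cancel (mul_right_cancel (mul_right_cancel (mul_right_cancel (mul_right_cancel (mul_right_cancel (mul_right_cancel (mul_right_cancel (mul_right_cancel (mul_right_cancel (mul_right_cancel (mul_right_cancel (mul_right_cancel (mul_right_cancel (mul_right_cancel (mul_right_cancel (mul_right_cancel (mul_right_cancel (mul_right_cancel (mul_right_cancel (mul_right_cancel (h.trans h2.symm)))))))))))))))))))))))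
theorem e_337_x : r337 * x = r358 := by
  have h := relD r22
  simp only [e_22_x, e_31_y, e_43_x, e_58_y, e_30_x, e_21_y, e_9_y, e_14_x, e_20_y, e_29_x, e_40_y, e_55_x, e_72_y, e_54_y, e_71_x, e_91_y, e_116_y, e_145_x, e_183_y, e_227_x, e_276_y] at h
  have h2 : r358 * y * y * x * y * x * y * x * y * y * x * y * y = r22 := by simp only [e_358_y, e_359_y, e_295_x, e_242_y, e_157_x, e_125_y, e_77_x, e_60_y, e_78_y, e_44_x, e_32_y, e_15_y]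
  exact (mul_right_cancel (mul_right_cancel (mul_right_cancel (mul_right_cancel (mul_right_cancel (mul_right_cancel (mul_right_cancel (mul_right_cancel (mul_right_cancel (mul_right_cancel (mul_right_cancel (mul_right_cancel (h.trans h2.symm)))))))))))))
theorem e_451_x : r451 * x = r427 := by
  have h := relD r24
  simp only [e_24_x, e_17_y, e_25_x, e_35_y, e_49_x, e_65_y, e_85_y, e_107_x, e_135_y, e_171_x, e_210_y, e_261_x, e_316_y, e_380_y, e_438_x, e_403_y, e_279_y, e_339_x, e_402_y] at h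
  have h2 : r427 * y * x * y * y * x * y * x * y * x * y * y * x * y * y = r24 := by simp only [e_427_y, e_304_x, e_252_y, e_305_y, e_203_x, e_163_y, e_102_x, e_81_y, e_82_x, e_63_y, e_83_y, e_47_x, e_34_y, e_48_y]
  exact (mul_right_cancel (mul_right_cancel (mul_right_cancel (mul_right_cancel (mul_right_cancel (mul_right_cancel (mul_right_cancel (mul_right_cancel (mul_right_cancel (mul_right_cancel (mul_right_cancel (mul_right_cancel (mul_right_cancel (mul_right_cancel (h.trans h2.symm)))))))))))))))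
theorem e_443_x : r443 * x = r433 := by
  have h := relD r26
  simp only [e_26_x, e_18_y, e_27_x, e_37_y, e_52_x, e_67_y, e_87_y, e_111_x, e_139_y, e_177_x, e_216_y, e_266_x, e_324_y, e_388_y] at h
  have h2 : r433 * y * y * x * y * x * y * x * y * y * x * y * x * y * x * y * y * x * y * y = r26 := by simp only [e_433_y, e_434_y, e_375_x, e_311_y, e_207_x, e_167_y, e_104_x, e_84_y, e_105_y, e_64_x, e_48_y, e_24_x, e_17_y, e_25_x, e_35_y, e_49_y, e_50_x, e_36_y, e_51_y]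
  exact (mul_right_cancel (mul_right_cancel (mul_right_cancel (mul_right_cancel (mul_right_cancel (mul_right_cancel (mul_right_cancel (mul_right_cancel (mul_right_cancel (mul_right_cancel (mul_right_cancel (mul_right_cancel (mul_right_cancel (mul_right_cancel (mul_right_cancel (mul_right_cancel (mul_right_cancel (mul_right_cancel (mul_right_cancel (h.trans h2.symm))))))))))))))))))))
theorem e_445_x : r445 * x = r409 := by
  have h := relD r29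
  simp only [e_29_x, e_40_y, e_55_x, e_72_y, e_54_x, e_39_y, e_19_y, e_28_x, e_38_y, e_53_x, e_69_y, e_89_x, e_113_y, e_88_y, e_112_x, e_140_y, e_178_y, e_219_x, e_269_y, e_329_x, e_391_y] at h
  have h2 : r409 * y * y * x * y * x * y * x * y * y * x * y * y = r29 := by simp only [e_409_y, e_410_y, e_343_x, e_283_y, e_187_x, e_149_y, e_93_x, e_74_y, e_94_y, e_56_x, e_41_y, e_20_y]
  exact (mul_right_cancel (mul_right_cancel (mul_right_cancel (mul_right_cancel (mul_right_cancel (mul_right_cancel (mul_right_cancel (mul_right_cancel (mul_right_cancel (mul_right_cancel (mul_right_cancel (mul_right_cancel (h.trans h2.symm)))))))))))))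
theorem e_356_y : r356 * y = r391 := by
  have h := relD r31
  simp only [e_31_x, e_22_y, e_32_x, e_44_y, e_60_x, e_77_y, e_98_y, e_125_x, e_157_y, e_197_x, e_241_y, e_294_x] at h
  have h2 : r391 * y * x * y * y * x * y * x * y * x * y * y * x * y * x * y * x * y * y * x * y * y = r31 := by simp only [e_391_y, e_445_x, e_409_y, e_410_y, e_343_x, e_283_y, e_187_x, e_149_y, e_93_x, e_74_y, e_94_y, e_56_x, e_41_y, e_20_x, e_14_y, e_21_x, e_30_y, e_42_y, e_58_x, e_43_y, e_59_y]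
  exact (mul_right_cancel (mul_right_cancel (mul_right_cancel (mul_right_cancel (mul_right_cancel (mul_right_cancel (mul_right_cancel (mul_right_cancel (mul_right_cancel (mul_right_cancel (mul_right_cancel (mul_right_cancel (mul_right_cancel (mul_right_cancel (mul_right_cancel (mul_right_cancel (mul_right_cancel (mul_right_cancel (mul_right_cancel (mul_right_cancel (mul_right_cancel (h.trans h2.symm))))))))))))))))))))))
theorem e_361_x : r361 * x = r388 := by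
  have h := relD r34
  simp only [e_34_x, e_47_y, e_63_x, e_82_y, e_62_x, e_46_y, e_23_y, e_33_x, e_45_y, e_61_x, e_79_y, e_100_x, e_127_y, e_99_y, e_126_x, e_158_y, e_198_y, e_244_x, e_297_y] at h
  have h2 : r388 * y * x * y * y * x * y * x * y * x * y * y * x * y * y = r34 := by simp only [e_388_y, e_443_x, e_433_y, e_434_y, e_375_x, e_311_y, e_207_x, e_167_y, e_104_x, e_84_y, e_105_y, e_64_x, e_48_y, e_24_y]
  exact (mul_right_cancel (mul_right_cancel (mul_right_cancel (mul_right_cancel (mul_right_cancel (mul_right_cancel (mul_right_cancel (mul_right_cancel (mul_right_cancel (mul_right_cancel (mul_right_cancel (mul_right_cancel (mul_right_cancel (mul_right_cancel (h.trans h2.symm)))))))))))))))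
theorem e_399_y : r399 * y = r312 := by
  have h := relD r39
  simp only [e_39_x, e_54_y, e_71_x, e_91_y, e_116_x, e_144_y, e_182_y, e_226_x, e_275_y, e_336_x] at h
  have h2 : r312 * x * y * y * x * y * y * x * y * x * y * x * y * y * x * y * x * y * x * y * y * x * y * y = r39 := by simp only [e_312_x, e_259_y, e_313_y, e_208_x, e_168_y, e_169_y, e_133_x, e_105_y, e_64_x, e_48_y, e_24_x, e_17_y, e_25_y, e_11_x, e_7_y, e_1_x, e_0_y, e_2_x, e_4_y, e_8_y, e_13_x, e_19_y, e_28_y]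
  exact (mul_right_cancel (mul_right_cancel (mul_right_cancel (mul_right_cancel (mul_right_cancel (mul_right_cancel (mul_right_cancel (mul_right_cancel (mul_right_cancel (mul_right_cancel (mul_right_cancel (mul_right_cancel (mul_right_cancel (mul_right_cancel (mul_right_cancel (mul_right_cancel (mul_right_cancel (mul_right_cancel (mul_right_cancel (mul_right_cancel (mul_right_cancel (mul_right_cancel (mul_right_cancel (h.trans h2.symm))))))))))))))))))))))))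
theorem e_480_x : r480 * x = r476 := by
  have h := relD r40
  simp only [e_40_x, e_29_y, e_41_x, e_56_y, e_74_x, e_93_y, e_118_y, e_149_x, e_187_y, e_233_x, e_282_y, e_342_x, e_407_y, e_453_y] at h
  have h2 : r476 * y * y * x * y * x * y * x * y * y * x * y * x * y * x * y * y * x * y * y = r40 := by simp only [e_476_y, e_477_y, e_448_x, e_396_y, e_273_x, e_223_y, e_142_x, e_115_y, e_143_y, e_90_x, e_70_y, e_38_x, e_28_y, e_39_x, e_54_y, e_71_y, e_72_x, e_55_y, e_73_y]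
  exact (mul_right_cancel (mul_right_cancel (mul_right_cancel (mul_right_cancel (mul_right_cancel (mul_right_cancel (mul_right_cancel (mul_right_cancel (mul_right_cancel (mul_right_cancel (mul_right_cancel (mul_right_cancel (mul_right_cancel (mul_right_cancel (mul_right_cancel (mul_right_cancel (mul_right_cancel (mul_right_cancel (mul_right_cancel (h.trans h2.symm))))))))))))))))))))
theorem e_368_x : r368 * x = r411 := by
  have h := relD r46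
  simp only [e_46_x, e_62_y, e_81_x, e_102_y, e_130_x, e_162_y, e_202_y, e_251_x, e_303_y] at h
  have h2 : r411 * y * x * y * y * x * y * y * x * y * x * y * x * y * y * x * y * x * y * x * y * y * x * y * y = r46 := by simp only [e_411_y, e_284_x, e_234_y, e_285_y, e_188_x, e_150_y, e_151_y, e_119_x, e_94_y, e_56_x, e_41_y, e_20_x, e_14_y, e_21_y, e_9_x, e_5_y, e_0_x, e_1_y, e_3_x, e_6_y, e_10_y, e_16_x, e_23_y, e_33_y]
  exact (mul_right_cancel (mul_right_cancel (mul_right_cancel (mul_right_cancel (mul_right_cancel (mul_right_cancel (mul_right_cancel (mul_right_cancel (mul_right_cancel (mul_right_cancel (mul_right_cancel (mul_right_cancel (mul_right_cancel (mul_right_cancel (mul_right_cancel (mul_right_cancel (mul_right_cancel (mul_right_cancel (mul_right_cancel (mul_right_cancel (mul_right_cancel (mul_right_cancel (mul_right_cancel (mul_right_cancel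 (h.trans h2.symm)))))))))))))))))))))))))
theorem e_383_x : r383 * x = r367 := by
  have h := relD r50
  simp only [e_50_x, e_36_y, e_51_x, e_66_y, e_86_x, e_108_y, e_136_y, e_173_x, e_213_y, e_263_x, e_319_y] at h
  have h2 : r367 * y * y * x * y * y * x * y * x * y * x * y * y * x * y * x * y * x * y * y * x * y * y = r50 := by simp only [e_367_y, e_426_y, e_302_x, e_249_y, e_250_y, e_201_x, e_161_y, e_101_x, e_80_y, e_45_x, e_33_y, e_46_y, e_23_x, e_16_y, e_6_x, e_3_y, e_7_x, e_11_y, e_17_y, e_25_x, e_35_y, e_49_y]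
  exact (mul_right_cancel (mul_right_cancel (mul_right_cancel (mul_right_cancel (mul_right_cancel (mul_right_cancel (mul_right_cancel (mul_right_cancel (mul_right_cancel (mul_right_cancel (mul_right_cancel (mul_right_cancel (mul_right_cancel (mul_right_cancel (mul_right_cancel (mul_right_cancel (mul_right_cancel (mul_right_cancel (mul_right_cancel (mul_right_cancel (mul_right_cancel (mul_right_cancel (h.trans h2.symm)))))))))))))))))))))))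
theorem e_382_x : r382 * x = r346 := by
  have h := relD r51
  simp only [e_51_x, e_66_y, e_86_x, e_108_y, e_136_x, e_172_y, e_212_y, e_262_x, e_318_y] at h
  have h2 : r346 * y * x * y * y * x * y * y * x * y * x * y * x * y * y * x * y * x * y * x * y * y * x * y * y = r51 := by simp only [e_346_y, e_413_x, e_446_y, e_473_y, e_394_x, e_333_y, e_222_y, e_272_x, e_332_y, e_271_x, e_221_y, e_141_x, e_114_y, e_69_y, e_89_x, e_113_y, e_88_x, e_68_y, e_37_x, e_27_y, e_12_y, e_18_x, e_26_y, e_36_y]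
  exact (mul_right_cancel (mul_right_cancel (mul_right_cancel (mul_right_cancel (mul_right_cancel (mul_right_cancel (mul_right_cancel (mul_right_cancel (mul_right_cancel (mul_right_cancel (mul_right_cancel (mul_right_cancel (mul_right_cancel (mul_right_cancel (mul_right_cancel (mul_right_cancel (mul_right_cancel (mul_right_cancel (mul_right_cancel (mul_right_cancel (mul_right_cancel (mul_right_cancel (mul_right_cancel (mul_right_cancel (h.trans h2.symm)))))))))))))))))))))))))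
theorem e_442_x : r442 * x = r453 := by
  have h := relD r53
  simp only [e_53_x, e_69_y, e_89_x, e_113_y, e_88_x, e_68_y, e_37_y, e_52_x, e_67_y, e_87_x, e_110_y, e_138_x, e_175_y, e_137_y, e_174_x, e_214_y, e_264_y, e_322_x, e_386_y] at h
  have h2 : r453 * y * x * y * y * x * y * x * y * x * y * y * x * y * y = r53 := by simp only [e_453_y, e_480_x, e_476_y, e_477_y, e_448_x, e_396_y, e_273_x, e_223_y, e_142_x, e_115_y, e_143_y, e_90_x, e_70_y, e_38_y]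
  exact (mul_right_cancel (mul_right_cancel (mul_right_cancel (mul_right_cancel (mul_right_cancel (mul_right_cancel (mul_right_cancel (mul_right_cancel (mul_right_cancel (mul_right_cancel (mul_right_cancel (mul_right_cancel (mul_right_cancel (mul_right_cancel (h.trans h2.symm)))))))))))))))
theorem e_360_x : r360 * x = r400 := by
  have h := relD r54
  simp only [e_54_x, e_39_y, e_19_x, e_13_y, e_4_x, e_2_y, e_5_y, e_0_x, e_1_y, e_3_x, e_6_y, e_10_x, e_15_y, e_22_y, e_32_x, e_44_y, e_60_y, e_78_x, e_99_y, e_126_x, e_158_y, e_198_x, e_243_y, e_296_y] at h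
  have h2 : r400 * y * x * y * x * y * y * x * y * y = r54 := by simp only [e_400_y, e_275_x, e_226_y, e_144_x, e_116_y, e_145_y, e_91_x, e_71_y, e_72_y]
  exact (mul_right_cancel (mul_right_cancel (mul_right_cancel (mul_right_cancel (mul_right_cancel (mul_right_cancel (mul_right_cancel (mul_right_cancel (mul_right_cancel (h.trans h2.symm))))))))))
theorem e_442_y : r442 * y = r452 := by
  have h := relD r56
  simp only [e_56_x, e_41_y, e_20_x, e_14_y, e_21_x, e_30_y, e_42_y, e_58_x, e_43_y, e_59_x, e_76_y, e_97_x, e_122_y, e_154_y, e_193_x, e_238_y, e_291_y, e_352_x, e_419_y, e_321_x, e_264_y, e_322_x, e_386_y] at h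
  have h2 : r452 * x * y * x * y * x * y * y * x * y * y = r56 := by simp only [e_452_x, e_406_y, e_281_x, e_232_y, e_148_x, e_118_y, e_149_y, e_93_x, e_74_y, e_94_y]
  exact (mul_right_cancel (mul_right_cancel (mul_right_cancel (mul_right_cancel (mul_right_cancel (mul_right_cancel (mul_right_cancel (mul_right_cancel (mul_right_cancel (mul_right_cancel (h.trans h2.symm)))))))))))
theorem e_426_x : r426 * x = r412 := by
  have h := relD r57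
  simp only [e_57_x, e_42_y, e_58_x, e_43_y, e_59_x, e_76_y, e_97_y, e_123_x, e_155_y, e_194_x, e_239_y, e_292_x, e_353_y, e_420_y, e_384_x, e_320_y, e_213_y, e_263_x, e_319_y, e_383_x, e_367_y] at h
  have h2 : r412 * y * y * x * y * x * y * x * y * y * x * y * y = r57 := by simp only [e_412_y, e_455_y, e_345_x, e_285_y, e_188_x, e_150_y, e_151_x, e_120_y, e_152_y, e_95_x, e_75_y, e_96_y]
  exact (mul_right_cancel (mul_right_cancel (mul_right_cancel (mul_right_cancel (mul_right_cancel (mul_right_cancel (mul_right_cancel (mul_right_cancel (mul_right_cancel (mul_right_cancel (mul_right_cancel (mul_right_cancel (h.trans h2.symm)))))))))))))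
theorem e_351_y : r351 * y = r397 := by
  have h := relD r58
  simp only [e_58_x, e_43_y, e_59_x, e_76_y, e_97_x, e_122_y, e_154_y, e_193_x, e_238_y, e_291_x] at h
  have h2 : r397 * x * y * y * x * y * y * x * y * x * y * x * y * y * x * y * x * y * x * y * y * x * y * y = r58 := by simp only [e_397_x, e_335_y, e_398_y, e_274_x, e_224_y, e_225_y, e_181_x, e_143_y, e_90_x, e_70_y, e_38_x, e_28_y, e_39_y, e_19_x, e_13_y, e_4_x, e_2_y, e_5_x, e_9_y, e_14_y, e_21_x, e_30_y, e_42_y]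
  exact (mul_right_cancel (mul_right_cancel (mul_right_cancel (mul_right_cancel (mul_right_cancel (mul_right_cancel (mul_right_cancel (mul_right_cancel (mul_right_cancel (mul_right_cancel (mul_right_cancel (mul_right_cancel (mul_right_cancel (mul_right_cancel (mul_right_cancel (mul_right_cancel (mul_right_cancel (mul_right_cancel (mul_right_cancel (mul_right_cancel (mul_right_cancel (mul_right_cancel (mul_right_cancel (h.trans h2.symm))))))))))))))))))))))))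
theorem e_390_y : r390 * y = r303 := by
  have h := relD r62
  simp only [e_62_x, e_46_y, e_23_x, e_16_y, e_6_x, e_3_y, e_7_y, e_1_x, e_0_y, e_2_x, e_4_y, e_8_x, e_12_y, e_18_y, e_27_x, e_37_y, e_52_y, e_68_x, e_88_y, e_112_x, e_140_y, e_178_x, e_218_y, e_268_y, e_328_x] at h
  have h2 : r303 * x * y * x * y * y * x * y * y = r62 := by simp only [e_303_x, e_251_y, e_162_x, e_130_y, e_163_y, e_102_x, e_81_y, e_82_y]
  exact (mul_right_cancel (mul_right_cancel (mul_right_cancel (mul_right_cancel (mul_right_cancel (mul_right_cancel (mul_right_cancel (mul_right_cancel (h.trans h2.symm)))))))))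
theorem e_459_y : r459 * y = r464 := by
  have h := relD r64
  simp only [e_64_x, e_48_y, e_24_x, e_17_y, e_25_x, e_35_y, e_49_y, e_50_x, e_36_y, e_51_x, e_66_y, e_86_x, e_108_y, e_136_y, e_173_x, e_213_y, e_263_y, e_320_x, e_384_y, e_353_x, e_292_y, e_354_x, e_421_y] at h
  have h2 : r464 * x * y * x * y * x * y * y * x * y * y = r64 := by simp only [e_464_x, e_430_y, e_309_x, e_257_y, e_166_x, e_132_y, e_167_y, e_104_x, e_84_y, e_105_y]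
  exact (mul_right_cancel (mul_right_cancel (mul_right_cancel (mul_right_cancel (mul_right_cancel (mul_right_cancel (mul_right_cancel (mul_right_cancel (mul_right_cancel (mul_right_cancel (h.trans h2.symm)))))))))))
theorem e_398_x : r398 * x = r435 := by
  have h := relD r65
  simp only [e_65_x, e_49_y, e_50_x, e_36_y, e_51_x, e_66_y, e_86_y, e_109_x, e_137_y, e_174_x, e_214_y, e_264_x, e_321_y, e_385_y, e_419_x, e_352_y, e_238_y, e_291_x, e_351_y, e_397_x, e_335_y] at h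
  have h2 : r435 * y * y * x * y * x * y * x * y * y * x * y * y = r65 := by simp only [e_435_y, e_467_y, e_377_x, e_313_y, e_208_x, e_168_y, e_169_x, e_134_y, e_170_y, e_106_x, e_85_y, e_107_y]
  exact (mul_right_cancel (mul_right_cancel (mul_right_cancel (mul_right_cancel (mul_right_cancel (mul_right_cancel (mul_right_cancel (mul_right_cancel (mul_right_cancel (mul_right_cancel (mul_right_cancel (mul_right_cancel (h.trans h2.symm)))))))))))))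
theorem e_455_x : r455 * x = r440 := by
  have h := relD r66
  simp only [e_66_x, e_51_y, e_26_x, e_18_y, e_27_x, e_37_y, e_52_y, e_68_x, e_88_y, e_112_x, e_140_y, e_178_x, e_218_y, e_268_y, e_328_x, e_390_y, e_303_y, e_368_x, e_411_y, e_284_x, e_234_y, e_285_x, e_345_y, e_412_y] at h
  have h2 : r440 * y * x * y * x * y * y * x * y * y = r66 := by simp only [e_440_y, e_318_x, e_262_y, e_172_x, e_136_y, e_173_y, e_108_x, e_86_y, e_109_y]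
  exact (mul_right_cancel (mul_right_cancel (mul_right_cancel (mul_right_cancel (mul_right_cancel (mul_right_cancel (mul_right_cancel (mul_right_cancel (mul_right_cancel (h.trans h2.symm))))))))))
theorem e_453_x : r453 * x = r442 := by
  have h := relD r67
  simp only [e_67_x, e_52_y, e_68_x, e_88_y, e_112_x, e_140_y, e_178_y, e_219_x, e_269_y, e_329_x, e_391_y, e_445_x, e_409_y, e_410_y, e_343_x, e_283_y, e_187_y, e_233_x, e_282_y, e_342_x, e_407_y] at h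
  have h2 : r442 * y * y * x * y * x * y * x * y * y * x * y * y = r67 := by simp only [e_442_y, e_452_y, e_386_x, e_322_y, e_214_x, e_174_y, e_175_x, e_138_y, e_176_y, e_110_x, e_87_y, e_111_y]
  exact (mul_right_cancel (mul_right_cancel (mul_right_cancel (mul_right_cancel (mul_right_cancel (mul_right_cancel (mul_right_cancel (mul_right_cancel (mul_right_cancel (mul_right_cancel (mul_right_cancel (mul_right_cancel (h.trans h2.symm)))))))))))))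
theorem e_476_x : r476 * x = r480 := by
  have h := relD r71
  simp only [e_71_x, e_91_y, e_116_x, e_144_y, e_182_x, e_225_y, e_181_y, e_224_x, e_274_y, e_335_x, e_397_y, e_449_x, e_477_y, e_448_y] at h
  have h2 : r480 * y * y * x * y * x * y * x * y * y * x * y * x * y * x * y * y * x * y * y = r71 := by simp only [e_480_y, e_407_y, e_453_x, e_442_y, e_452_x, e_406_y, e_281_x, e_232_y, e_148_y, e_186_x, e_231_y, e_185_x, e_147_y, e_92_x, e_73_y, e_40_y, e_55_x, e_72_y, e_54_y]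
  exact (mul_right_cancel (mul_right_cancel (mul_right_cancel (mul_right_cancel (mul_right_cancel (mul_right_cancel (mul_right_cancel (mul_right_cancel (mul_right_cancel (mul_right_cancel (mul_right_cancel (mul_right_cancel (mul_right_cancel (mul_right_cancel (mul_right_cancel (mul_right_cancel (mul_right_cancel (mul_right_cancel (mul_right_cancel (h.trans h2.symm))))))))))))))))))))
theorem e_211_x : r211 * x = r212 := by
  have h := relD r74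
  simp only [e_74_x, e_93_y, e_118_x, e_148_y, e_186_x, e_231_y, e_185_y, e_230_x, e_280_y, e_340_x, e_404_y, e_437_x, e_380_y, e_438_y, e_316_x, e_261_y, e_317_y, e_210_x, e_171_y] at h
  have h2 : r212 * y * x * y * y * x * y * x * y * x * y * y * x * y * y = r74 := by simp only [e_212_y, e_262_x, e_318_y, e_382_y, e_440_x, e_455_y, e_345_x, e_285_y, e_188_x, e_150_y, e_151_y, e_119_x, e_94_y, e_56_y]
  exact (mul_right_cancel (mul_right_cancel (mul_right_cancel (mul_right_cancel (mul_right_cancel (mul_right_cancel (mul_right_cancel (mul_right_cancel (mul_right_cancel (mul_right_cancel (mul_right_cancel (mul_right_cancel (mul_right_cancel (mul_right_cancel (h.trans h2.symm)))))))))))))))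
theorem e_405_x : r405 * x = r363 := by
  have h := relD r75
  simp only [e_75_x, e_95_y, e_120_x, e_151_y, e_119_x, e_94_y, e_56_y, e_74_x, e_93_y, e_118_x, e_148_y, e_186_x, e_231_y, e_185_y, e_230_x, e_280_y, e_340_y] at h
  have h2 : r363 * y * x * y * x * y * y * x * y * x * y * x * y * y * x * y * y = r75 := by simp only [e_363_y, e_364_x, e_300_y, e_365_x, e_423_y, e_461_y, e_483_x, e_457_y, e_349_x, e_289_y, e_190_x, e_153_y, e_191_y, e_121_x, e_96_y, e_57_y]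
  exact (mul_right_cancel (mul_right_cancel (mul_right_cancel (mul_right_cancel (mul_right_cancel (mul_right_cancel (mul_right_cancel (mul_right_cancel (mul_right_cancel (mul_right_cancel (mul_right_cancel (mul_right_cancel (mul_right_cancel (mul_right_cancel (mul_right_cancel (mul_right_cancel (h.trans h2.symm)))))))))))))))))
theorem e_465_x : r465 * x = r459 := by
  have h := relD r77
  simp only [e_77_x, e_60_y, e_78_x, e_99_y, e_126_x, e_158_y, e_198_y, e_244_x, e_297_y, e_361_x, e_388_y, e_443_x, e_433_y, e_434_y, e_375_x, e_311_y, e_207_y, e_258_x, e_310_y, e_374_x, e_431_y] at h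
  have h2 : r459 * y * y * x * y * x * y * x * y * y * x * y * y = r77 := by simp only [e_459_y, e_464_y, e_421_x, e_354_y, e_239_x, e_194_y, e_195_x, e_156_y, e_196_y, e_124_x, e_98_y, e_125_y]
  exact (mul_right_cancel (mul_right_cancel (mul_right_cancel (mul_right_cancel (mul_right_cancel (mul_right_cancel (mul_right_cancel (mul_right_cancel (mul_right_cancel (mul_right_cancel (mul_right_cancel (mul_right_cancel (h.trans h2.symm)))))))))))))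
theorem e_372_y : r372 * y = r393 := by
  have h := relD r85
  simp only [e_85_x, e_106_y, e_134_x, e_169_y, e_133_x, e_105_y, e_64_y, e_84_x, e_104_y, e_132_x, e_166_y, e_206_x, e_256_y, e_205_y, e_255_x, e_308_y] at h
  have h2 : r393 * x * y * x * y * x * y * y * x * y * x * y * x * y * y * x * y * y = r85 := by simp only [e_393_x, e_331_y, e_332_x, e_272_y, e_333_x, e_394_y, e_446_y, e_473_x, e_469_y, e_381_x, e_317_y, e_210_x, e_171_y, e_211_y, e_135_x, e_107_y, e_65_y]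
  exact (mul_right_cancel (mul_right_cancel (mul_right_cancel (mul_right_cancel (mul_right_cancel (mul_right_cancel (mul_right_cancel (mul_right_cancel (mul_right_cancel (mul_right_cancel (mul_right_cancel (mul_right_cancel (mul_right_cancel (mul_right_cancel (mul_right_cancel (mul_right_cancel (mul_right_cancel (h.trans h2.symm))))))))))))))))))
theorem e_379_y : r379 * y = r404 := by
  have h := relD r86
  simp only [e_86_x, e_108_y, e_136_x, e_172_y, e_212_x, e_211_y, e_135_y, e_171_x, e_210_y, e_261_x, e_316_y, e_380_x, e_437_y] at h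
  have h2 : r404 * x * y * y * x * y * x * y * x * y * y * x * y * x * y * x * y * y * x * y * y = r86 := by simp only [e_404_x, e_340_y, e_405_y, e_280_x, e_230_y, e_231_x, e_186_y, e_232_x, e_281_y, e_341_y, e_406_x, e_452_y, e_386_x, e_322_y, e_214_x, e_174_y, e_175_y, e_137_x, e_109_y, e_66_y]
  exact (mul_right_cancel (mul_right_cancel (mul_right_cancel (mul_right_cancel (mul_right_cancel (mul_right_cancel (mul_right_cancel (mul_right_cancel (mul_right_cancel (mul_right_cancel (mul_right_cancel (mul_right_cancel (mul_right_cancel (mul_right_cancel (mul_right_cancel (mul_right_cancel (mul_right_cancel (mul_right_cancel (mul_right_cancel (mul_right_cancel (h.trans h2.symm)))))))))))))))))))))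
theorem e_495_y : r495 * y = r492 := by
  have h := relD r87
  simp only [e_87_x, e_110_y, e_138_x, e_175_y, e_137_x, e_109_y, e_66_y, e_86_x, e_108_y, e_136_x, e_172_y, e_212_x, e_211_y, e_135_y, e_171_x, e_210_y, e_261_y, e_317_x, e_381_y, e_439_x, e_468_y, e_491_x, e_501_y] at h
  have h2 : r492 * x * y * x * y * x * y * y * x * y * y = r87 := by simp only [e_492_x, e_472_y, e_389_x, e_325_y, e_216_x, e_177_y, e_217_y, e_139_x, e_111_y, e_67_y]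
  exact (mul_right_cancel (mul_right_cancel (mul_right_cancel (mul_right_cancel (mul_right_cancel (mul_right_cancel (mul_right_cancel (mul_right_cancel (mul_right_cancel (mul_right_cancel (h.trans h2.symm)))))))))))
theorem e_469_x : r469 * x = r473 := by
  have h := relD r90
  simp only [e_90_x, e_70_y, e_38_x, e_28_y, e_39_x, e_54_y, e_71_y, e_72_x, e_55_y, e_73_x, e_92_y, e_117_x, e_146_y, e_184_y, e_229_x, e_279_y, e_339_y, e_403_x, e_438_y, e_316_x, e_261_y, e_317_x, e_381_y, e_439_y] at h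
  have h2 : r473 * y * x * y * x * y * y * x * y * y = r90 := by simp only [e_473_y, e_394_x, e_333_y, e_222_x, e_180_y, e_223_y, e_142_x, e_115_y, e_143_y]
  exact (mul_right_cancel (mul_right_cancel (mul_right_cancel (mul_right_cancel (mul_right_cancel (mul_right_cancel (mul_right_cancel (mul_right_cancel (mul_right_cancel (h.trans h2.symm))))))))))
theorem e_378_x : r378 * x = r418 := by
  have h := relD r91
  simp only [e_91_x, e_71_y, e_72_x, e_55_y, e_73_x, e_92_y, e_117_y, e_147_x, e_185_y, e_230_x, e_280_y, e_340_x, e_404_y, e_437_y, e_379_x, e_315_y, e_209_y, e_260_x, e_314_y] at h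
  have h2 : r418 * y * x * y * y * x * y * x * y * x * y * y * x * y * y = r91 := by simp only [e_418_y, e_458_x, e_467_y, e_377_y, e_435_x, e_398_y, e_274_x, e_224_y, e_225_x, e_182_y, e_226_y, e_144_x, e_116_y, e_145_y]
  exact (mul_right_cancel (mul_right_cancel (mul_right_cancel (mul_right_cancel (mul_right_cancel (mul_right_cancel (mul_right_cancel (mul_right_cancel (mul_right_cancel (mul_right_cancel (mul_right_cancel (mul_right_cancel (mul_right_cancel (mul_right_cancel (h.trans h2.symm)))))))))))))))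
theorem e_414_x : r414 * x = r372 := by
  have h := relD r97
  simp only [e_97_x, e_122_y, e_154_x, e_192_y, e_237_x, e_191_y, e_121_y, e_153_x, e_190_y, e_236_x, e_288_y, e_348_x, e_415_y, e_347_y] at h
  have h2 : r372 * y * y * x * y * x * y * x * y * y * x * y * x * y * x * y * y * x * y * y = r97 := by simp only [e_372_y, e_393_y, e_308_x, e_255_y, e_256_x, e_206_y, e_257_x, e_309_y, e_373_y, e_430_x, e_464_y, e_421_x, e_354_y, e_239_x, e_194_y, e_195_y, e_155_x, e_123_y, e_76_y]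
  exact (mul_right_cancel (mul_right_cancel (mul_right_cancel (mul_right_cancel (mul_right_cancel (mul_right_cancel (mul_right_cancel (mul_right_cancel (mul_right_cancel (mul_right_cancel (mul_right_cancel (mul_right_cancel (mul_right_cancel (mul_right_cancel (mul_right_cancel (mul_right_cancel (mul_right_cancel (mul_right_cancel (mul_right_cancel (h.trans h2.symm))))))))))))))))))))
theorem e_483_y : r483 * y = r423 := by
  have h := relD r101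
  simp only [e_101_x, e_80_y, e_45_x, e_33_y, e_46_x, e_62_y, e_81_y, e_82_x, e_63_y, e_83_x, e_103_y, e_131_x, e_164_y, e_204_y, e_254_x, e_307_y, e_371_y, e_429_x, e_416_y, e_288_x, e_236_y, e_289_x, e_349_y, e_417_y, e_457_x] at h
  have h2 : r423 * x * y * x * y * y * x * y * y = r101 := by simp only [e_423_x, e_365_y, e_247_x, e_200_y, e_248_y, e_160_x, e_129_y, e_161_y]
  exact (mul_right_cancel (mul_right_cancel (mul_right_cancel (mul_right_cancel (mul_right_cancel (mul_right_cancel (mul_right_cancel (mul_right_cancel (h.trans h2.symm)))))))))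
theorem e_471_y : r471 * y = r466 := by
  have h := relD r106
  simp only [e_106_x, e_85_y, e_107_x, e_135_y, e_171_x, e_210_y, e_261_y, e_317_x, e_381_y, e_439_x, e_468_y, e_491_x, e_501_y, e_495_y, e_492_x, e_472_y, e_389_y, e_444_x] at h
  have h2 : r466 * x * y * x * y * y * x * y * x * y * x * y * y * x * y * y = r106 := by simp only [e_466_x, e_432_y, e_310_x, e_258_y, e_311_y, e_207_x, e_167_y, e_104_x, e_84_y, e_105_x, e_133_y, e_168_y, e_169_x, e_134_y, e_170_y]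
  exact (mul_right_cancel (mul_right_cancel (mul_right_cancel (mul_right_cancel (mul_right_cancel (mul_right_cancel (mul_right_cancel (mul_right_cancel (mul_right_cancel (mul_right_cancel (mul_right_cancel (mul_right_cancel (mul_right_cancel (mul_right_cancel (mul_right_cancel (h.trans h2.symm))))))))))))))))
theorem e_474_y : r474 * y = r468 := by
  have h := relD r108
  simp only [e_108_x, e_86_y, e_109_x, e_137_y, e_174_x, e_214_y, e_264_y, e_322_x, e_386_y, e_442_x, e_453_y, e_480_x, e_476_y, e_477_y, e_448_x, e_396_y, e_273_y, e_334_x, e_395_y, e_447_x] at h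
  have h2 : r468 * x * y * y * x * y * x * y * x * y * y * x * y * y = r108 := by simp only [e_468_x, e_439_y, e_469_y, e_381_x, e_317_y, e_210_x, e_171_y, e_211_x, e_212_y, e_262_y, e_172_x, e_136_y, e_173_y]
  exact (mul_right_cancel (mul_right_cancel (mul_right_cancel (mul_right_cancel (mul_right_cancel (mul_right_cancel (mul_right_cancel (mul_right_cancel (mul_right_cancel (mul_right_cancel (mul_right_cancel (mul_right_cancel (mul_right_cancel (h.trans h2.symm))))))))))))))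
theorem e_376_y : r376 * y = r399 := by
  have h := relD r111
  simp only [e_111_x, e_139_y, e_177_x, e_216_y, e_266_x, e_324_y, e_388_y, e_443_x, e_433_y, e_434_x] at h
  have h2 : r399 * x * y * y * x * y * y * x * y * x * y * x * y * y * x * y * x * y * x * y * y * x * y * y = r111 := by simp only [e_399_x, e_336_y, e_400_y, e_275_x, e_226_y, e_144_y, e_182_x, e_225_y, e_181_x, e_143_y, e_90_x, e_70_y, e_38_y, e_53_x, e_69_y, e_89_x, e_113_y, e_88_x, e_68_y, e_37_y, e_52_x, e_67_y, e_87_y]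
  exact (mul_right_cancel (mul_right_cancel (mul_right_cancel (mul_right_cancel (mul_right_cancel (mul_right_cancel (mul_right_cancel (mul_right_cancel (mul_right_cancel (mul_right_cancel (mul_right_cancel (mul_right_cancel (mul_right_cancel (mul_right_cancel (mul_right_cancel (mul_right_cancel (mul_right_cancel (mul_right_cancel (mul_right_cancel (mul_right_cancel (mul_right_cancel (mul_right_cancel (mul_right_cancel (h.trans h2.symm))))))))))))))))))))))))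
theorem e_427_x : r427 * x = r451 := by
  have h := relD r132
  simp only [e_132_x, e_166_y, e_206_x, e_256_y, e_205_x, e_165_y, e_103_y, e_131_x, e_164_y, e_204_x, e_253_y, e_306_x, e_305_y, e_203_y, e_252_x, e_304_y, e_369_y] at h
  have h2 : r451 * y * x * y * x * y * y * x * y * x * y * x * y * y * x * y * y = r132 := by simp only [e_451_y, e_479_x, e_495_y, e_492_x, e_472_y, e_389_y, e_444_x, e_471_y, e_466_x, e_432_y, e_310_x, e_258_y, e_311_y, e_207_x, e_167_y, e_104_y]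
  exact (mul_right_cancel (mul_right_cancel (mul_right_cancel (mul_right_cancel (mul_right_cancel (mul_right_cancel (mul_right_cancel (mul_right_cancel (mul_right_cancel (mul_right_cancel (mul_right_cancel (mul_right_cancel (mul_right_cancel (mul_right_cancel (mul_right_cancel (mul_right_cancel (h.trans h2.symm)))))))))))))))))
theorem e_326_x : r326 * x = r369 := by
  have h := relD r135
  simp only [e_135_x, e_107_y, e_65_x, e_49_y, e_50_x, e_36_y, e_51_y, e_26_x, e_18_y, e_27_x, e_37_y, e_52_x, e_67_y, e_87_y, e_111_x, e_139_y, e_177_y, e_217_x, e_267_y] at h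
  have h2 : r369 * y * x * y * y * x * y * x * y * x * y * y * x * y * y = r135 := by simp only [e_369_y, e_427_x, e_451_y, e_479_y, e_402_x, e_339_y, e_403_x, e_438_y, e_316_x, e_261_y, e_317_y, e_210_x, e_171_y, e_211_y]
  exact (mul_right_cancel (mul_right_cancel (mul_right_cancel (mul_right_cancel (mul_right_cancel (mul_right_cancel (mul_right_cancel (mul_right_cancel (mul_right_cancel (mul_right_cancel (mul_right_cancel (mul_right_cancel (mul_right_cancel (mul_right_cancel (h.trans h2.symm)))))))))))))))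
theorem e_449_y : r449 * y = r351 := by
  have h := relD r137
  simp only [e_137_x, e_109_y, e_66_x, e_51_y, e_26_x, e_18_y, e_27_y, e_12_x, e_8_y, e_13_x, e_19_y, e_28_x, e_38_y, e_53_y, e_70_x, e_90_y, e_115_y, e_143_x, e_181_y, e_224_x, e_274_y, e_335_x, e_397_y] at h
  have h2 : r351 * x * y * x * y * x * y * y * x * y * y = r137 := by simp only [e_351_x, e_291_y, e_352_x, e_419_y, e_321_x, e_264_y, e_322_y, e_214_x, e_174_y, e_175_y]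
  exact (mul_right_cancel (mul_right_cancel (mul_right_cancel (mul_right_cancel (mul_right_cancel (mul_right_cancel (mul_right_cancel (mul_right_cancel (mul_right_cancel (mul_right_cancel (h.trans h2.symm)))))))))))
theorem e_433_x : r433 * x = r443 := by
  have h := relD r139
  simp only [e_139_x, e_111_y, e_67_x, e_52_y, e_68_x, e_88_y, e_112_y, e_113_x, e_89_y, e_114_x, e_141_y, e_179_x, e_220_y, e_270_y, e_330_x, e_373_y, e_430_y, e_309_x, e_257_y, e_166_x, e_132_y, e_167_x, e_207_y, e_258_y, e_311_x, e_375_y] at h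
  have h2 : r443 * y * x * y * y * x * y * y = r139 := by simp only [e_443_y, e_324_x, e_266_y, e_325_y, e_216_x, e_177_y, e_217_y]
  exact (mul_right_cancel (mul_right_cancel (mul_right_cancel (mul_right_cancel (mul_right_cancel (mul_right_cancel (mul_right_cancel (h.trans h2.symm))))))))
theorem e_496_y : r496 * y = r493 := by
  have h := relD r148
  simp only [e_148_x, e_118_y, e_149_x, e_187_y, e_233_x, e_282_y, e_342_y, e_408_x, e_454_y, e_481_x] at h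
  have h2 : r493 * x * y * y * x * y * y * x * y * x * y * x * y * y * x * y * x * y * x * y * y * x * y * y = r148 := by simp only [e_493_x, e_475_y, e_395_y, e_447_x, e_474_y, e_468_y, e_491_x, e_501_y, e_495_x, e_479_y, e_402_x, e_339_y, e_403_y, e_279_x, e_229_y, e_146_x, e_117_y, e_147_x, e_185_y, e_230_y, e_231_x, e_186_y, e_232_y]
  exact (mul_right_cancel (mul_right_cancel (mul_right_cancel (mul_right_cancel (mul_right_cancel (mul_right_cancel (mul_right_cancel (mul_right_cancel (mul_right_cancel (mul_right_cancel (mul_right_cancel (mul_right_cancel (mul_right_cancel (mul_right_cancel (mul_right_cancel (mul_right_cancel (mul_right_cancel (mul_right_cancel (mul_right_cancel (mul_right_cancel (mul_right_cancel (mul_right_cancel (mul_right_cancel (h.trans h2.symm))))))))))))))))))))))))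
theorem e_367_x : r367 * x = r383 := by
  have h := relD r155
  simp only [e_155_x, e_123_y, e_76_x, e_59_y, e_31_x, e_22_y, e_32_y, e_15_x, e_10_y, e_16_x, e_23_y, e_33_x, e_45_y, e_61_y, e_80_x, e_101_y, e_129_y, e_161_x, e_201_y, e_249_x, e_302_y] at h
  have h2 : r383 * y * y * x * y * x * y * x * y * y * x * y * y = r155 := by simp only [e_383_y, e_441_y, e_319_x, e_263_y, e_320_x, e_384_y, e_353_x, e_292_y, e_354_y, e_239_x, e_194_y, e_195_y]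
  exact (mul_right_cancel (mul_right_cancel (mul_right_cancel (mul_right_cancel (mul_right_cancel (mul_right_cancel (mul_right_cancel (mul_right_cancel (mul_right_cancel (mul_right_cancel (mul_right_cancel (mul_right_cancel (h.trans h2.symm)))))))))))))
theorem e_500_y : r500 * y = r499 := by
  have h := relD r162
  simp only [e_162_x, e_130_y, e_163_x, e_203_y, e_252_x, e_304_y, e_369_y, e_427_x, e_451_y, e_479_x, e_495_y, e_492_x, e_472_y, e_389_y, e_444_x, e_471_y, e_466_y, e_490_x] at h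
  have h2 : r499 * x * y * x * y * y * x * y * x * y * x * y * y * x * y * y = r162 := by simp only [e_499_x, e_487_y, e_424_x, e_366_y, e_425_y, e_301_x, e_248_y, e_160_x, e_129_y, e_161_x, e_201_y, e_249_y, e_250_x, e_202_y, e_251_y]
  exact (mul_right_cancel (mul_right_cancel (mul_right_cancel (mul_right_cancel (mul_right_cancel (mul_right_cancel (mul_right_cancel (mul_right_cancel (mul_right_cancel (mul_right_cancel (mul_right_cancel (mul_right_cancel (mul_right_cancel (mul_right_cancel (mul_right_cancel (h.trans h2.symm))))))))))))))))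
theorem e_305_x : r305 * x = r306 := by
  have h := relD r164
  simp only [e_164_x, e_131_y, e_165_x, e_205_y, e_255_x, e_308_y, e_372_y, e_393_x, e_331_y, e_332_x, e_272_y, e_333_x, e_394_y, e_446_y, e_473_x, e_469_y, e_381_y, e_439_x, e_468_y, e_491_x, e_501_y, e_495_x, e_479_y, e_402_y, e_451_x, e_427_y, e_304_x, e_252_y] at h
  have h2 : r306 * y * y * x * y * y = r164 := by simp only [e_306_y, e_370_y, e_253_x, e_204_y, e_254_y]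
  exact (mul_right_cancel (mul_right_cancel (mul_right_cancel (mul_right_cancel (mul_right_cancel (h.trans h2.symm))))))
theorem e_492_y : r492 * y = r501 := by
  have h := relD r168
  simp only [e_168_x, e_208_y, e_259_x, e_312_y, e_376_x, e_434_y, e_375_y, e_433_x, e_443_y, e_324_x, e_266_y, e_325_x, e_389_y, e_444_y, e_472_x] at h
  have h2 : r501 * y * x * y * x * y * x * y * y * x * y * x * y * x * y * y * x * y * y = r168 := by simp only [e_501_y, e_495_x, e_479_y, e_402_x, e_339_y, e_403_x, e_438_y, e_316_y, e_380_x, e_437_y, e_379_x, e_315_y, e_209_x, e_170_y, e_106_y, e_134_x, e_169_y, e_133_y]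
  exact (mul_right_cancel (mul_right_cancel (mul_right_cancel (mul_right_cancel (mul_right_cancel (mul_right_cancel (mul_right_cancel (mul_right_cancel (mul_right_cancel (mul_right_cancel (mul_right_cancel (mul_right_cancel (mul_right_cancel (mul_right_cancel (mul_right_cancel (mul_right_cancel (mul_right_cancel (mul_right_cancel (h.trans h2.symm)))))))))))))))))))
theorem e_290_y : r290 * y = r192 := by
  have h := relD r170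
  simp only [e_170_x, e_209_y, e_260_x, e_314_y, e_378_x, e_418_y, e_458_y, e_350_x] at h
  have h2 : r192 * x * y * x * y * y * x * y * y * x * y * x * y * x * y * y * x * y * x * y * x * y * y * x * y * y = r170 := by simp only [e_192_x, e_154_y, e_193_x, e_238_y, e_291_y, e_352_x, e_419_y, e_321_y, e_385_x, e_420_y, e_384_x, e_320_y, e_213_x, e_173_y, e_108_y, e_136_x, e_172_y, e_212_x, e_211_y, e_135_x, e_107_y, e_65_y, e_85_x, e_106_y, e_134_y]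
  exact (mul_right_cancel (mul_right_cancel (mul_right_cancel (mul_right_cancel (mul_right_cancel (mul_right_cancel (mul_right_cancel (mul_right_cancel (mul_right_cancel (mul_right_cancel (mul_right_cancel (mul_right_cancel (mul_right_cancel (mul_right_cancel (mul_right_cancel (mul_right_cancel (mul_right_cancel (mul_right_cancel (mul_right_cancel (mul_right_cancel (mul_right_cancel (mul_right_cancel (mul_right_cancel (mul_right_cancel (mul_right_cancel (h.trans h2.symm))))))))))))))))))))))))))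
theorem e_470_y : r470 * y = r463 := by
  have h := relD r172
  simp only [e_172_x, e_136_y, e_173_x, e_213_y, e_263_x, e_319_y, e_383_y, e_441_x] at h
  have h2 : r463 * x * y * x * y * y * x * y * y * x * y * x * y * x * y * y * x * y * x * y * x * y * y * x * y * y = r172 := by simp only [e_463_x, e_425_y, e_301_x, e_248_y, e_160_y, e_200_x, e_247_y, e_300_y, e_365_x, e_423_y, e_461_x, e_436_y, e_314_x, e_260_y, e_315_y, e_209_x, e_170_y, e_106_x, e_85_y, e_107_x, e_135_y, e_171_y, e_211_x, e_212_y, e_262_y]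
  exact (mul_right_cancel (mul_right_cancel (mul_right_cancel (mul_right_cancel (mul_right_cancel (mul_right_cancel (mul_right_cancel (mul_right_cancel (mul_right_cancel (mul_right_cancel (mul_right_cancel (mul_right_cancel (mul_right_cancel (mul_right_cancel (mul_right_cancel (mul_right_cancel (mul_right_cancel (mul_right_cancel (mul_right_cancel (mul_right_cancel (mul_right_cancel (mul_right_cancel (mul_right_cancel (mul_right_cancel (mul_right_cancel (h.trans h2.symm))))))))))))))))))))))))))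
theorem e_368_y : r368 * y = r390 := by
  have h := relD r173
  simp only [e_173_x, e_213_y, e_263_x, e_319_y, e_383_x, e_367_y, e_426_y, e_302_x, e_249_y, e_250_x, e_202_y, e_251_x, e_303_y] at h
  have h2 : r390 * x * y * y * x * y * x * y * x * y * y * x * y * x * y * x * y * y * x * y * y = r173 := by simp only [e_390_x, e_328_y, e_218_y, e_268_x, e_327_y, e_267_x, e_217_y, e_139_x, e_111_y, e_67_y, e_87_x, e_110_y, e_138_x, e_175_y, e_137_x, e_109_y, e_66_y, e_86_x, e_108_y, e_136_y]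
  exact (mul_right_cancel (mul_right_cancel (mul_right_cancel (mul_right_cancel (mul_right_cancel (mul_right_cancel (mul_right_cancel (mul_right_cancel (mul_right_cancel (mul_right_cancel (mul_right_cancel (mul_right_cancel (mul_right_cancel (mul_right_cancel (mul_right_cancel (mul_right_cancel (mul_right_cancel (mul_right_cancel (mul_right_cancel (mul_right_cancel (h.trans h2.symm)))))))))))))))))))))
theorem e_411_x : r411 * x = r368 := by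
  have h := relD r176
  simp only [e_176_x, e_215_y, e_265_x, e_298_y, e_362_x, e_341_y, e_406_y, e_281_x, e_232_y, e_148_x, e_118_y, e_149_x, e_187_y, e_233_y, e_283_x, e_343_y, e_409_y, e_410_x, e_344_y] at h
  have h2 : r368 * y * x * y * y * x * y * x * y * x * y * y * x * y * y = r176 := by simp only [e_368_y, e_390_x, e_328_y, e_218_y, e_268_x, e_327_y, e_267_x, e_217_y, e_139_x, e_111_y, e_67_y, e_87_x, e_110_y, e_138_y]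
  exact (mul_right_cancel (mul_right_cancel (mul_right_cancel (mul_right_cancel (mul_right_cancel (mul_right_cancel (mul_right_cancel (mul_right_cancel (mul_right_cancel (mul_right_cancel (mul_right_cancel (mul_right_cancel (mul_right_cancel (mul_right_cancel (h.trans h2.symm)))))))))))))))
theorem e_418_x : r418 * x = r378 := by
  have h := relD r185
  simp only [e_185_x, e_147_y, e_92_x, e_73_y, e_40_x, e_29_y, e_41_y, e_20_x, e_14_y, e_21_x, e_30_y, e_42_x, e_57_y, e_75_y, e_96_x, e_121_y, e_153_y, e_191_x, e_237_y, e_290_x, e_350_y] at h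
  have h2 : r378 * y * y * x * y * x * y * x * y * y * x * y * y = r185 := by simp only [e_378_y, e_436_y, e_314_x, e_260_y, e_315_x, e_379_y, e_404_x, e_340_y, e_405_y, e_280_x, e_230_y, e_231_y]
  exact (mul_right_cancel (mul_right_cancel (mul_right_cancel (mul_right_cancel (mul_right_cancel (mul_right_cancel (mul_right_cancel (mul_right_cancel (mul_right_cancel (mul_right_cancel (mul_right_cancel (mul_right_cancel (h.trans h2.symm)))))))))))))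
theorem e_400_x : r400 * x = r360 := by
  have h := relD r193
  simp only [e_193_x, e_238_y, e_291_x, e_351_y, e_397_x, e_335_y, e_398_y, e_274_x, e_224_y, e_225_x, e_182_y, e_226_x, e_275_y, e_336_y] at h
  have h2 : r360 * y * y * x * y * x * y * x * y * y * x * y * x * y * x * y * y * x * y * y = r193 := by simp only [e_360_y, e_243_y, e_296_x, e_359_y, e_295_x, e_242_y, e_157_x, e_125_y, e_77_y, e_98_x, e_124_y, e_156_x, e_195_y, e_155_x, e_123_y, e_76_y, e_97_x, e_122_y, e_154_y]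
  exact (mul_right_cancel (mul_right_cancel (mul_right_cancel (mul_right_cancel (mul_right_cancel (mul_right_cancel (mul_right_cancel (mul_right_cancel (mul_right_cancel (mul_right_cancel (mul_right_cancel (mul_right_cancel (mul_right_cancel (mul_right_cancel (mul_right_cancel (mul_right_cancel (mul_right_cancel (mul_right_cancel (mul_right_cancel (h.trans h2.symm))))))))))))))))))))
theorem e_488_x : r488 * x = r489 := by
  have h := relD r207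
  simp only [e_207_x, e_167_y, e_104_x, e_84_y, e_105_x, e_133_y, e_168_y, e_169_x, e_134_y, e_170_x, e_209_y, e_260_x, e_314_y, e_378_y, e_436_x, e_461_y, e_483_y, e_423_x, e_365_y, e_247_x, e_200_y, e_248_x, e_301_y, e_366_y, e_425_x, e_463_y] at h
  have h2 : r489 * y * x * y * y * x * y * y = r207 := by simp only [e_489_y, e_431_x, e_374_y, e_432_y, e_310_x, e_258_y, e_311_y]
  exact (mul_right_cancel (mul_right_cancel (mul_right_cancel (mul_right_cancel (mul_right_cancel (mul_right_cancel (mul_right_cancel (h.trans h2.symm))))))))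
theorem e_481_y : r481 * y = r484 := by
  have h := relD r224
  simp only [e_224_x, e_274_y, e_335_x, e_397_y, e_449_x, e_477_y, e_448_y, e_476_x, e_480_y, e_407_x, e_342_y, e_408_x, e_454_y] at h
  have h2 : r484 * x * y * y * x * y * x * y * x * y * y * x * y * x * y * x * y * y * x * y * y = r224 := by simp only [e_484_x, e_460_y, e_485_y, e_422_x, e_357_y, e_241_x, e_197_y, e_242_x, e_295_y, e_358_y, e_359_x, e_296_y, e_360_x, e_400_y, e_275_x, e_226_y, e_144_y, e_182_x, e_225_y, e_181_y]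
  exact (mul_right_cancel (mul_right_cancel (mul_right_cancel (mul_right_cancel (mul_right_cancel (mul_right_cancel (mul_right_cancel (mul_right_cancel (mul_right_cancel (mul_right_cancel (mul_right_cancel (mul_right_cancel (mul_right_cancel (mul_right_cancel (mul_right_cancel (mul_right_cancel (mul_right_cancel (mul_right_cancel (mul_right_cancel (mul_right_cancel (h.trans h2.symm)))))))))))))))))))))
theorem e_277_x : r277 * x = r278 := by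
  have h := relD r228
  simp only [e_228_x, e_184_y, e_229_x, e_279_y, e_339_x, e_402_y, e_451_y, e_479_x, e_495_y, e_492_x, e_472_y, e_389_x, e_325_y, e_216_y, e_266_x, e_324_y, e_388_y, e_443_x, e_433_y, e_434_x, e_376_y, e_399_x, e_336_y, e_400_y, e_275_x, e_226_y, e_144_x, e_116_y, e_145_x, e_183_y, e_227_y] at h
  have h2 : r278 * y * y = r228 := by simp only [e_278_y, e_338_y]
  exact (mul_right_cancel (mul_right_cancel (h.trans h2.symm)))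
theorem e_491_y : r491 * y = r474 := by
  have h := relD r230
  simp only [e_230_x, e_280_y, e_340_x, e_404_y, e_437_x, e_380_y, e_438_y, e_316_x, e_261_y, e_317_x, e_381_y, e_439_x, e_468_y] at h
  have h2 : r474 * x * y * y * x * y * x * y * x * y * y * x * y * x * y * x * y * y * x * y * y = r230 := by simp only [e_474_x, e_447_y, e_475_y, e_395_x, e_334_y, e_396_x, e_448_y, e_476_x, e_480_y, e_407_y, e_453_x, e_442_y, e_452_x, e_406_y, e_281_x, e_232_y, e_148_y, e_186_x, e_231_y, e_185_y]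
  exact (mul_right_cancel (mul_right_cancel (mul_right_cancel (mul_right_cancel (mul_right_cancel (mul_right_cancel (mul_right_cancel (mul_right_cancel (mul_right_cancel (mul_right_cancel (mul_right_cancel (mul_right_cancel (mul_right_cancel (mul_right_cancel (mul_right_cancel (mul_right_cancel (mul_right_cancel (mul_right_cancel (mul_right_cancel (mul_right_cancel (h.trans h2.symm)))))))))))))))))))))
theorem e_486_y : r486 * y = r456 := by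
  have h := relD r236
  simp only [e_236_x, e_288_y, e_348_x, e_415_y, e_347_x, e_287_y, e_189_y, e_235_x, e_286_y, e_346_x, e_382_y, e_440_x, e_455_y, e_345_y, e_412_x, e_426_y, e_302_y, e_367_x, e_383_y, e_441_x, e_470_y, e_463_x, e_425_y, e_301_y, e_366_x, e_424_y, e_462_x] at h
  have h2 : r456 * x * y * y * x * y * y = r236 := by simp only [e_456_x, e_417_y, e_457_y, e_349_x, e_289_y, e_190_y]
  exact (mul_right_cancel (mul_right_cancel (mul_right_cancel (mul_right_cancel (mul_right_cancel (mul_right_cancel (h.trans h2.symm)))))))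
theorem e_490_y : r490 * y = r471 := by
  have h := relD r249
  simp only [e_249_x, e_302_y, e_367_x, e_383_y, e_441_x, e_470_y, e_463_y, e_488_x, e_489_y, e_431_x, e_374_y, e_432_x, e_466_y] at h
  have h2 : r471 * x * y * y * x * y * x * y * x * y * y * x * y * x * y * x * y * y * x * y * y = r249 := by simp only [e_471_x, e_444_y, e_472_y, e_389_x, e_325_y, e_216_x, e_177_y, e_217_x, e_267_y, e_326_y, e_327_x, e_268_y, e_328_x, e_390_y, e_303_x, e_251_y, e_162_y, e_202_x, e_250_y, e_201_y]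
  exact (mul_right_cancel (mul_right_cancel (mul_right_cancel (mul_right_cancel (mul_right_cancel (mul_right_cancel (mul_right_cancel (mul_right_cancel (mul_right_cancel (mul_right_cancel (mul_right_cancel (mul_right_cancel (mul_right_cancel (mul_right_cancel (mul_right_cancel (mul_right_cancel (mul_right_cancel (mul_right_cancel (mul_right_cancel (mul_right_cancel (h.trans h2.symm)))))))))))))))))))))
theorem e_494_y : r494 * y = r498 := by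
  have h := relD r253
  simp only [e_253_x, e_204_y, e_254_x, e_307_y, e_371_x, e_428_y, e_450_y, e_478_x] at h
  have h2 : r498 * x * y * x * y * y * x * y * y * x * y * x * y * x * y * y * x * y * x * y * x * y * y * x * y * y = r253 := by simp only [e_498_x, e_485_y, e_422_x, e_357_y, e_241_y, e_294_x, e_356_y, e_391_y, e_445_x, e_409_y, e_410_x, e_344_y, e_411_x, e_368_y, e_390_y, e_303_x, e_251_y, e_162_x, e_130_y, e_163_x, e_203_y, e_252_y, e_305_x, e_306_y, e_370_y]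
  exact (mul_right_cancel (mul_right_cancel (mul_right_cancel (mul_right_cancel (mul_right_cancel (mul_right_cancel (mul_right_cancel (mul_right_cancel (mul_right_cancel (mul_right_cancel (mul_right_cancel (mul_right_cancel (mul_right_cancel (mul_right_cancel (mul_right_cancel (mul_right_cancel (mul_right_cancel (mul_right_cancel (mul_right_cancel (mul_right_cancel (mul_right_cancel (mul_right_cancel (mul_right_cancel (mul_right_cancel (mul_right_cancel (h.trans h2.symm))))))))))))))))))))))))))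
theorem e_482_y : r482 * y = r486 := by
  have h := relD r255
  simp only [e_255_x, e_308_y, e_372_x, e_414_y, e_415_x, e_348_y, e_416_y, e_288_x, e_236_y, e_289_x, e_349_y, e_417_x, e_456_y] at h
  have h2 : r486 * x * y * y * x * y * x * y * x * y * y * x * y * x * y * x * y * y * x * y * y = r255 := by simp only [e_486_x, e_462_y, e_487_y, e_424_x, e_366_y, e_425_x, e_463_y, e_488_x, e_489_y, e_431_y, e_465_x, e_459_y, e_464_x, e_430_y, e_309_x, e_257_y, e_166_y, e_206_x, e_256_y, e_205_y]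
  exact (mul_right_cancel (mul_right_cancel (mul_right_cancel (mul_right_cancel (mul_right_cancel (mul_right_cancel (mul_right_cancel (mul_right_cancel (mul_right_cancel (mul_right_cancel (mul_right_cancel (mul_right_cancel (mul_right_cancel (mul_right_cancel (mul_right_cancel (mul_right_cancel (mul_right_cancel (mul_right_cancel (mul_right_cancel (mul_right_cancel (h.trans h2.symm)))))))))))))))))))))
theorem e_361_y : r361 * y = r387 := by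
  have h := relD r265
  simp only [e_265_x, e_298_y, e_362_x, e_341_y, e_406_x, e_452_y, e_386_y, e_442_x, e_453_y, e_480_x, e_476_y, e_477_x, e_449_y, e_351_y, e_397_x, e_335_y, e_398_y, e_274_x, e_224_y, e_225_x, e_182_y, e_226_x, e_275_y, e_336_y, e_400_x, e_360_y, e_243_x, e_198_y, e_244_x, e_297_y] at h
  have h2 : r387 * x * y * y = r265 := by simp only [e_387_x, e_323_y, e_215_y]
  exact (mul_right_cancel (mul_right_cancel (mul_right_cancel (h.trans h2.symm))))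
theorem e_358_x : r358 * x = r337 := by
  have h := relD r276
  simp only [e_276_x, e_227_y, e_277_x, e_278_y, e_338_x, e_370_y, e_253_y, e_306_x, e_305_y, e_203_x, e_163_y, e_102_x, e_81_y, e_82_y, e_62_x, e_46_y, e_23_y, e_33_x, e_45_y, e_61_x, e_79_y, e_100_x, e_127_y, e_99_y, e_126_x, e_158_y, e_198_x, e_243_y, e_296_x, e_359_y, e_295_y] at h
  have h2 : r337 * y * y = r276 := by simp only [e_337_y, e_401_y]
  exact (mul_right_cancel (mul_right_cancel (h.trans h2.symm)))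
theorem e_497_y : r497 * y = r494 := by
  have h := relD r289
  simp only [e_289_x, e_349_y, e_417_x, e_456_y, e_482_x] at h
  have h2 : r494 * y * x * y * x * y * x * y * y * x * y * y * x * y * x * y * x * y * y * x * y * x * y * x * y * y * x * y * y = r289 := by simp only [e_494_y, e_498_x, e_485_y, e_422_x, e_357_y, e_241_x, e_197_y, e_242_y, e_157_x, e_125_y, e_77_y, e_98_x, e_124_y, e_156_x, e_195_y, e_155_x, e_123_y, e_76_y, e_97_x, e_122_y, e_154_x, e_192_y, e_237_x, e_191_y, e_121_y, e_153_x, e_190_y, e_236_y]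
  exact (mul_right_cancel (mul_right_cancel (mul_right_cancel (mul_right_cancel (mul_right_cancel (mul_right_cancel (mul_right_cancel (mul_right_cancel (mul_right_cancel (mul_right_cancel (mul_right_cancel (mul_right_cancel (mul_right_cancel (mul_right_cancel (mul_right_cancel (mul_right_cancel (mul_right_cancel (mul_right_cancel (mul_right_cancel (mul_right_cancel (mul_right_cancel (mul_right_cancel (mul_right_cancel (mul_right_cancel (mul_right_cancel (mul_right_cancel (mul_right_cancel (mul_right_cancel (h.trans h2.symm)))))))))))))))))))))))))))))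
theorem e_488_y : r488 * y = r470 := by
  have h := relD r290
  simp only [e_290_x, e_350_y, e_418_x, e_378_y, e_436_x, e_461_y, e_483_y, e_423_x, e_365_y, e_247_x, e_200_y, e_248_x, e_301_y, e_366_y, e_425_x, e_463_y] at h
  have h2 : r470 * x * y * x * y * x * y * y * x * y * x * y * x * y * y * x * y * y = r290 := by simp only [e_470_x, e_441_y, e_319_x, e_263_y, e_320_x, e_384_y, e_353_y, e_420_x, e_385_y, e_419_x, e_352_y, e_238_x, e_193_y, e_122_y, e_154_x, e_192_y, e_237_y]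
  exact (mul_right_cancel (mul_right_cancel (mul_right_cancel (mul_right_cancel (mul_right_cancel (mul_right_cancel (mul_right_cancel (mul_right_cancel (mul_right_cancel (mul_right_cancel (mul_right_cancel (mul_right_cancel (mul_right_cancel (mul_right_cancel (mul_right_cancel (mul_right_cancel (mul_right_cancel (h.trans h2.symm))))))))))))))))))
theorem e_388_x : r388 * x = r361 := by
  have h := relD r297
  simp only [e_297_x, e_244_y, e_158_x, e_126_y, e_127_x, e_100_y, e_128_y, e_79_x, e_61_y, e_80_x, e_101_y, e_129_x, e_160_y, e_200_y, e_248_x, e_301_y, e_366_y, e_425_x, e_463_y, e_488_x, e_489_y, e_431_x, e_374_y, e_432_y, e_310_x, e_258_y, e_311_x, e_375_y, e_433_x, e_443_y, e_324_y] at h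
  have h2 : r361 * y * y = r297 := by simp only [e_361_y, e_387_y]
  exact (mul_right_cancel (mul_right_cancel (h.trans h2.symm)))
theorem e_484_y : r484 * y = r454 := by
  have h := relD r298
  simp only [e_298_x, e_265_y, e_323_x, e_387_y, e_297_x, e_244_y, e_158_y, e_198_x, e_243_y, e_296_x, e_359_y, e_295_x, e_242_y, e_157_y, e_197_x, e_241_y, e_294_y, e_357_x, e_422_y, e_460_x] at h
  have h2 : r454 * x * y * y * x * y * x * y * x * y * y * x * y * y = r298 := by simp only [e_454_x, e_408_y, e_282_y, e_342_x, e_407_y, e_453_x, e_442_y, e_452_x, e_406_y, e_281_y, e_341_x, e_362_y, e_245_y]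
  exact (mul_right_cancel (mul_right_cancel (mul_right_cancel (mul_right_cancel (mul_right_cancel (mul_right_cancel (mul_right_cancel (mul_right_cancel (mul_right_cancel (mul_right_cancel (mul_right_cancel (mul_right_cancel (mul_right_cancel (h.trans h2.symm))))))))))))))
theorem e_478_y : r478 * y = r428 := by
  have h := relD r307
  simp only [e_307_x, e_254_y, e_164_x, e_131_y, e_165_x, e_205_y, e_255_y, e_256_x, e_206_y, e_257_x, e_309_y, e_373_x, e_330_y, e_220_y, e_270_x, e_293_y, e_355_y, e_240_x, e_196_y, e_124_x, e_98_y, e_125_x, e_157_y, e_197_y, e_242_x, e_295_y, e_358_x, e_337_y, e_401_x, e_450_y] at h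
  have h2 : r428 * x * y * y = r307 := by simp only [e_428_x, e_371_y, e_429_y]
  exact (mul_right_cancel (mul_right_cancel (mul_right_cancel (h.trans h2.symm))))
theorem e_459_x : r459 * x = r465 := by
  have h := relD r310
  simp only [e_310_x, e_258_y, e_311_x, e_375_y, e_433_x, e_443_y, e_324_y, e_388_x, e_361_y, e_387_x, e_323_y, e_215_x, e_176_y, e_110_y, e_138_x, e_175_y, e_137_y, e_174_x, e_214_y, e_264_x, e_321_y, e_385_x, e_420_y, e_384_y, e_353_x, e_292_y, e_354_x, e_421_y] at h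
  have h2 : r465 * y * y * x * y * y = r310 := by simp only [e_465_y, e_489_y, e_431_x, e_374_y, e_432_y]
  exact (mul_right_cancel (mul_right_cancel (mul_right_cancel (mul_right_cancel (mul_right_cancel (h.trans h2.symm))))))
theorem e_467_x : r467 * x = r458 := by
  have h := relD r314
  simp only [e_314_x, e_260_y, e_315_x, e_379_y, e_404_x, e_340_y, e_405_y, e_280_x, e_230_y, e_231_x, e_186_y, e_232_x, e_281_y, e_341_y, e_406_x, e_452_y, e_386_y, e_442_x, e_453_y, e_480_x, e_476_y, e_477_x, e_449_y, e_351_y, e_397_x, e_335_y, e_398_x, e_435_y] at h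
  have h2 : r458 * y * y * x * y * y = r314 := by simp only [e_458_y, e_350_y, e_418_x, e_378_y, e_436_y]
  exact (mul_right_cancel (mul_right_cancel (mul_right_cancel (mul_right_cancel (mul_right_cancel (h.trans h2.symm))))))
theorem e_502_y : r502 * y = r496 := by
  have h := relD r326
  simp only [e_326_x, e_369_y, e_427_x, e_451_y, e_479_x, e_495_y, e_492_y, e_501_x, e_491_y, e_474_x, e_447_y, e_475_x, e_493_y] at h
  have h2 : r496 * x * y * y * x * y * x * y * x * y * y * x * y * x * y * x * y * y * x * y * y = r326 := by simp only [e_496_x, e_481_y, e_484_y, e_454_x, e_408_y, e_282_x, e_233_y, e_283_x, e_343_y, e_409_y, e_410_x, e_344_y, e_411_x, e_368_y, e_390_x, e_328_y, e_218_y, e_268_x, e_327_y, e_267_y]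
  exact (mul_right_cancel (mul_right_cancel (mul_right_cancel (mul_right_cancel (mul_right_cancel (mul_right_cancel (mul_right_cancel (mul_right_cancel (mul_right_cancel (mul_right_cancel (mul_right_cancel (mul_right_cancel (mul_right_cancel (mul_right_cancel (mul_right_cancel (mul_right_cancel (mul_right_cancel (mul_right_cancel (mul_right_cancel (mul_right_cancel (h.trans h2.symm)))))))))))))))))))))
theorem e_503_x : r503 * x = r502 := by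
  have h := relD r342
  simp only [e_342_x, e_407_y, e_453_x, e_442_y, e_452_x, e_406_y, e_281_y, e_341_x, e_362_y, e_245_x, e_199_y, e_246_x, e_299_y, e_363_y, e_364_x, e_300_y, e_365_y, e_247_x, e_200_y, e_248_x, e_301_y, e_366_x, e_424_y, e_462_y, e_487_x, e_499_y] at h
  have h2 : r502 * y * x * y * y * x * y * y = r342 := by simp only [e_502_y, e_496_x, e_481_y, e_484_y, e_454_x, e_408_y, e_282_y]
  exact (mul_right_cancel (mul_right_cancel (mul_right_cancel (mul_right_cancel (mul_right_cancel (mul_right_cancel (mul_right_cancel (h.trans h2.symm))))))))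
theorem e_498_y : r498 * y = r497 := by
  have h := relD r349
  simp only [e_349_x, e_289_y, e_190_x, e_153_y, e_191_x, e_237_y, e_290_y, e_192_x, e_154_y, e_193_x, e_238_y, e_291_x, e_351_y, e_397_y, e_449_x, e_477_y, e_448_y, e_476_x, e_480_y, e_407_x, e_342_y, e_408_x, e_454_y, e_481_y, e_484_x, e_460_y, e_485_x] at h
  have h2 : r497 * x * y * y * x * y * y = r349 := by simp only [e_497_x, e_482_y, e_486_y, e_456_x, e_417_y, e_457_y]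
  exact (mul_right_cancel (mul_right_cancel (mul_right_cancel (mul_right_cancel (mul_right_cancel (mul_right_cancel (h.trans h2.symm)))))))
theorem e_489_x : r489 * x = r488 := by
  have h := relD r354
  simp only [e_354_x, e_421_y, e_459_x, e_465_y] at h
  have h2 : r488 * y * y * x * y * x * y * x * y * y * x * y * y * x * y * x * y * x * y * y * x * y * x * y * x * y * y * x * y * y = r354 := by simp only [e_488_y, e_470_y, e_463_x, e_425_y, e_301_x, e_248_y, e_160_x, e_129_y, e_161_y, e_101_x, e_80_y, e_45_y, e_61_x, e_79_y, e_100_x, e_127_y, e_99_x, e_78_y, e_44_y, e_60_x, e_77_y, e_98_x, e_124_y, e_156_x, e_195_y, e_155_y, e_194_x, e_239_y, e_292_y]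
  exact (mul_right_cancel (mul_right_cancel (mul_right_cancel (mul_right_cancel (mul_right_cancel (mul_right_cancel (mul_right_cancel (mul_right_cancel (mul_right_cancel (mul_right_cancel (mul_right_cancel (mul_right_cancel (mul_right_cancel (mul_right_cancel (mul_right_cancel (mul_right_cancel (mul_right_cancel (mul_right_cancel (mul_right_cancel (mul_right_cancel (mul_right_cancel (mul_right_cancel (mul_right_cancel (mul_right_cancel (mul_right_cancel (mul_right_cancel (mul_right_cancel (mul_right_cancel (mul_right_cancel (h.trans h2.symm))))))))))))))))))))))))))))))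
theorem e_445_y : r445 * y = r356 := by
  have h := relD r356
  simp only [e_356_x, e_294_y, e_357_x, e_422_y, e_460_x, e_484_y, e_454_y, e_481_x, e_496_y, e_493_x, e_475_y, e_395_x, e_334_y, e_396_y, e_273_x, e_223_y, e_142_y, e_180_x, e_222_y, e_272_x, e_332_y, e_271_x, e_221_y, e_141_y, e_179_x, e_220_y, e_270_x, e_293_y, e_355_x, e_392_y, e_269_y, e_329_x, e_391_y] at h
  exact h
theorem e_503_y : r503 * y = r500 := by
  have h := relD r358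
  simp only [e_358_x, e_337_y, e_401_x, e_450_y, e_478_x, e_494_y, e_498_y, e_497_x, e_482_y, e_486_x, e_462_y, e_487_x, e_499_y] at h
  have h2 : r500 * x * y * y * x * y * x * y * x * y * y * x * y * x * y * x * y * y * x * y * y = r358 := by simp only [e_500_x, e_490_y, e_471_y, e_466_x, e_432_y, e_310_x, e_258_y, e_311_x, e_375_y, e_433_y, e_434_x, e_376_y, e_399_x, e_336_y, e_400_x, e_360_y, e_243_y, e_296_x, e_359_y, e_295_y]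
  exact (mul_right_cancel (mul_right_cancel (mul_right_cancel (mul_right_cancel (mul_right_cancel (mul_right_cancel (mul_right_cancel (mul_right_cancel (mul_right_cancel (mul_right_cancel (mul_right_cancel (mul_right_cancel (mul_right_cancel (mul_right_cancel (mul_right_cancel (mul_right_cancel (mul_right_cancel (mul_right_cancel (mul_right_cancel (mul_right_cancel (h.trans h2.symm)))))))))))))))))))))
theorem e_502_x : r502 * x = r503 := by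
  have h := relD r374
  simp only [e_374_x, e_431_y, e_465_x, e_459_y, e_464_x, e_430_y, e_309_y, e_373_x, e_330_y, e_220_x, e_179_y, e_221_x, e_271_y, e_331_y, e_332_x, e_272_y, e_333_y, e_222_x, e_180_y, e_223_x, e_273_y, e_334_x, e_395_y, e_447_y, e_475_x, e_493_y] at h
  have h2 : r503 * y * x * y * y * x * y * y = r374 := by simp only [e_503_y, e_500_x, e_490_y, e_471_y, e_466_x, e_432_y, e_310_y]
  exact (mul_right_cancel (mul_right_cancel (mul_right_cancel (mul_right_cancel (mul_right_cancel (mul_right_cancel (mul_right_cancel (h.trans h2.symm))))))))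
theorem e_392_x : r392 * x = r355 := by
  have h := relD r387
  simp only [e_387_x, e_323_y, e_215_x, e_176_y, e_110_x, e_87_y, e_111_y, e_67_x, e_52_y, e_68_x, e_88_y, e_112_x, e_140_y, e_178_y, e_219_x, e_269_y, e_329_y] at h
  have h2 : r355 * y * x * y * x * y * y * x * y * x * y * x * y * y * x * y * y = r387 := by simp only [e_355_y, e_240_x, e_196_y, e_124_x, e_98_y, e_125_y, e_77_x, e_60_y, e_78_x, e_99_y, e_126_x, e_158_y, e_198_y, e_244_x, e_297_y, e_361_y]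
  exact (mul_right_cancel (mul_right_cancel (mul_right_cancel (mul_right_cancel (mul_right_cancel (mul_right_cancel (mul_right_cancel (mul_right_cancel (mul_right_cancel (mul_right_cancel (mul_right_cancel (mul_right_cancel (mul_right_cancel (mul_right_cancel (mul_right_cancel (mul_right_cancel (h.trans h2.symm)))))))))))))))))
theorem e_409_x : r409 * x = r445 := by
  have h := relD r391
  simp only [e_391_x, e_329_y, e_392_x, e_355_y, e_240_x, e_196_y, e_124_y, e_156_x, e_195_y, e_155_x, e_123_y, e_76_x, e_59_y, e_31_y, e_43_x, e_58_y, e_30_y, e_42_x, e_57_y, e_75_x, e_95_y, e_120_x, e_151_y, e_119_y, e_150_x, e_188_y, e_234_x, e_284_y, e_344_x, e_410_y, e_343_y] at h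
  have h2 : r445 * y * y = r391 := by simp only [e_445_y, e_356_y]
  exact (mul_right_cancel (mul_right_cancel (h.trans h2.symm)))
abbrev Idx := Fin 8 × Fin 63
noncomputable def rep_c0 : Fin 63 → P
  | ⟨0, _⟩ => r0
  | ⟨1, _⟩ => r1
  | ⟨2, _⟩ => r2
  | ⟨3, _⟩ => r3
  | ⟨4, _⟩ => r4
  | ⟨5, _⟩ => r5
  | ⟨6, _⟩ => r6
  | ⟨7, _⟩ => r7
  | ⟨8, _⟩ => r8
  | ⟨9, _⟩ => r9
  | ⟨10, _⟩ => r10
  | ⟨11, _⟩ => r11
  | ⟨12, _⟩ => r12
  | ⟨13, _⟩ => r13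
  | ⟨14, _⟩ => r14
  | ⟨15, _⟩ => r15
  | ⟨16, _⟩ => r16
  | ⟨17, _⟩ => r17
  | ⟨18, _⟩ => r18
  | ⟨19, _⟩ => r19
  | ⟨20, _⟩ => r20
  | ⟨21, _⟩ => r21
  | ⟨22, _⟩ => r22
  | ⟨23, _⟩ => r23
  | ⟨24, _⟩ => r24
  | ⟨25, _⟩ => r25
  | ⟨26, _⟩ => r26
  | ⟨27, _⟩ => r27
  | ⟨28, _⟩ => r28
  | ⟨29, _⟩ => r29
  | ⟨30, _⟩ => r30
  | ⟨31, _⟩ => r31
  | ⟨32, _⟩ => r32
  | ⟨33, _⟩ => r33
  | ⟨34, _⟩ => r34
  | ⟨35, _⟩ => r35
  | ⟨36, _⟩ => r36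
  | ⟨37, _⟩ => r37
  | ⟨38, _⟩ => r38
  | ⟨39, _⟩ => r39
  | ⟨40, _⟩ => r40
  | ⟨41, _⟩ => r41
  | ⟨42, _⟩ => r42
  | ⟨43, _⟩ => r43
  | ⟨44, _⟩ => r44
  | ⟨45, _⟩ => r45
  | ⟨46, _⟩ => r46
  | ⟨47, _⟩ => r47
  | ⟨48, _⟩ => r48
  | ⟨49, _⟩ => r49
  | ⟨50, _⟩ => r50
  | ⟨51, _⟩ => r51
  | ⟨52, _⟩ => r52
  | ⟨53, _⟩ => r53
  | ⟨54, _⟩ => r54
  | ⟨55, _⟩ => r55
  | ⟨56, _⟩ => r56
  | ⟨57, _⟩ => r57
  | ⟨58, _⟩ => r58
  | ⟨59, _⟩ => r59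
  | ⟨60, _⟩ => r60
  | ⟨61, _⟩ => r61
  | ⟨62, _⟩ => r62
  | ⟨n+63, h⟩ => absurd h (by omega)
noncomputable def rep_c1 : Fin 63 → P
  | ⟨0, _⟩ => r63
  | ⟨1, _⟩ => r64
  | ⟨2, _⟩ => r65
  | ⟨3, _⟩ => r66
  | ⟨4, _⟩ => r67
  | ⟨5, _⟩ => r68
  | ⟨6, _⟩ => r69
  | ⟨7, _⟩ => r70
  | ⟨8, _⟩ => r71
  | ⟨9, _⟩ => r72
  | ⟨10, _⟩ => r73
  | ⟨11, _⟩ => r74
  | ⟨12, _⟩ => r75
  | ⟨13, _⟩ => r76
  | ⟨14, _⟩ => r77
  | ⟨15, _⟩ => r78
  | ⟨16, _⟩ => r79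
  | ⟨17, _⟩ => r80
  | ⟨18, _⟩ => r81
  | ⟨19, _⟩ => r82
  | ⟨20, _⟩ => r83
  | ⟨21, _⟩ => r84
  | ⟨22, _⟩ => r85
  | ⟨23, _⟩ => r86
  | ⟨24, _⟩ => r87
  | ⟨25, _⟩ => r88
  | ⟨26, _⟩ => r89
  | ⟨27, _⟩ => r90
  | ⟨28, _⟩ => r91
  | ⟨29, _⟩ => r92
  | ⟨30, _⟩ => r93
  | ⟨31, _⟩ => r94
  | ⟨32, _⟩ => r95
  | ⟨33, _⟩ => r96
  | ⟨34, _⟩ => r97
  | ⟨35, _⟩ => r98
  | ⟨36, _⟩ => r99
  | ⟨37, _⟩ => r100
  | ⟨38, _⟩ => r101
  | ⟨39, _⟩ => r102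
  | ⟨40, _⟩ => r103
  | ⟨41, _⟩ => r104
  | ⟨42, _⟩ => r105
  | ⟨43, _⟩ => r106
  | ⟨44, _⟩ => r107
  | ⟨45, _⟩ => r108
  | ⟨46, _⟩ => r109
  | ⟨47, _⟩ => r110
  | ⟨48, _⟩ => r111
  | ⟨49, _⟩ => r112
  | ⟨50, _⟩ => r113
  | ⟨51, _⟩ => r114
  | ⟨52, _⟩ => r115
  | ⟨53, _⟩ => r116
  | ⟨54, _⟩ => r117
  | ⟨55, _⟩ => r118
  | ⟨56, _⟩ => r119
  | ⟨57, _⟩ => r120
  | ⟨58, _⟩ => r121
  | ⟨59, _⟩ => r122
  | ⟨60, _⟩ => r123
  | ⟨61, _⟩ => r124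
  | ⟨62, _⟩ => r125
  | ⟨n+63, h⟩ => absurd h (by omega)
noncomputable def rep_c2 : Fin 63 → P
  | ⟨0, _⟩ => r126
  | ⟨1, _⟩ => r127
  | ⟨2, _⟩ => r128
  | ⟨3, _⟩ => r129
  | ⟨4, _⟩ => r130
  | ⟨5, _⟩ => r131
  | ⟨6, _⟩ => r132
  | ⟨7, _⟩ => r133
  | ⟨8, _⟩ => r134
  | ⟨9, _⟩ => r135
  | ⟨10, _⟩ => r136
  | ⟨11, _⟩ => r137
  | ⟨12, _⟩ => r138
  | ⟨13, _⟩ => r139
  | ⟨14, _⟩ => r140
  | ⟨15, _⟩ => r141
  | ⟨16, _⟩ => r142
  | ⟨17, _⟩ => r143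
  | ⟨18, _⟩ => r144
  | ⟨19, _⟩ => r145
  | ⟨20, _⟩ => r146
  | ⟨21, _⟩ => r147
  | ⟨22, _⟩ => r148
  | ⟨23, _⟩ => r149
  | ⟨24, _⟩ => r150
  | ⟨25, _⟩ => r151
  | ⟨26, _⟩ => r152
  | ⟨27, _⟩ => r153
  | ⟨28, _⟩ => r154
  | ⟨29, _⟩ => r155
  | ⟨30, _⟩ => r156
  | ⟨31, _⟩ => r157
  | ⟨32, _⟩ => r158
  | ⟨33, _⟩ => r159
  | ⟨34, _⟩ => r160
  | ⟨35, _⟩ => r161
  | ⟨36, _⟩ => r162
  | ⟨37, _⟩ => r163
  | ⟨38, _⟩ => r164
  | ⟨39, _⟩ => r165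
  | ⟨40, _⟩ => r166
  | ⟨41, _⟩ => r167
  | ⟨42, _⟩ => r168
  | ⟨43, _⟩ => r169
  | ⟨44, _⟩ => r170
  | ⟨45, _⟩ => r171
  | ⟨46, _⟩ => r172
  | ⟨47, _⟩ => r173
  | ⟨48, _⟩ => r174
  | ⟨49, _⟩ => r175
  | ⟨50, _⟩ => r176
  | ⟨51, _⟩ => r177
  | ⟨52, _⟩ => r178
  | ⟨53, _⟩ => r179
  | ⟨54, _⟩ => r180
  | ⟨55, _⟩ => r181
  | ⟨56, _⟩ => r182
  | ⟨57, _⟩ => r183
  | ⟨58, _⟩ => r184
  | ⟨59, _⟩ => r185
  | ⟨60, _⟩ => r186
  | ⟨61, _⟩ => r187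
  | ⟨62, _⟩ => r188
  | ⟨n+63, h⟩ => absurd h (by omega)
noncomputable def rep_c3 : Fin 63 → P
  | ⟨0, _⟩ => r189
  | ⟨1, _⟩ => r190
  | ⟨2, _⟩ => r191
  | ⟨3, _⟩ => r192
  | ⟨4, _⟩ => r193
  | ⟨5, _⟩ => r194
  | ⟨6, _⟩ => r195
  | ⟨7, _⟩ => r196
  | ⟨8, _⟩ => r197
  | ⟨9, _⟩ => r198
  | ⟨10, _⟩ => r199
  | ⟨11, _⟩ => r200
  | ⟨12, _⟩ => r201
  | ⟨13, _⟩ => r202
  | ⟨14, _⟩ => r203
  | ⟨15, _⟩ => r204
  | ⟨16, _⟩ => r205
  | ⟨17, _⟩ => r206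
  | ⟨18, _⟩ => r207
  | ⟨19, _⟩ => r208
  | ⟨20, _⟩ => r209
  | ⟨21, _⟩ => r210
  | ⟨22, _⟩ => r211
  | ⟨23, _⟩ => r212
  | ⟨24, _⟩ => r213
  | ⟨25, _⟩ => r214
  | ⟨26, _⟩ => r215
  | ⟨27, _⟩ => r216
  | ⟨28, _⟩ => r217
  | ⟨29, _⟩ => r218
  | ⟨30, _⟩ => r219
  | ⟨31, _⟩ => r220
  | ⟨32, _⟩ => r221
  | ⟨33, _⟩ => r222
  | ⟨34, _⟩ => r223
  | ⟨35, _⟩ => r224
  | ⟨36, _⟩ => r225
  | ⟨37, _⟩ => r226
  | ⟨38, _⟩ => r227
  | ⟨39, _⟩ => r228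
  | ⟨40, _⟩ => r229
  | ⟨41, _⟩ => r230
  | ⟨42, _⟩ => r231
  | ⟨43, _⟩ => r232
  | ⟨44, _⟩ => r233
  | ⟨45, _⟩ => r234
  | ⟨46, _⟩ => r235
  | ⟨47, _⟩ => r236
  | ⟨48, _⟩ => r237
  | ⟨49, _⟩ => r238
  | ⟨50, _⟩ => r239
  | ⟨51, _⟩ => r240
  | ⟨52, _⟩ => r241
  | ⟨53, _⟩ => r242
  | ⟨54, _⟩ => r243
  | ⟨55, _⟩ => r244
  | ⟨56, _⟩ => r245
  | ⟨57, _⟩ => r246
  | ⟨58, _⟩ => r247
  | ⟨59, _⟩ => r248
  | ⟨60, _⟩ => r249
  | ⟨61, _⟩ => r250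
  | ⟨62, _⟩ => r251
  | ⟨n+63, h⟩ => absurd h (by omega)
noncomputable def rep_c4 : Fin 63 → P
  | ⟨0, _⟩ => r252
  | ⟨1, _⟩ => r253
  | ⟨2, _⟩ => r254
  | ⟨3, _⟩ => r255
  | ⟨4, _⟩ => r256
  | ⟨5, _⟩ => r257
  | ⟨6, _⟩ => r258
  | ⟨7, _⟩ => r259
  | ⟨8, _⟩ => r260
  | ⟨9, _⟩ => r261
  | ⟨10, _⟩ => r262
  | ⟨11, _⟩ => r263
  | ⟨12, _⟩ => r264
  | ⟨13, _⟩ => r265
  | ⟨14, _⟩ => r266
  | ⟨15, _⟩ => r267
  | ⟨16, _⟩ => r268
  | ⟨17, _⟩ => r269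
  | ⟨18, _⟩ => r270
  | ⟨19, _⟩ => r271
  | ⟨20, _⟩ => r272
  | ⟨21, _⟩ => r273
  | ⟨22, _⟩ => r274
  | ⟨23, _⟩ => r275
  | ⟨24, _⟩ => r276
  | ⟨25, _⟩ => r277
  | ⟨26, _⟩ => r278
  | ⟨27, _⟩ => r279
  | ⟨28, _⟩ => r280
  | ⟨29, _⟩ => r281
  | ⟨30, _⟩ => r282
  | ⟨31, _⟩ => r283
  | ⟨32, _⟩ => r284
  | ⟨33, _⟩ => r285
  | ⟨34, _⟩ => r286
  | ⟨35, _⟩ => r287
  | ⟨36, _⟩ => r288
  | ⟨37, _⟩ => r289
  | ⟨38, _⟩ => r290
  | ⟨39, _⟩ => r291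
  | ⟨40, _⟩ => r292
  | ⟨41, _⟩ => r293
  | ⟨42, _⟩ => r294
  | ⟨43, _⟩ => r295
  | ⟨44, _⟩ => r296
  | ⟨45, _⟩ => r297
  | ⟨46, _⟩ => r298
  | ⟨47, _⟩ => r299
  | ⟨48, _⟩ => r300
  | ⟨49, _⟩ => r301
  | ⟨50, _⟩ => r302
  | ⟨51, _⟩ => r303
  | ⟨52, _⟩ => r304
  | ⟨53, _⟩ => r305
  | ⟨54, _⟩ => r306
  | ⟨55, _⟩ => r307
  | ⟨56, _⟩ => r308
  | ⟨57, _⟩ => r309
  | ⟨58, _⟩ => r310
  | ⟨59, _⟩ => r311
  | ⟨60, _⟩ => r312
  | ⟨61, _⟩ => r313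
  | ⟨62, _⟩ => r314
  | ⟨n+63, h⟩ => absurd h (by omega)
noncomputable def rep_c5 : Fin 63 → P
  | ⟨0, _⟩ => r315
  | ⟨1, _⟩ => r316
  | ⟨2, _⟩ => r317
  | ⟨3, _⟩ => r318
  | ⟨4, _⟩ => r319
  | ⟨5, _⟩ => r320
  | ⟨6, _⟩ => r321
  | ⟨7, _⟩ => r322
  | ⟨8, _⟩ => r323
  | ⟨9, _⟩ => r324
  | ⟨10, _⟩ => r325
  | ⟨11, _⟩ => r326
  | ⟨12, _⟩ => r327
  | ⟨13, _⟩ => r328
  | ⟨14, _⟩ => r329
  | ⟨15, _⟩ => r330
  | ⟨16, _⟩ => r331
  | ⟨17, _⟩ => r332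
  | ⟨18, _⟩ => r333
  | ⟨19, _⟩ => r334
  | ⟨20, _⟩ => r335
  | ⟨21, _⟩ => r336
  | ⟨22, _⟩ => r337
  | ⟨23, _⟩ => r338
  | ⟨24, _⟩ => r339
  | ⟨25, _⟩ => r340
  | ⟨26, _⟩ => r341
  | ⟨27, _⟩ => r342
  | ⟨28, _⟩ => r343
  | ⟨29, _⟩ => r344
  | ⟨30, _⟩ => r345
  | ⟨31, _⟩ => r346
  | ⟨32, _⟩ => r347
  | ⟨33, _⟩ => r348
  | ⟨34, _⟩ => r349
  | ⟨35, _⟩ => r350
  | ⟨36, _⟩ => r351
  | ⟨37, _⟩ => r352
  | ⟨38, _⟩ => r353
  | ⟨39, _⟩ => r354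
  | ⟨40, _⟩ => r355
  | ⟨41, _⟩ => r356
  | ⟨42, _⟩ => r357
  | ⟨43, _⟩ => r358
  | ⟨44, _⟩ => r359
  | ⟨45, _⟩ => r360
  | ⟨46, _⟩ => r361
  | ⟨47, _⟩ => r362
  | ⟨48, _⟩ => r363
  | ⟨49, _⟩ => r364
  | ⟨50, _⟩ => r365
  | ⟨51, _⟩ => r366
  | ⟨52, _⟩ => r367
  | ⟨53, _⟩ => r368
  | ⟨54, _⟩ => r369
  | ⟨55, _⟩ => r370
  | ⟨56, _⟩ => r371
  | ⟨57, _⟩ => r372
  | ⟨58, _⟩ => r373
  | ⟨59, _⟩ => r374
  | ⟨60, _⟩ => r375
  | ⟨61, _⟩ => r376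
  | ⟨62, _⟩ => r377
  | ⟨n+63, h⟩ => absurd h (by omega)
noncomputable def rep_c6 : Fin 63 → P
  | ⟨0, _⟩ => r378
  | ⟨1, _⟩ => r379
  | ⟨2, _⟩ => r380
  | ⟨3, _⟩ => r381
  | ⟨4, _⟩ => r382
  | ⟨5, _⟩ => r383
  | ⟨6, _⟩ => r384
  | ⟨7, _⟩ => r385
  | ⟨8, _⟩ => r386
  | ⟨9, _⟩ => r387
  | ⟨10, _⟩ => r388
  | ⟨11, _⟩ => r389
  | ⟨12, _⟩ => r390
  | ⟨13, _⟩ => r391
  | ⟨14, _⟩ => r392
  | ⟨15, _⟩ => r393
  | ⟨16, _⟩ => r394
  | ⟨17, _⟩ => r395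
  | ⟨18, _⟩ => r396
  | ⟨19, _⟩ => r397
  | ⟨20, _⟩ => r398
  | ⟨21, _⟩ => r399
  | ⟨22, _⟩ => r400
  | ⟨23, _⟩ => r401
  | ⟨24, _⟩ => r402
  | ⟨25, _⟩ => r403
  | ⟨26, _⟩ => r404
  | ⟨27, _⟩ => r405
  | ⟨28, _⟩ => r406
  | ⟨29, _⟩ => r407
  | ⟨30, _⟩ => r408
  | ⟨31, _⟩ => r409
  | ⟨32, _⟩ => r410
  | ⟨33, _⟩ => r411
  | ⟨34, _⟩ => r412
  | ⟨35, _⟩ => r413
  | ⟨36, _⟩ => r414
  | ⟨37, _⟩ => r415
  | ⟨38, _⟩ => r416
  | ⟨39, _⟩ => r417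
  | ⟨40, _⟩ => r418
  | ⟨41, _⟩ => r419
  | ⟨42, _⟩ => r420
  | ⟨43, _⟩ => r421
  | ⟨44, _⟩ => r422
  | ⟨45, _⟩ => r423
  | ⟨46, _⟩ => r424
  | ⟨47, _⟩ => r425
  | ⟨48, _⟩ => r426
  | ⟨49, _⟩ => r427
  | ⟨50, _⟩ => r428
  | ⟨51, _⟩ => r429
  | ⟨52, _⟩ => r430
  | ⟨53, _⟩ => r431
  | ⟨54, _⟩ => r432
  | ⟨55, _⟩ => r433
  | ⟨56, _⟩ => r434
  | ⟨57, _⟩ => r435
  | ⟨58, _⟩ => r436
  | ⟨59, _⟩ => r437
  | ⟨60, _⟩ => r438
  | ⟨61, _⟩ => r439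
  | ⟨62, _⟩ => r440
  | ⟨n+63, h⟩ => absurd h (by omega)
noncomputable def rep_c7 : Fin 63 → P
  | ⟨0, _⟩ => r441
  | ⟨1, _⟩ => r442
  | ⟨2, _⟩ => r443
  | ⟨3, _⟩ => r444
  | ⟨4, _⟩ => r445
  | ⟨5, _⟩ => r446
  | ⟨6, _⟩ => r447
  | ⟨7, _⟩ => r448
  | ⟨8, _⟩ => r449
  | ⟨9, _⟩ => r450
  | ⟨10, _⟩ => r451
  | ⟨11, _⟩ => r452
  | ⟨12, _⟩ => r453
  | ⟨13, _⟩ => r454
  | ⟨14, _⟩ => r455
  | ⟨15, _⟩ => r456
  | ⟨16, _⟩ => r457
  | ⟨17, _⟩ => r458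
  | ⟨18, _⟩ => r459
  | ⟨19, _⟩ => r460
  | ⟨20, _⟩ => r461
  | ⟨21, _⟩ => r462
  | ⟨22, _⟩ => r463
  | ⟨23, _⟩ => r464
  | ⟨24, _⟩ => r465
  | ⟨25, _⟩ => r466
  | ⟨26, _⟩ => r467
  | ⟨27, _⟩ => r468
  | ⟨28, _⟩ => r469
  | ⟨29, _⟩ => r470
  | ⟨30, _⟩ => r471
  | ⟨31, _⟩ => r472
  | ⟨32, _⟩ => r473
  | ⟨33, _⟩ => r474
  | ⟨34, _⟩ => r475
  | ⟨35, _⟩ => r476
  | ⟨36, _⟩ => r477
  | ⟨37, _⟩ => r478
  | ⟨38, _⟩ => r479
  | ⟨39, _⟩ => r480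
  | ⟨40, _⟩ => r481
  | ⟨41, _⟩ => r482
  | ⟨42, _⟩ => r483
  | ⟨43, _⟩ => r484
  | ⟨44, _⟩ => r485
  | ⟨45, _⟩ => r486
  | ⟨46, _⟩ => r487
  | ⟨47, _⟩ => r488
  | ⟨48, _⟩ => r489
  | ⟨49, _⟩ => r490
  | ⟨50, _⟩ => r491
  | ⟨51, _⟩ => r492
  | ⟨52, _⟩ => r493
  | ⟨53, _⟩ => r494
  | ⟨54, _⟩ => r495
  | ⟨55, _⟩ => r496
  | ⟨56, _⟩ => r497
  | ⟨57, _⟩ => r498
  | ⟨58, _⟩ => r499
  | ⟨59, _⟩ => r500
  | ⟨60, _⟩ => r501
  | ⟨61, _⟩ => r502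
  | ⟨62, _⟩ => r503
  | ⟨n+63, h⟩ => absurd h (by omega)
noncomputable def rep_ch : Fin 8 → Fin 63 → P
  | ⟨0, _⟩ => rep_c0
  | ⟨1, _⟩ => rep_c1
  | ⟨2, _⟩ => rep_c2
  | ⟨3, _⟩ => rep_c3
  | ⟨4, _⟩ => rep_c4
  | ⟨5, _⟩ => rep_c5
  | ⟨6, _⟩ => rep_c6
  | ⟨7, _⟩ => rep_c7
  | ⟨n+8, h⟩ => absurd h (by omega)
noncomputable def rep (i : Idx) : P := rep_ch i.1 i.2
def nx_x_c0 : Fin 63 → Idx
  | ⟨0, _⟩ => (0, 1)
  | ⟨1, _⟩ => (0, 0)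
  | ⟨2, _⟩ => (0, 4)
  | ⟨3, _⟩ => (0, 6)
  | ⟨4, _⟩ => (0, 2)
  | ⟨5, _⟩ => (0, 9)
  | ⟨6, _⟩ => (0, 3)
  | ⟨7, _⟩ => (0, 11)
  | ⟨8, _⟩ => (0, 12)
  | ⟨9, _⟩ => (0, 5)
  | ⟨10, _⟩ => (0, 15)
  | ⟨11, _⟩ => (0, 7)
  | ⟨12, _⟩ => (0, 8)
  | ⟨13, _⟩ => (0, 19)
  | ⟨14, _⟩ => (0, 20)
  | ⟨15, _⟩ => (0, 10)
  | ⟨16, _⟩ => (0, 23)
  | ⟨17, _⟩ => (0, 24)
  | ⟨18, _⟩ => (0, 26)
  | ⟨19, _⟩ => (0, 13)
  | ⟨20, _⟩ => (0, 14)
  | ⟨21, _⟩ => (0, 30)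
  | ⟨22, _⟩ => (0, 31)
  | ⟨23, _⟩ => (0, 16)
  | ⟨24, _⟩ => (0, 17)
  | ⟨25, _⟩ => (0, 35)
  | ⟨26, _⟩ => (0, 18)
  | ⟨27, _⟩ => (0, 37)
  | ⟨28, _⟩ => (0, 38)
  | ⟨29, _⟩ => (0, 40)
  | ⟨30, _⟩ => (0, 21)
  | ⟨31, _⟩ => (0, 22)
  | ⟨32, _⟩ => (0, 44)
  | ⟨33, _⟩ => (0, 45)
  | ⟨34, _⟩ => (0, 47)
  | ⟨35, _⟩ => (0, 25)
  | ⟨36, _⟩ => (0, 50)
  | ⟨37, _⟩ => (0, 27)
  | ⟨38, _⟩ => (0, 28)
  | ⟨39, _⟩ => (0, 54)
  | ⟨40, _⟩ => (0, 29)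
  | ⟨41, _⟩ => (0, 56)
  | ⟨42, _⟩ => (0, 57)
  | ⟨43, _⟩ => (0, 58)
  | ⟨44, _⟩ => (0, 32)
  | ⟨45, _⟩ => (0, 33)
  | ⟨46, _⟩ => (0, 62)
  | ⟨47, _⟩ => (0, 34)
  | ⟨48, _⟩ => (1, 1)
  | ⟨49, _⟩ => (1, 2)
  | ⟨50, _⟩ => (0, 36)
  | ⟨51, _⟩ => (1, 3)
  | ⟨52, _⟩ => (1, 4)
  | ⟨53, _⟩ => (1, 6)
  | ⟨54, _⟩ => (0, 39)
  | ⟨55, _⟩ => (1, 9)
  | ⟨56, _⟩ => (0, 41)
  | ⟨57, _⟩ => (0, 42)
  | ⟨58, _⟩ => (0, 43)
  | ⟨59, _⟩ => (1, 13)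
  | ⟨60, _⟩ => (1, 14)
  | ⟨61, _⟩ => (1, 16)
  | ⟨62, _⟩ => (0, 46)
  | ⟨n+63, h⟩ => absurd h (by omega)
def nx_x_c1 : Fin 63 → Idx
  | ⟨0, _⟩ => (1, 19)
  | ⟨1, _⟩ => (0, 48)
  | ⟨2, _⟩ => (0, 49)
  | ⟨3, _⟩ => (0, 51)
  | ⟨4, _⟩ => (0, 52)
  | ⟨5, _⟩ => (1, 25)
  | ⟨6, _⟩ => (0, 53)
  | ⟨7, _⟩ => (1, 27)
  | ⟨8, _⟩ => (1, 28)
  | ⟨9, _⟩ => (0, 55)
  | ⟨10, _⟩ => (1, 29)
  | ⟨11, _⟩ => (1, 30)
  | ⟨12, _⟩ => (1, 32)
  | ⟨13, _⟩ => (0, 59)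
  | ⟨14, _⟩ => (0, 60)
  | ⟨15, _⟩ => (1, 36)
  | ⟨16, _⟩ => (0, 61)
  | ⟨17, _⟩ => (1, 38)
  | ⟨18, _⟩ => (1, 39)
  | ⟨19, _⟩ => (1, 0)
  | ⟨20, _⟩ => (1, 40)
  | ⟨21, _⟩ => (1, 41)
  | ⟨22, _⟩ => (1, 43)
  | ⟨23, _⟩ => (1, 45)
  | ⟨24, _⟩ => (1, 47)
  | ⟨25, _⟩ => (1, 5)
  | ⟨26, _⟩ => (1, 50)
  | ⟨27, _⟩ => (1, 7)
  | ⟨28, _⟩ => (1, 8)
  | ⟨29, _⟩ => (1, 10)
  | ⟨30, _⟩ => (1, 11)
  | ⟨31, _⟩ => (1, 56)
  | ⟨32, _⟩ => (1, 12)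
  | ⟨33, _⟩ => (1, 58)
  | ⟨34, _⟩ => (1, 59)
  | ⟨35, _⟩ => (1, 61)
  | ⟨36, _⟩ => (1, 15)
  | ⟨37, _⟩ => (2, 1)
  | ⟨38, _⟩ => (1, 17)
  | ⟨39, _⟩ => (1, 18)
  | ⟨40, _⟩ => (1, 20)
  | ⟨41, _⟩ => (1, 21)
  | ⟨42, _⟩ => (2, 7)
  | ⟨43, _⟩ => (1, 22)
  | ⟨44, _⟩ => (2, 9)
  | ⟨45, _⟩ => (1, 23)
  | ⟨46, _⟩ => (2, 11)
  | ⟨47, _⟩ => (1, 24)
  | ⟨48, _⟩ => (2, 13)
  | ⟨49, _⟩ => (2, 14)
  | ⟨50, _⟩ => (1, 26)
  | ⟨51, _⟩ => (2, 15)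
  | ⟨52, _⟩ => (2, 16)
  | ⟨53, _⟩ => (2, 18)
  | ⟨54, _⟩ => (2, 20)
  | ⟨55, _⟩ => (2, 22)
  | ⟨56, _⟩ => (1, 31)
  | ⟨57, _⟩ => (2, 25)
  | ⟨58, _⟩ => (1, 33)
  | ⟨59, _⟩ => (1, 34)
  | ⟨60, _⟩ => (2, 29)
  | ⟨61, _⟩ => (1, 35)
  | ⟨62, _⟩ => (2, 31)
  | ⟨n+63, h⟩ => absurd h (by omega)
def nx_x_c2 : Fin 63 → Idx
  | ⟨0, _⟩ => (2, 32)
  | ⟨1, _⟩ => (1, 37)
  | ⟨2, _⟩ => (2, 33)
  | ⟨3, _⟩ => (2, 34)
  | ⟨4, _⟩ => (2, 36)
  | ⟨5, _⟩ => (2, 38)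
  | ⟨6, _⟩ => (2, 40)
  | ⟨7, _⟩ => (1, 42)
  | ⟨8, _⟩ => (2, 43)
  | ⟨9, _⟩ => (1, 44)
  | ⟨10, _⟩ => (2, 46)
  | ⟨11, _⟩ => (1, 46)
  | ⟨12, _⟩ => (2, 49)
  | ⟨13, _⟩ => (1, 48)
  | ⟨14, _⟩ => (1, 49)
  | ⟨15, _⟩ => (1, 51)
  | ⟨16, _⟩ => (1, 52)
  | ⟨17, _⟩ => (2, 55)
  | ⟨18, _⟩ => (1, 53)
  | ⟨19, _⟩ => (2, 57)
  | ⟨20, _⟩ => (1, 54)
  | ⟨21, _⟩ => (2, 59)
  | ⟨22, _⟩ => (1, 55)
  | ⟨23, _⟩ => (2, 61)
  | ⟨24, _⟩ => (2, 62)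
  | ⟨25, _⟩ => (1, 57)
  | ⟨26, _⟩ => (3, 0)
  | ⟨27, _⟩ => (3, 1)
  | ⟨28, _⟩ => (3, 3)
  | ⟨29, _⟩ => (1, 60)
  | ⟨30, _⟩ => (3, 6)
  | ⟨31, _⟩ => (1, 62)
  | ⟨32, _⟩ => (2, 0)
  | ⟨33, _⟩ => (2, 2)
  | ⟨34, _⟩ => (2, 3)
  | ⟨35, _⟩ => (3, 12)
  | ⟨36, _⟩ => (2, 4)
  | ⟨37, _⟩ => (3, 14)
  | ⟨38, _⟩ => (2, 5)
  | ⟨39, _⟩ => (3, 16)
  | ⟨40, _⟩ => (2, 6)
  | ⟨41, _⟩ => (3, 18)
  | ⟨42, _⟩ => (3, 19)
  | ⟨43, _⟩ => (2, 8)
  | ⟨44, _⟩ => (3, 20)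
  | ⟨45, _⟩ => (3, 21)
  | ⟨46, _⟩ => (2, 10)
  | ⟨47, _⟩ => (3, 24)
  | ⟨48, _⟩ => (3, 25)
  | ⟨49, _⟩ => (2, 12)
  | ⟨50, _⟩ => (3, 26)
  | ⟨51, _⟩ => (3, 27)
  | ⟨52, _⟩ => (3, 29)
  | ⟨53, _⟩ => (3, 31)
  | ⟨54, _⟩ => (3, 33)
  | ⟨55, _⟩ => (2, 17)
  | ⟨56, _⟩ => (3, 36)
  | ⟨57, _⟩ => (2, 19)
  | ⟨58, _⟩ => (3, 39)
  | ⟨59, _⟩ => (2, 21)
  | ⟨60, _⟩ => (3, 42)
  | ⟨61, _⟩ => (2, 23)
  | ⟨62, _⟩ => (2, 24)
  | ⟨n+63, h⟩ => absurd h (by omega)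
def nx_x_c3 : Fin 63 → Idx
  | ⟨0, _⟩ => (2, 26)
  | ⟨1, _⟩ => (2, 27)
  | ⟨2, _⟩ => (3, 48)
  | ⟨3, _⟩ => (2, 28)
  | ⟨4, _⟩ => (3, 49)
  | ⟨5, _⟩ => (3, 50)
  | ⟨6, _⟩ => (2, 30)
  | ⟨7, _⟩ => (3, 51)
  | ⟨8, _⟩ => (3, 52)
  | ⟨9, _⟩ => (3, 54)
  | ⟨10, _⟩ => (3, 56)
  | ⟨11, _⟩ => (3, 58)
  | ⟨12, _⟩ => (2, 35)
  | ⟨13, _⟩ => (3, 61)
  | ⟨14, _⟩ => (2, 37)
  | ⟨15, _⟩ => (4, 1)
  | ⟨16, _⟩ => (2, 39)
  | ⟨17, _⟩ => (4, 4)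
  | ⟨18, _⟩ => (2, 41)
  | ⟨19, _⟩ => (2, 42)
  | ⟨20, _⟩ => (2, 44)
  | ⟨21, _⟩ => (2, 45)
  | ⟨22, _⟩ => (3, 23)
  | ⟨23, _⟩ => (3, 22)
  | ⟨24, _⟩ => (2, 47)
  | ⟨25, _⟩ => (2, 48)
  | ⟨26, _⟩ => (2, 50)
  | ⟨27, _⟩ => (2, 51)
  | ⟨28, _⟩ => (4, 15)
  | ⟨29, _⟩ => (2, 52)
  | ⟨30, _⟩ => (4, 17)
  | ⟨31, _⟩ => (2, 53)
  | ⟨32, _⟩ => (4, 19)
  | ⟨33, _⟩ => (2, 54)
  | ⟨34, _⟩ => (4, 21)
  | ⟨35, _⟩ => (4, 22)
  | ⟨36, _⟩ => (2, 56)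
  | ⟨37, _⟩ => (4, 23)
  | ⟨38, _⟩ => (4, 24)
  | ⟨39, _⟩ => (2, 58)
  | ⟨40, _⟩ => (4, 27)
  | ⟨41, _⟩ => (4, 28)
  | ⟨42, _⟩ => (2, 60)
  | ⟨43, _⟩ => (4, 29)
  | ⟨44, _⟩ => (4, 30)
  | ⟨45, _⟩ => (4, 32)
  | ⟨46, _⟩ => (4, 34)
  | ⟨47, _⟩ => (4, 36)
  | ⟨48, _⟩ => (3, 2)
  | ⟨49, _⟩ => (3, 4)
  | ⟨50, _⟩ => (3, 5)
  | ⟨51, _⟩ => (3, 7)
  | ⟨52, _⟩ => (3, 8)
  | ⟨53, _⟩ => (4, 43)
  | ⟨54, _⟩ => (3, 9)
  | ⟨55, _⟩ => (4, 45)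
  | ⟨56, _⟩ => (3, 10)
  | ⟨57, _⟩ => (4, 47)
  | ⟨58, _⟩ => (3, 11)
  | ⟨59, _⟩ => (4, 49)
  | ⟨60, _⟩ => (4, 50)
  | ⟨61, _⟩ => (3, 13)
  | ⟨62, _⟩ => (4, 51)
  | ⟨n+63, h⟩ => absurd h (by omega)
def nx_x_c4 : Fin 63 → Idx
  | ⟨0, _⟩ => (4, 52)
  | ⟨1, _⟩ => (3, 15)
  | ⟨2, _⟩ => (4, 55)
  | ⟨3, _⟩ => (4, 56)
  | ⟨4, _⟩ => (3, 17)
  | ⟨5, _⟩ => (4, 57)
  | ⟨6, _⟩ => (4, 58)
  | ⟨7, _⟩ => (4, 60)
  | ⟨8, _⟩ => (4, 62)
  | ⟨9, _⟩ => (5, 1)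
  | ⟨10, _⟩ => (5, 3)
  | ⟨11, _⟩ => (5, 4)
  | ⟨12, _⟩ => (5, 6)
  | ⟨13, _⟩ => (4, 46)
  | ⟨14, _⟩ => (5, 9)
  | ⟨15, _⟩ => (3, 28)
  | ⟨16, _⟩ => (5, 12)
  | ⟨17, _⟩ => (3, 30)
  | ⟨18, _⟩ => (4, 41)
  | ⟨19, _⟩ => (3, 32)
  | ⟨20, _⟩ => (5, 17)
  | ⟨21, _⟩ => (3, 34)
  | ⟨22, _⟩ => (3, 35)
  | ⟨23, _⟩ => (3, 37)
  | ⟨24, _⟩ => (3, 38)
  | ⟨25, _⟩ => (4, 26)
  | ⟨26, _⟩ => (4, 25)
  | ⟨27, _⟩ => (3, 40)
  | ⟨28, _⟩ => (3, 41)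
  | ⟨29, _⟩ => (3, 43)
  | ⟨30, _⟩ => (3, 44)
  | ⟨31, _⟩ => (5, 28)
  | ⟨32, _⟩ => (3, 45)
  | ⟨33, _⟩ => (5, 30)
  | ⟨34, _⟩ => (3, 46)
  | ⟨35, _⟩ => (5, 32)
  | ⟨36, _⟩ => (3, 47)
  | ⟨37, _⟩ => (5, 34)
  | ⟨38, _⟩ => (5, 35)
  | ⟨39, _⟩ => (5, 36)
  | ⟨40, _⟩ => (5, 38)
  | ⟨41, _⟩ => (4, 18)
  | ⟨42, _⟩ => (5, 41)
  | ⟨43, _⟩ => (3, 53)
  | ⟨44, _⟩ => (5, 44)
  | ⟨45, _⟩ => (3, 55)
  | ⟨46, _⟩ => (4, 13)
  | ⟨47, _⟩ => (3, 57)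
  | ⟨48, _⟩ => (5, 49)
  | ⟨49, _⟩ => (3, 59)
  | ⟨50, _⟩ => (3, 60)
  | ⟨51, _⟩ => (3, 62)
  | ⟨52, _⟩ => (4, 0)
  | ⟨53, _⟩ => (4, 54)
  | ⟨54, _⟩ => (4, 53)
  | ⟨55, _⟩ => (4, 2)
  | ⟨56, _⟩ => (4, 3)
  | ⟨57, _⟩ => (4, 5)
  | ⟨58, _⟩ => (4, 6)
  | ⟨59, _⟩ => (5, 60)
  | ⟨60, _⟩ => (4, 7)
  | ⟨61, _⟩ => (5, 62)
  | ⟨62, _⟩ => (4, 8)
  | ⟨n+63, h⟩ => absurd h (by omega)
def nx_x_c5 : Fin 63 → Idx
  | ⟨0, _⟩ => (6, 1)
  | ⟨1, _⟩ => (4, 9)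
  | ⟨2, _⟩ => (6, 3)
  | ⟨3, _⟩ => (4, 10)
  | ⟨4, _⟩ => (4, 11)
  | ⟨5, _⟩ => (6, 6)
  | ⟨6, _⟩ => (4, 12)
  | ⟨7, _⟩ => (6, 8)
  | ⟨8, _⟩ => (6, 9)
  | ⟨9, _⟩ => (4, 14)
  | ⟨10, _⟩ => (6, 11)
  | ⟨11, _⟩ => (5, 54)
  | ⟨12, _⟩ => (4, 16)
  | ⟨13, _⟩ => (6, 12)
  | ⟨14, _⟩ => (6, 13)
  | ⟨15, _⟩ => (5, 58)
  | ⟨16, _⟩ => (6, 15)
  | ⟨17, _⟩ => (4, 20)
  | ⟨18, _⟩ => (6, 16)
  | ⟨19, _⟩ => (6, 17)
  | ⟨20, _⟩ => (6, 19)
  | ⟨21, _⟩ => (6, 21)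
  | ⟨22, _⟩ => (5, 43)
  | ⟨23, _⟩ => (5, 55)
  | ⟨24, _⟩ => (6, 24)
  | ⟨25, _⟩ => (6, 26)
  | ⟨26, _⟩ => (5, 47)
  | ⟨27, _⟩ => (6, 29)
  | ⟨28, _⟩ => (4, 31)
  | ⟨29, _⟩ => (6, 32)
  | ⟨30, _⟩ => (4, 33)
  | ⟨31, _⟩ => (6, 4)
  | ⟨32, _⟩ => (4, 35)
  | ⟨33, _⟩ => (6, 37)
  | ⟨34, _⟩ => (4, 37)
  | ⟨35, _⟩ => (4, 38)
  | ⟨36, _⟩ => (4, 39)
  | ⟨37, _⟩ => (6, 41)
  | ⟨38, _⟩ => (4, 40)
  | ⟨39, _⟩ => (6, 43)
  | ⟨40, _⟩ => (6, 14)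
  | ⟨41, _⟩ => (4, 42)
  | ⟨42, _⟩ => (6, 44)
  | ⟨43, _⟩ => (5, 22)
  | ⟨44, _⟩ => (4, 44)
  | ⟨45, _⟩ => (6, 22)
  | ⟨46, _⟩ => (6, 10)
  | ⟨47, _⟩ => (5, 26)
  | ⟨48, _⟩ => (6, 27)
  | ⟨49, _⟩ => (4, 48)
  | ⟨50, _⟩ => (6, 45)
  | ⟨51, _⟩ => (6, 46)
  | ⟨52, _⟩ => (6, 5)
  | ⟨53, _⟩ => (6, 33)
  | ⟨54, _⟩ => (5, 11)
  | ⟨55, _⟩ => (5, 23)
  | ⟨56, _⟩ => (6, 50)
  | ⟨57, _⟩ => (6, 36)
  | ⟨58, _⟩ => (5, 15)
  | ⟨59, _⟩ => (6, 53)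
  | ⟨60, _⟩ => (4, 59)
  | ⟨61, _⟩ => (6, 56)
  | ⟨62, _⟩ => (4, 61)
  | ⟨n+63, h⟩ => absurd h (by omega)
def nx_x_c6 : Fin 63 → Idx
  | ⟨0, _⟩ => (6, 40)
  | ⟨1, _⟩ => (5, 0)
  | ⟨2, _⟩ => (6, 59)
  | ⟨3, _⟩ => (5, 2)
  | ⟨4, _⟩ => (5, 31)
  | ⟨5, _⟩ => (5, 52)
  | ⟨6, _⟩ => (5, 5)
  | ⟨7, _⟩ => (6, 42)
  | ⟨8, _⟩ => (5, 7)
  | ⟨9, _⟩ => (5, 8)
  | ⟨10, _⟩ => (5, 46)
  | ⟨11, _⟩ => (5, 10)
  | ⟨12, _⟩ => (5, 13)
  | ⟨13, _⟩ => (5, 14)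
  | ⟨14, _⟩ => (5, 40)
  | ⟨15, _⟩ => (5, 16)
  | ⟨16, _⟩ => (5, 18)
  | ⟨17, _⟩ => (5, 19)
  | ⟨18, _⟩ => (7, 7)
  | ⟨19, _⟩ => (5, 20)
  | ⟨20, _⟩ => (6, 57)
  | ⟨21, _⟩ => (5, 21)
  | ⟨22, _⟩ => (5, 45)
  | ⟨23, _⟩ => (7, 9)
  | ⟨24, _⟩ => (5, 24)
  | ⟨25, _⟩ => (6, 60)
  | ⟨26, _⟩ => (5, 25)
  | ⟨27, _⟩ => (5, 48)
  | ⟨28, _⟩ => (7, 11)
  | ⟨29, _⟩ => (5, 27)
  | ⟨30, _⟩ => (7, 13)
  | ⟨31, _⟩ => (7, 4)
  | ⟨32, _⟩ => (5, 29)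
  | ⟨33, _⟩ => (5, 53)
  | ⟨34, _⟩ => (6, 48)
  | ⟨35, _⟩ => (7, 5)
  | ⟨36, _⟩ => (5, 57)
  | ⟨37, _⟩ => (5, 33)
  | ⟨38, _⟩ => (6, 51)
  | ⟨39, _⟩ => (7, 15)
  | ⟨40, _⟩ => (6, 0)
  | ⟨41, _⟩ => (5, 37)
  | ⟨42, _⟩ => (6, 7)
  | ⟨43, _⟩ => (5, 39)
  | ⟨44, _⟩ => (5, 42)
  | ⟨45, _⟩ => (5, 50)
  | ⟨46, _⟩ => (5, 51)
  | ⟨47, _⟩ => (7, 22)
  | ⟨48, _⟩ => (6, 34)
  | ⟨49, _⟩ => (7, 10)
  | ⟨50, _⟩ => (5, 56)
  | ⟨51, _⟩ => (6, 38)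
  | ⟨52, _⟩ => (7, 23)
  | ⟨53, _⟩ => (5, 59)
  | ⟨54, _⟩ => (7, 25)
  | ⟨55, _⟩ => (7, 2)
  | ⟨56, _⟩ => (5, 61)
  | ⟨57, _⟩ => (6, 20)
  | ⟨58, _⟩ => (7, 20)
  | ⟨59, _⟩ => (6, 2)
  | ⟨60, _⟩ => (6, 25)
  | ⟨61, _⟩ => (7, 27)
  | ⟨62, _⟩ => (7, 14)
  | ⟨n+63, h⟩ => absurd h (by omega)
def nx_x_c7 : Fin 63 → Idx
  | ⟨0, _⟩ => (7, 29)
  | ⟨1, _⟩ => (7, 12)
  | ⟨2, _⟩ => (6, 55)
  | ⟨3, _⟩ => (7, 30)
  | ⟨4, _⟩ => (6, 31)
  | ⟨5, _⟩ => (6, 35)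
  | ⟨6, _⟩ => (7, 33)
  | ⟨7, _⟩ => (6, 18)
  | ⟨8, _⟩ => (7, 36)
  | ⟨9, _⟩ => (6, 23)
  | ⟨10, _⟩ => (6, 49)
  | ⟨11, _⟩ => (6, 28)
  | ⟨12, _⟩ => (7, 1)
  | ⟨13, _⟩ => (6, 30)
  | ⟨14, _⟩ => (6, 62)
  | ⟨15, _⟩ => (6, 39)
  | ⟨16, _⟩ => (7, 42)
  | ⟨17, _⟩ => (7, 26)
  | ⟨18, _⟩ => (7, 24)
  | ⟨19, _⟩ => (7, 43)
  | ⟨20, _⟩ => (6, 58)
  | ⟨21, _⟩ => (7, 45)
  | ⟨22, _⟩ => (6, 47)
  | ⟨23, _⟩ => (6, 52)
  | ⟨24, _⟩ => (7, 18)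
  | ⟨25, _⟩ => (6, 54)
  | ⟨26, _⟩ => (7, 17)
  | ⟨27, _⟩ => (6, 61)
  | ⟨28, _⟩ => (7, 32)
  | ⟨29, _⟩ => (7, 0)
  | ⟨30, _⟩ => (7, 3)
  | ⟨31, _⟩ => (7, 51)
  | ⟨32, _⟩ => (7, 28)
  | ⟨33, _⟩ => (7, 6)
  | ⟨34, _⟩ => (7, 52)
  | ⟨35, _⟩ => (7, 39)
  | ⟨36, _⟩ => (7, 8)
  | ⟨37, _⟩ => (7, 53)
  | ⟨38, _⟩ => (7, 54)
  | ⟨39, _⟩ => (7, 35)
  | ⟨40, _⟩ => (7, 55)
  | ⟨41, _⟩ => (7, 56)
  | ⟨42, _⟩ => (7, 16)
  | ⟨43, _⟩ => (7, 19)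
  | ⟨44, _⟩ => (7, 57)
  | ⟨45, _⟩ => (7, 21)
  | ⟨46, _⟩ => (7, 58)
  | ⟨47, _⟩ => (7, 48)
  | ⟨48, _⟩ => (7, 47)
  | ⟨49, _⟩ => (7, 59)
  | ⟨50, _⟩ => (7, 60)
  | ⟨51, _⟩ => (7, 31)
  | ⟨52, _⟩ => (7, 34)
  | ⟨53, _⟩ => (7, 37)
  | ⟨54, _⟩ => (7, 38)
  | ⟨55, _⟩ => (7, 40)
  | ⟨56, _⟩ => (7, 41)
  | ⟨57, _⟩ => (7, 44)
  | ⟨58, _⟩ => (7, 46)
  | ⟨59, _⟩ => (7, 49)
  | ⟨60, _⟩ => (7, 50)
  | ⟨61, _⟩ => (7, 62)
  | ⟨62, _⟩ => (7, 61)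
  | ⟨n+63, h⟩ => absurd h (by omega)
def nx_x_ch : Fin 8 → Fin 63 → Idx
  | ⟨0, _⟩ => nx_x_c0
  | ⟨1, _⟩ => nx_x_c1
  | ⟨2, _⟩ => nx_x_c2
  | ⟨3, _⟩ => nx_x_c3
  | ⟨4, _⟩ => nx_x_c4
  | ⟨5, _⟩ => nx_x_c5
  | ⟨6, _⟩ => nx_x_c6
  | ⟨7, _⟩ => nx_x_c7
  | ⟨n+8, h⟩ => absurd h (by omega)
def nx_x (i : Idx) : Idx := nx_x_ch i.1 i.2
def px_x_c0 : Fin 63 → Idx
  | ⟨0, _⟩ => (0, 1)
  | ⟨1, _⟩ => (0, 0)
  | ⟨2, _⟩ => (0, 4)
  | ⟨3, _⟩ => (0, 6)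
  | ⟨4, _⟩ => (0, 2)
  | ⟨5, _⟩ => (0, 9)
  | ⟨6, _⟩ => (0, 3)
  | ⟨7, _⟩ => (0, 11)
  | ⟨8, _⟩ => (0, 12)
  | ⟨9, _⟩ => (0, 5)
  | ⟨10, _⟩ => (0, 15)
  | ⟨11, _⟩ => (0, 7)
  | ⟨12, _⟩ => (0, 8)
  | ⟨13, _⟩ => (0, 19)
  | ⟨14, _⟩ => (0, 20)
  | ⟨15, _⟩ => (0, 10)
  | ⟨16, _⟩ => (0, 23)
  | ⟨17, _⟩ => (0, 24)
  | ⟨18, _⟩ => (0, 26)
  | ⟨19, _⟩ => (0, 13)
  | ⟨20, _⟩ => (0, 14)
  | ⟨21, _⟩ => (0, 30)
  | ⟨22, _⟩ => (0, 31)
  | ⟨23, _⟩ => (0, 16)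
  | ⟨24, _⟩ => (0, 17)
  | ⟨25, _⟩ => (0, 35)
  | ⟨26, _⟩ => (0, 18)
  | ⟨27, _⟩ => (0, 37)
  | ⟨28, _⟩ => (0, 38)
  | ⟨29, _⟩ => (0, 40)
  | ⟨30, _⟩ => (0, 21)
  | ⟨31, _⟩ => (0, 22)
  | ⟨32, _⟩ => (0, 44)
  | ⟨33, _⟩ => (0, 45)
  | ⟨34, _⟩ => (0, 47)
  | ⟨35, _⟩ => (0, 25)
  | ⟨36, _⟩ => (0, 50)
  | ⟨37, _⟩ => (0, 27)
  | ⟨38, _⟩ => (0, 28)
  | ⟨39, _⟩ => (0, 54)
  | ⟨40, _⟩ => (0, 29)
  | ⟨41, _⟩ => (0, 56)
  | ⟨42, _⟩ => (0, 57)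
  | ⟨43, _⟩ => (0, 58)
  | ⟨44, _⟩ => (0, 32)
  | ⟨45, _⟩ => (0, 33)
  | ⟨46, _⟩ => (0, 62)
  | ⟨47, _⟩ => (0, 34)
  | ⟨48, _⟩ => (1, 1)
  | ⟨49, _⟩ => (1, 2)
  | ⟨50, _⟩ => (0, 36)
  | ⟨51, _⟩ => (1, 3)
  | ⟨52, _⟩ => (1, 4)
  | ⟨53, _⟩ => (1, 6)
  | ⟨54, _⟩ => (0, 39)
  | ⟨55, _⟩ => (1, 9)
  | ⟨56, _⟩ => (0, 41)
  | ⟨57, _⟩ => (0, 42)
  | ⟨58, _⟩ => (0, 43)
  | ⟨59, _⟩ => (1, 13)
  | ⟨60, _⟩ => (1, 14)
  | ⟨61, _⟩ => (1, 16)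
  | ⟨62, _⟩ => (0, 46)
  | ⟨n+63, h⟩ => absurd h (by omega)
def px_x_c1 : Fin 63 → Idx
  | ⟨0, _⟩ => (1, 19)
  | ⟨1, _⟩ => (0, 48)
  | ⟨2, _⟩ => (0, 49)
  | ⟨3, _⟩ => (0, 51)
  | ⟨4, _⟩ => (0, 52)
  | ⟨5, _⟩ => (1, 25)
  | ⟨6, _⟩ => (0, 53)
  | ⟨7, _⟩ => (1, 27)
  | ⟨8, _⟩ => (1, 28)
  | ⟨9, _⟩ => (0, 55)
  | ⟨10, _⟩ => (1, 29)
  | ⟨11, _⟩ => (1, 30)
  | ⟨12, _⟩ => (1, 32)
  | ⟨13, _⟩ => (0, 59)
  | ⟨14, _⟩ => (0, 60)
  | ⟨15, _⟩ => (1, 36)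
  | ⟨16, _⟩ => (0, 61)
  | ⟨17, _⟩ => (1, 38)
  | ⟨18, _⟩ => (1, 39)
  | ⟨19, _⟩ => (1, 0)
  | ⟨20, _⟩ => (1, 40)
  | ⟨21, _⟩ => (1, 41)
  | ⟨22, _⟩ => (1, 43)
  | ⟨23, _⟩ => (1, 45)
  | ⟨24, _⟩ => (1, 47)
  | ⟨25, _⟩ => (1, 5)
  | ⟨26, _⟩ => (1, 50)
  | ⟨27, _⟩ => (1, 7)
  | ⟨28, _⟩ => (1, 8)
  | ⟨29, _⟩ => (1, 10)
  | ⟨30, _⟩ => (1, 11)
  | ⟨31, _⟩ => (1, 56)
  | ⟨32, _⟩ => (1, 12)
  | ⟨33, _⟩ => (1, 58)
  | ⟨34, _⟩ => (1, 59)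
  | ⟨35, _⟩ => (1, 61)
  | ⟨36, _⟩ => (1, 15)
  | ⟨37, _⟩ => (2, 1)
  | ⟨38, _⟩ => (1, 17)
  | ⟨39, _⟩ => (1, 18)
  | ⟨40, _⟩ => (1, 20)
  | ⟨41, _⟩ => (1, 21)
  | ⟨42, _⟩ => (2, 7)
  | ⟨43, _⟩ => (1, 22)
  | ⟨44, _⟩ => (2, 9)
  | ⟨45, _⟩ => (1, 23)
  | ⟨46, _⟩ => (2, 11)
  | ⟨47, _⟩ => (1, 24)
  | ⟨48, _⟩ => (2, 13)
  | ⟨49, _⟩ => (2, 14)
  | ⟨50, _⟩ => (1, 26)
  | ⟨51, _⟩ => (2, 15)
  | ⟨52, _⟩ => (2, 16)
  | ⟨53, _⟩ => (2, 18)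
  | ⟨54, _⟩ => (2, 20)
  | ⟨55, _⟩ => (2, 22)
  | ⟨56, _⟩ => (1, 31)
  | ⟨57, _⟩ => (2, 25)
  | ⟨58, _⟩ => (1, 33)
  | ⟨59, _⟩ => (1, 34)
  | ⟨60, _⟩ => (2, 29)
  | ⟨61, _⟩ => (1, 35)
  | ⟨62, _⟩ => (2, 31)
  | ⟨n+63, h⟩ => absurd h (by omega)
def px_x_c2 : Fin 63 → Idx
  | ⟨0, _⟩ => (2, 32)
  | ⟨1, _⟩ => (1, 37)
  | ⟨2, _⟩ => (2, 33)
  | ⟨3, _⟩ => (2, 34)
  | ⟨4, _⟩ => (2, 36)
  | ⟨5, _⟩ => (2, 38)
  | ⟨6, _⟩ => (2, 40)
  | ⟨7, _⟩ => (1, 42)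
  | ⟨8, _⟩ => (2, 43)
  | ⟨9, _⟩ => (1, 44)
  | ⟨10, _⟩ => (2, 46)
  | ⟨11, _⟩ => (1, 46)
  | ⟨12, _⟩ => (2, 49)
  | ⟨13, _⟩ => (1, 48)
  | ⟨14, _⟩ => (1, 49)
  | ⟨15, _⟩ => (1, 51)
  | ⟨16, _⟩ => (1, 52)
  | ⟨17, _⟩ => (2, 55)
  | ⟨18, _⟩ => (1, 53)
  | ⟨19, _⟩ => (2, 57)
  | ⟨20, _⟩ => (1, 54)
  | ⟨21, _⟩ => (2, 59)
  | ⟨22, _⟩ => (1, 55)
  | ⟨23, _⟩ => (2, 61)
  | ⟨24, _⟩ => (2, 62)
  | ⟨25, _⟩ => (1, 57)
  | ⟨26, _⟩ => (3, 0)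
  | ⟨27, _⟩ => (3, 1)
  | ⟨28, _⟩ => (3, 3)
  | ⟨29, _⟩ => (1, 60)
  | ⟨30, _⟩ => (3, 6)
  | ⟨31, _⟩ => (1, 62)
  | ⟨32, _⟩ => (2, 0)
  | ⟨33, _⟩ => (2, 2)
  | ⟨34, _⟩ => (2, 3)
  | ⟨35, _⟩ => (3, 12)
  | ⟨36, _⟩ => (2, 4)
  | ⟨37, _⟩ => (3, 14)
  | ⟨38, _⟩ => (2, 5)
  | ⟨39, _⟩ => (3, 16)
  | ⟨40, _⟩ => (2, 6)
  | ⟨41, _⟩ => (3, 18)
  | ⟨42, _⟩ => (3, 19)
  | ⟨43, _⟩ => (2, 8)
  | ⟨44, _⟩ => (3, 20)
  | ⟨45, _⟩ => (3, 21)
  | ⟨46, _⟩ => (2, 10)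
  | ⟨47, _⟩ => (3, 24)
  | ⟨48, _⟩ => (3, 25)
  | ⟨49, _⟩ => (2, 12)
  | ⟨50, _⟩ => (3, 26)
  | ⟨51, _⟩ => (3, 27)
  | ⟨52, _⟩ => (3, 29)
  | ⟨53, _⟩ => (3, 31)
  | ⟨54, _⟩ => (3, 33)
  | ⟨55, _⟩ => (2, 17)
  | ⟨56, _⟩ => (3, 36)
  | ⟨57, _⟩ => (2, 19)
  | ⟨58, _⟩ => (3, 39)
  | ⟨59, _⟩ => (2, 21)
  | ⟨60, _⟩ => (3, 42)
  | ⟨61, _⟩ => (2, 23)
  | ⟨62, _⟩ => (2, 24)
  | ⟨n+63, h⟩ => absurd h (by omega)
def px_x_c3 : Fin 63 → Idx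
  | ⟨0, _⟩ => (2, 26)
  | ⟨1, _⟩ => (2, 27)
  | ⟨2, _⟩ => (3, 48)
  | ⟨3, _⟩ => (2, 28)
  | ⟨4, _⟩ => (3, 49)
  | ⟨5, _⟩ => (3, 50)
  | ⟨6, _⟩ => (2, 30)
  | ⟨7, _⟩ => (3, 51)
  | ⟨8, _⟩ => (3, 52)
  | ⟨9, _⟩ => (3, 54)
  | ⟨10, _⟩ => (3, 56)
  | ⟨11, _⟩ => (3, 58)
  | ⟨12, _⟩ => (2, 35)
  | ⟨13, _⟩ => (3, 61)
  | ⟨14, _⟩ => (2, 37)
  | ⟨15, _⟩ => (4, 1)
  | ⟨16, _⟩ => (2, 39)
  | ⟨17, _⟩ => (4, 4)
  | ⟨18, _⟩ => (2, 41)
  | ⟨19, _⟩ => (2, 42)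
  | ⟨20, _⟩ => (2, 44)
  | ⟨21, _⟩ => (2, 45)
  | ⟨22, _⟩ => (3, 23)
  | ⟨23, _⟩ => (3, 22)
  | ⟨24, _⟩ => (2, 47)
  | ⟨25, _⟩ => (2, 48)
  | ⟨26, _⟩ => (2, 50)
  | ⟨27, _⟩ => (2, 51)
  | ⟨28, _⟩ => (4, 15)
  | ⟨29, _⟩ => (2, 52)
  | ⟨30, _⟩ => (4, 17)
  | ⟨31, _⟩ => (2, 53)
  | ⟨32, _⟩ => (4, 19)
  | ⟨33, _⟩ => (2, 54)
  | ⟨34, _⟩ => (4, 21)
  | ⟨35, _⟩ => (4, 22)
  | ⟨36, _⟩ => (2, 56)
  | ⟨37, _⟩ => (4, 23)
  | ⟨38, _⟩ => (4, 24)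
  | ⟨39, _⟩ => (2, 58)
  | ⟨40, _⟩ => (4, 27)
  | ⟨41, _⟩ => (4, 28)
  | ⟨42, _⟩ => (2, 60)
  | ⟨43, _⟩ => (4, 29)
  | ⟨44, _⟩ => (4, 30)
  | ⟨45, _⟩ => (4, 32)
  | ⟨46, _⟩ => (4, 34)
  | ⟨47, _⟩ => (4, 36)
  | ⟨48, _⟩ => (3, 2)
  | ⟨49, _⟩ => (3, 4)
  | ⟨50, _⟩ => (3, 5)
  | ⟨51, _⟩ => (3, 7)
  | ⟨52, _⟩ => (3, 8)
  | ⟨53, _⟩ => (4, 43)
  | ⟨54, _⟩ => (3, 9)
  | ⟨55, _⟩ => (4, 45)
  | ⟨56, _⟩ => (3, 10)
  | ⟨57, _⟩ => (4, 47)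
  | ⟨58, _⟩ => (3, 11)
  | ⟨59, _⟩ => (4, 49)
  | ⟨60, _⟩ => (4, 50)
  | ⟨61, _⟩ => (3, 13)
  | ⟨62, _⟩ => (4, 51)
  | ⟨n+63, h⟩ => absurd h (by omega)
def px_x_c4 : Fin 63 → Idx
  | ⟨0, _⟩ => (4, 52)
  | ⟨1, _⟩ => (3, 15)
  | ⟨2, _⟩ => (4, 55)
  | ⟨3, _⟩ => (4, 56)
  | ⟨4, _⟩ => (3, 17)
  | ⟨5, _⟩ => (4, 57)
  | ⟨6, _⟩ => (4, 58)
  | ⟨7, _⟩ => (4, 60)
  | ⟨8, _⟩ => (4, 62)
  | ⟨9, _⟩ => (5, 1)
  | ⟨10, _⟩ => (5, 3)
  | ⟨11, _⟩ => (5, 4)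
  | ⟨12, _⟩ => (5, 6)
  | ⟨13, _⟩ => (4, 46)
  | ⟨14, _⟩ => (5, 9)
  | ⟨15, _⟩ => (3, 28)
  | ⟨16, _⟩ => (5, 12)
  | ⟨17, _⟩ => (3, 30)
  | ⟨18, _⟩ => (4, 41)
  | ⟨19, _⟩ => (3, 32)
  | ⟨20, _⟩ => (5, 17)
  | ⟨21, _⟩ => (3, 34)
  | ⟨22, _⟩ => (3, 35)
  | ⟨23, _⟩ => (3, 37)
  | ⟨24, _⟩ => (3, 38)
  | ⟨25, _⟩ => (4, 26)
  | ⟨26, _⟩ => (4, 25)
  | ⟨27, _⟩ => (3, 40)
  | ⟨28, _⟩ => (3, 41)
  | ⟨29, _⟩ => (3, 43)
  | ⟨30, _⟩ => (3, 44)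
  | ⟨31, _⟩ => (5, 28)
  | ⟨32, _⟩ => (3, 45)
  | ⟨33, _⟩ => (5, 30)
  | ⟨34, _⟩ => (3, 46)
  | ⟨35, _⟩ => (5, 32)
  | ⟨36, _⟩ => (3, 47)
  | ⟨37, _⟩ => (5, 34)
  | ⟨38, _⟩ => (5, 35)
  | ⟨39, _⟩ => (5, 36)
  | ⟨40, _⟩ => (5, 38)
  | ⟨41, _⟩ => (4, 18)
  | ⟨42, _⟩ => (5, 41)
  | ⟨43, _⟩ => (3, 53)
  | ⟨44, _⟩ => (5, 44)
  | ⟨45, _⟩ => (3, 55)
  | ⟨46, _⟩ => (4, 13)
  | ⟨47, _⟩ => (3, 57)
  | ⟨48, _⟩ => (5, 49)
  | ⟨49, _⟩ => (3, 59)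
  | ⟨50, _⟩ => (3, 60)
  | ⟨51, _⟩ => (3, 62)
  | ⟨52, _⟩ => (4, 0)
  | ⟨53, _⟩ => (4, 54)
  | ⟨54, _⟩ => (4, 53)
  | ⟨55, _⟩ => (4, 2)
  | ⟨56, _⟩ => (4, 3)
  | ⟨57, _⟩ => (4, 5)
  | ⟨58, _⟩ => (4, 6)
  | ⟨59, _⟩ => (5, 60)
  | ⟨60, _⟩ => (4, 7)
  | ⟨61, _⟩ => (5, 62)
  | ⟨62, _⟩ => (4, 8)
  | ⟨n+63, h⟩ => absurd h (by omega)
def px_x_c5 : Fin 63 → Idx
  | ⟨0, _⟩ => (6, 1)
  | ⟨1, _⟩ => (4, 9)
  | ⟨2, _⟩ => (6, 3)
  | ⟨3, _⟩ => (4, 10)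
  | ⟨4, _⟩ => (4, 11)
  | ⟨5, _⟩ => (6, 6)
  | ⟨6, _⟩ => (4, 12)
  | ⟨7, _⟩ => (6, 8)
  | ⟨8, _⟩ => (6, 9)
  | ⟨9, _⟩ => (4, 14)
  | ⟨10, _⟩ => (6, 11)
  | ⟨11, _⟩ => (5, 54)
  | ⟨12, _⟩ => (4, 16)
  | ⟨13, _⟩ => (6, 12)
  | ⟨14, _⟩ => (6, 13)
  | ⟨15, _⟩ => (5, 58)
  | ⟨16, _⟩ => (6, 15)
  | ⟨17, _⟩ => (4, 20)
  | ⟨18, _⟩ => (6, 16)
  | ⟨19, _⟩ => (6, 17)
  | ⟨20, _⟩ => (6, 19)
  | ⟨21, _⟩ => (6, 21)
  | ⟨22, _⟩ => (5, 43)
  | ⟨23, _⟩ => (5, 55)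
  | ⟨24, _⟩ => (6, 24)
  | ⟨25, _⟩ => (6, 26)
  | ⟨26, _⟩ => (5, 47)
  | ⟨27, _⟩ => (6, 29)
  | ⟨28, _⟩ => (4, 31)
  | ⟨29, _⟩ => (6, 32)
  | ⟨30, _⟩ => (4, 33)
  | ⟨31, _⟩ => (6, 4)
  | ⟨32, _⟩ => (4, 35)
  | ⟨33, _⟩ => (6, 37)
  | ⟨34, _⟩ => (4, 37)
  | ⟨35, _⟩ => (4, 38)
  | ⟨36, _⟩ => (4, 39)
  | ⟨37, _⟩ => (6, 41)
  | ⟨38, _⟩ => (4, 40)
  | ⟨39, _⟩ => (6, 43)
  | ⟨40, _⟩ => (6, 14)
  | ⟨41, _⟩ => (4, 42)
  | ⟨42, _⟩ => (6, 44)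
  | ⟨43, _⟩ => (5, 22)
  | ⟨44, _⟩ => (4, 44)
  | ⟨45, _⟩ => (6, 22)
  | ⟨46, _⟩ => (6, 10)
  | ⟨47, _⟩ => (5, 26)
  | ⟨48, _⟩ => (6, 27)
  | ⟨49, _⟩ => (4, 48)
  | ⟨50, _⟩ => (6, 45)
  | ⟨51, _⟩ => (6, 46)
  | ⟨52, _⟩ => (6, 5)
  | ⟨53, _⟩ => (6, 33)
  | ⟨54, _⟩ => (5, 11)
  | ⟨55, _⟩ => (5, 23)
  | ⟨56, _⟩ => (6, 50)
  | ⟨57, _⟩ => (6, 36)
  | ⟨58, _⟩ => (5, 15)
  | ⟨59, _⟩ => (6, 53)
  | ⟨60, _⟩ => (4, 59)
  | ⟨61, _⟩ => (6, 56)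
  | ⟨62, _⟩ => (4, 61)
  | ⟨n+63, h⟩ => absurd h (by omega)
def px_x_c6 : Fin 63 → Idx
  | ⟨0, _⟩ => (6, 40)
  | ⟨1, _⟩ => (5, 0)
  | ⟨2, _⟩ => (6, 59)
  | ⟨3, _⟩ => (5, 2)
  | ⟨4, _⟩ => (5, 31)
  | ⟨5, _⟩ => (5, 52)
  | ⟨6, _⟩ => (5, 5)
  | ⟨7, _⟩ => (6, 42)
  | ⟨8, _⟩ => (5, 7)
  | ⟨9, _⟩ => (5, 8)
  | ⟨10, _⟩ => (5, 46)
  | ⟨11, _⟩ => (5, 10)
  | ⟨12, _⟩ => (5, 13)
  | ⟨13, _⟩ => (5, 14)
  | ⟨14, _⟩ => (5, 40)
  | ⟨15, _⟩ => (5, 16)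
  | ⟨16, _⟩ => (5, 18)
  | ⟨17, _⟩ => (5, 19)
  | ⟨18, _⟩ => (7, 7)
  | ⟨19, _⟩ => (5, 20)
  | ⟨20, _⟩ => (6, 57)
  | ⟨21, _⟩ => (5, 21)
  | ⟨22, _⟩ => (5, 45)
  | ⟨23, _⟩ => (7, 9)
  | ⟨24, _⟩ => (5, 24)
  | ⟨25, _⟩ => (6, 60)
  | ⟨26, _⟩ => (5, 25)
  | ⟨27, _⟩ => (5, 48)
  | ⟨28, _⟩ => (7, 11)
  | ⟨29, _⟩ => (5, 27)
  | ⟨30, _⟩ => (7, 13)
  | ⟨31, _⟩ => (7, 4)
  | ⟨32, _⟩ => (5, 29)
  | ⟨33, _⟩ => (5, 53)
  | ⟨34, _⟩ => (6, 48)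
  | ⟨35, _⟩ => (7, 5)
  | ⟨36, _⟩ => (5, 57)
  | ⟨37, _⟩ => (5, 33)
  | ⟨38, _⟩ => (6, 51)
  | ⟨39, _⟩ => (7, 15)
  | ⟨40, _⟩ => (6, 0)
  | ⟨41, _⟩ => (5, 37)
  | ⟨42, _⟩ => (6, 7)
  | ⟨43, _⟩ => (5, 39)
  | ⟨44, _⟩ => (5, 42)
  | ⟨45, _⟩ => (5, 50)
  | ⟨46, _⟩ => (5, 51)
  | ⟨47, _⟩ => (7, 22)
  | ⟨48, _⟩ => (6, 34)
  | ⟨49, _⟩ => (7, 10)
  | ⟨50, _⟩ => (5, 56)
  | ⟨51, _⟩ => (6, 38)
  | ⟨52, _⟩ => (7, 23)
  | ⟨53, _⟩ => (5, 59)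
  | ⟨54, _⟩ => (7, 25)
  | ⟨55, _⟩ => (7, 2)
  | ⟨56, _⟩ => (5, 61)
  | ⟨57, _⟩ => (6, 20)
  | ⟨58, _⟩ => (7, 20)
  | ⟨59, _⟩ => (6, 2)
  | ⟨60, _⟩ => (6, 25)
  | ⟨61, _⟩ => (7, 27)
  | ⟨62, _⟩ => (7, 14)
  | ⟨n+63, h⟩ => absurd h (by omega)
def px_x_c7 : Fin 63 → Idx
  | ⟨0, _⟩ => (7, 29)
  | ⟨1, _⟩ => (7, 12)
  | ⟨2, _⟩ => (6, 55)
  | ⟨3, _⟩ => (7, 30)
  | ⟨4, _⟩ => (6, 31)
  | ⟨5, _⟩ => (6, 35)
  | ⟨6, _⟩ => (7, 33)
  | ⟨7, _⟩ => (6, 18)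
  | ⟨8, _⟩ => (7, 36)
  | ⟨9, _⟩ => (6, 23)
  | ⟨10, _⟩ => (6, 49)
  | ⟨11, _⟩ => (6, 28)
  | ⟨12, _⟩ => (7, 1)
  | ⟨13, _⟩ => (6, 30)
  | ⟨14, _⟩ => (6, 62)
  | ⟨15, _⟩ => (6, 39)
  | ⟨16, _⟩ => (7, 42)
  | ⟨17, _⟩ => (7, 26)
  | ⟨18, _⟩ => (7, 24)
  | ⟨19, _⟩ => (7, 43)
  | ⟨20, _⟩ => (6, 58)
  | ⟨21, _⟩ => (7, 45)
  | ⟨22, _⟩ => (6, 47)
  | ⟨23, _⟩ => (6, 52)
  | ⟨24, _⟩ => (7, 18)
  | ⟨25, _⟩ => (6, 54)
  | ⟨26, _⟩ => (7, 17)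
  | ⟨27, _⟩ => (6, 61)
  | ⟨28, _⟩ => (7, 32)
  | ⟨29, _⟩ => (7, 0)
  | ⟨30, _⟩ => (7, 3)
  | ⟨31, _⟩ => (7, 51)
  | ⟨32, _⟩ => (7, 28)
  | ⟨33, _⟩ => (7, 6)
  | ⟨34, _⟩ => (7, 52)
  | ⟨35, _⟩ => (7, 39)
  | ⟨36, _⟩ => (7, 8)
  | ⟨37, _⟩ => (7, 53)
  | ⟨38, _⟩ => (7, 54)
  | ⟨39, _⟩ => (7, 35)
  | ⟨40, _⟩ => (7, 55)
  | ⟨41, _⟩ => (7, 56)
  | ⟨42, _⟩ => (7, 16)
  | ⟨43, _⟩ => (7, 19)
  | ⟨44, _⟩ => (7, 57)
  | ⟨45, _⟩ => (7, 21)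
  | ⟨46, _⟩ => (7, 58)
  | ⟨47, _⟩ => (7, 48)
  | ⟨48, _⟩ => (7, 47)
  | ⟨49, _⟩ => (7, 59)
  | ⟨50, _⟩ => (7, 60)
  | ⟨51, _⟩ => (7, 31)
  | ⟨52, _⟩ => (7, 34)
  | ⟨53, _⟩ => (7, 37)
  | ⟨54, _⟩ => (7, 38)
  | ⟨55, _⟩ => (7, 40)
  | ⟨56, _⟩ => (7, 41)
  | ⟨57, _⟩ => (7, 44)
  | ⟨58, _⟩ => (7, 46)
  | ⟨59, _⟩ => (7, 49)
  | ⟨60, _⟩ => (7, 50)
  | ⟨61, _⟩ => (7, 62)
  | ⟨62, _⟩ => (7, 61)
  | ⟨n+63, h⟩ => absurd h (by omega)
def px_x_ch : Fin 8 → Fin 63 → Idx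
  | ⟨0, _⟩ => px_x_c0
  | ⟨1, _⟩ => px_x_c1
  | ⟨2, _⟩ => px_x_c2
  | ⟨3, _⟩ => px_x_c3
  | ⟨4, _⟩ => px_x_c4
  | ⟨5, _⟩ => px_x_c5
  | ⟨6, _⟩ => px_x_c6
  | ⟨7, _⟩ => px_x_c7
  | ⟨n+8, h⟩ => absurd h (by omega)
def px_x (i : Idx) : Idx := px_x_ch i.1 i.2
theorem closed_x_c0 : ∀ b : Fin 63, rep_c0 b * x = rep (nx_x_c0 b)
  | ⟨0, _⟩ => e_0_x
  | ⟨1, _⟩ => e_1_x
  | ⟨2, _⟩ => e_2_x
  | ⟨3, _⟩ => e_3_x
  | ⟨4, _⟩ => e_4_x
  | ⟨5, _⟩ => e_5_x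
  | ⟨6, _⟩ => e_6_x
  | ⟨7, _⟩ => e_7_x
  | ⟨8, _⟩ => e_8_x
  | ⟨9, _⟩ => e_9_x
  | ⟨10, _⟩ => e_10_x
  | ⟨11, _⟩ => e_11_x
  | ⟨12, _⟩ => e_12_x
  | ⟨13, _⟩ => e_13_x
  | ⟨14, _⟩ => e_14_x
  | ⟨15, _⟩ => e_15_x
  | ⟨16, _⟩ => e_16_x
  | ⟨17, _⟩ => e_17_x
  | ⟨18, _⟩ => e_18_x
  | ⟨19, _⟩ => e_19_x
  | ⟨20, _⟩ => e_20_x
  | ⟨21, _⟩ => e_21_x
  | ⟨22, _⟩ => e_22_x
  | ⟨23, _⟩ => e_23_x
  | ⟨24, _⟩ => e_24_x
  | ⟨25, _⟩ => e_25_x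
  | ⟨26, _⟩ => e_26_x
  | ⟨27, _⟩ => e_27_x
  | ⟨28, _⟩ => e_28_x
  | ⟨29, _⟩ => e_29_x
  | ⟨30, _⟩ => e_30_x
  | ⟨31, _⟩ => e_31_x
  | ⟨32, _⟩ => e_32_x
  | ⟨33, _⟩ => e_33_x
  | ⟨34, _⟩ => e_34_x
  | ⟨35, _⟩ => e_35_x
  | ⟨36, _⟩ => e_36_x
  | ⟨37, _⟩ => e_37_x
  | ⟨38, _⟩ => e_38_x
  | ⟨39, _⟩ => e_39_x
  | ⟨40, _⟩ => e_40_x
  | ⟨41, _⟩ => e_41_x
  | ⟨42, _⟩ => e_42_x
  | ⟨43, _⟩ => e_43_x
  | ⟨44, _⟩ => e_44_x
  | ⟨45, _⟩ => e_45_x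
  | ⟨46, _⟩ => e_46_x
  | ⟨47, _⟩ => e_47_x
  | ⟨48, _⟩ => e_48_x
  | ⟨49, _⟩ => e_49_x
  | ⟨50, _⟩ => e_50_x
  | ⟨51, _⟩ => e_51_x
  | ⟨52, _⟩ => e_52_x
  | ⟨53, _⟩ => e_53_x
  | ⟨54, _⟩ => e_54_x
  | ⟨55, _⟩ => e_55_x
  | ⟨56, _⟩ => e_56_x
  | ⟨57, _⟩ => e_57_x
  | ⟨58, _⟩ => e_58_x
  | ⟨59, _⟩ => e_59_x
  | ⟨60, _⟩ => e_60_x
  | ⟨61, _⟩ => e_61_x
  | ⟨62, _⟩ => e_62_x
  | ⟨n+63, h⟩ => absurd h (by omega)
theorem closed_x_c1 : ∀ b : Fin 63, rep_c1 b * x = rep (nx_x_c1 b)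
  | ⟨0, _⟩ => e_63_x
  | ⟨1, _⟩ => e_64_x
  | ⟨2, _⟩ => e_65_x
  | ⟨3, _⟩ => e_66_x
  | ⟨4, _⟩ => e_67_x
  | ⟨5, _⟩ => e_68_x
  | ⟨6, _⟩ => e_69_x
  | ⟨7, _⟩ => e_70_x
  | ⟨8, _⟩ => e_71_x
  | ⟨9, _⟩ => e_72_x
  | ⟨10, _⟩ => e_73_x
  | ⟨11, _⟩ => e_74_x
  | ⟨12, _⟩ => e_75_x
  | ⟨13, _⟩ => e_76_x
  | ⟨14, _⟩ => e_77_x
  | ⟨15, _⟩ => e_78_x
  | ⟨16, _⟩ => e_79_x
  | ⟨17, _⟩ => e_80_x
  | ⟨18, _⟩ => e_81_x
  | ⟨19, _⟩ => e_82_x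
  | ⟨20, _⟩ => e_83_x
  | ⟨21, _⟩ => e_84_x
  | ⟨22, _⟩ => e_85_x
  | ⟨23, _⟩ => e_86_x
  | ⟨24, _⟩ => e_87_x
  | ⟨25, _⟩ => e_88_x
  | ⟨26, _⟩ => e_89_x
  | ⟨27, _⟩ => e_90_x
  | ⟨28, _⟩ => e_91_x
  | ⟨29, _⟩ => e_92_x
  | ⟨30, _⟩ => e_93_x
  | ⟨31, _⟩ => e_94_x
  | ⟨32, _⟩ => e_95_x
  | ⟨33, _⟩ => e_96_x
  | ⟨34, _⟩ => e_97_x
  | ⟨35, _⟩ => e_98_x
  | ⟨36, _⟩ => e_99_x
  | ⟨37, _⟩ => e_100_x
  | ⟨38, _⟩ => e_101_x
  | ⟨39, _⟩ => e_102_x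
  | ⟨40, _⟩ => e_103_x
  | ⟨41, _⟩ => e_104_x
  | ⟨42, _⟩ => e_105_x
  | ⟨43, _⟩ => e_106_x
  | ⟨44, _⟩ => e_107_x
  | ⟨45, _⟩ => e_108_x
  | ⟨46, _⟩ => e_109_x
  | ⟨47, _⟩ => e_110_x
  | ⟨48, _⟩ => e_111_x
  | ⟨49, _⟩ => e_112_x
  | ⟨50, _⟩ => e_113_x
  | ⟨51, _⟩ => e_114_x
  | ⟨52, _⟩ => e_115_x
  | ⟨53, _⟩ => e_116_x
  | ⟨54, _⟩ => e_117_x
  | ⟨55, _⟩ => e_118_x
  | ⟨56, _⟩ => e_119_x
  | ⟨57, _⟩ => e_120_x
  | ⟨58, _⟩ => e_121_x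
  | ⟨59, _⟩ => e_122_x
  | ⟨60, _⟩ => e_123_x
  | ⟨61, _⟩ => e_124_x
  | ⟨62, _⟩ => e_125_x
  | ⟨n+63, h⟩ => absurd h (by omega)
theorem closed_x_c2 : ∀ b : Fin 63, rep_c2 b * x = rep (nx_x_c2 b)
  | ⟨0, _⟩ => e_126_x
  | ⟨1, _⟩ => e_127_x
  | ⟨2, _⟩ => e_128_x
  | ⟨3, _⟩ => e_129_x
  | ⟨4, _⟩ => e_130_x
  | ⟨5, _⟩ => e_131_x
  | ⟨6, _⟩ => e_132_x
  | ⟨7, _⟩ => e_133_x
  | ⟨8, _⟩ => e_134_x
  | ⟨9, _⟩ => e_135_x
  | ⟨10, _⟩ => e_136_x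
  | ⟨11, _⟩ => e_137_x
  | ⟨12, _⟩ => e_138_x
  | ⟨13, _⟩ => e_139_x
  | ⟨14, _⟩ => e_140_x
  | ⟨15, _⟩ => e_141_x
  | ⟨16, _⟩ => e_142_x
  | ⟨17, _⟩ => e_143_x
  | ⟨18, _⟩ => e_144_x
  | ⟨19, _⟩ => e_145_x
  | ⟨20, _⟩ => e_146_x
  | ⟨21, _⟩ => e_147_x
  | ⟨22, _⟩ => e_148_x
  | ⟨23, _⟩ => e_149_x
  | ⟨24, _⟩ => e_150_x
  | ⟨25, _⟩ => e_151_x
  | ⟨26, _⟩ => e_152_x
  | ⟨27, _⟩ => e_153_x
  | ⟨28, _⟩ => e_154_x
  | ⟨29, _⟩ => e_155_x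
  | ⟨30, _⟩ => e_156_x
  | ⟨31, _⟩ => e_157_x
  | ⟨32, _⟩ => e_158_x
  | ⟨33, _⟩ => e_159_x
  | ⟨34, _⟩ => e_160_x
  | ⟨35, _⟩ => e_161_x
  | ⟨36, _⟩ => e_162_x
  | ⟨37, _⟩ => e_163_x
  | ⟨38, _⟩ => e_164_x
  | ⟨39, _⟩ => e_165_x
  | ⟨40, _⟩ => e_166_x
  | ⟨41, _⟩ => e_167_x
  | ⟨42, _⟩ => e_168_x
  | ⟨43, _⟩ => e_169_x
  | ⟨44, _⟩ => e_170_x
  | ⟨45, _⟩ => e_171_x
  | ⟨46, _⟩ => e_172_x
  | ⟨47, _⟩ => e_173_x
  | ⟨48, _⟩ => e_174_x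
  | ⟨49, _⟩ => e_175_x
  | ⟨50, _⟩ => e_176_x
  | ⟨51, _⟩ => e_177_x
  | ⟨52, _⟩ => e_178_x
  | ⟨53, _⟩ => e_179_x
  | ⟨54, _⟩ => e_180_x
  | ⟨55, _⟩ => e_181_x
  | ⟨56, _⟩ => e_182_x
  | ⟨57, _⟩ => e_183_x
  | ⟨58, _⟩ => e_184_x
  | ⟨59, _⟩ => e_185_x
  | ⟨60, _⟩ => e_186_x
  | ⟨61, _⟩ => e_187_x
  | ⟨62, _⟩ => e_188_x
  | ⟨n+63, h⟩ => absurd h (by omega)
theorem closed_x_c3 : ∀ b : Fin 63, rep_c3 b * x = rep (nx_x_c3 b)
  | ⟨0, _⟩ => e_189_x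
  | ⟨1, _⟩ => e_190_x
  | ⟨2, _⟩ => e_191_x
  | ⟨3, _⟩ => e_192_x
  | ⟨4, _⟩ => e_193_x
  | ⟨5, _⟩ => e_194_x
  | ⟨6, _⟩ => e_195_x
  | ⟨7, _⟩ => e_196_x
  | ⟨8, _⟩ => e_197_x
  | ⟨9, _⟩ => e_198_x
  | ⟨10, _⟩ => e_199_x
  | ⟨11, _⟩ => e_200_x
  | ⟨12, _⟩ => e_201_x
  | ⟨13, _⟩ => e_202_x
  | ⟨14, _⟩ => e_203_x
  | ⟨15, _⟩ => e_204_x
  | ⟨16, _⟩ => e_205_x
  | ⟨17, _⟩ => e_206_x
  | ⟨18, _⟩ => e_207_x
  | ⟨19, _⟩ => e_208_x
  | ⟨20, _⟩ => e_209_x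
  | ⟨21, _⟩ => e_210_x
  | ⟨22, _⟩ => e_211_x
  | ⟨23, _⟩ => e_212_x
  | ⟨24, _⟩ => e_213_x
  | ⟨25, _⟩ => e_214_x
  | ⟨26, _⟩ => e_215_x
  | ⟨27, _⟩ => e_216_x
  | ⟨28, _⟩ => e_217_x
  | ⟨29, _⟩ => e_218_x
  | ⟨30, _⟩ => e_219_x
  | ⟨31, _⟩ => e_220_x
  | ⟨32, _⟩ => e_221_x
  | ⟨33, _⟩ => e_222_x
  | ⟨34, _⟩ => e_223_x
  | ⟨35, _⟩ => e_224_x
  | ⟨36, _⟩ => e_225_x
  | ⟨37, _⟩ => e_226_x
  | ⟨38, _⟩ => e_227_x
  | ⟨39, _⟩ => e_228_x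
  | ⟨40, _⟩ => e_229_x
  | ⟨41, _⟩ => e_230_x
  | ⟨42, _⟩ => e_231_x
  | ⟨43, _⟩ => e_232_x
  | ⟨44, _⟩ => e_233_x
  | ⟨45, _⟩ => e_234_x
  | ⟨46, _⟩ => e_235_x
  | ⟨47, _⟩ => e_236_x
  | ⟨48, _⟩ => e_237_x
  | ⟨49, _⟩ => e_238_x
  | ⟨50, _⟩ => e_239_x
  | ⟨51, _⟩ => e_240_x
  | ⟨52, _⟩ => e_241_x
  | ⟨53, _⟩ => e_242_x
  | ⟨54, _⟩ => e_243_x
  | ⟨55, _⟩ => e_244_x
  | ⟨56, _⟩ => e_245_x
  | ⟨57, _⟩ => e_246_x
  | ⟨58, _⟩ => e_247_x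
  | ⟨59, _⟩ => e_248_x
  | ⟨60, _⟩ => e_249_x
  | ⟨61, _⟩ => e_250_x
  | ⟨62, _⟩ => e_251_x
  | ⟨n+63, h⟩ => absurd h (by omega)
theorem closed_x_c4 : ∀ b : Fin 63, rep_c4 b * x = rep (nx_x_c4 b)
  | ⟨0, _⟩ => e_252_x
  | ⟨1, _⟩ => e_253_x
  | ⟨2, _⟩ => e_254_x
  | ⟨3, _⟩ => e_255_x
  | ⟨4, _⟩ => e_256_x
  | ⟨5, _⟩ => e_257_x
  | ⟨6, _⟩ => e_258_x
  | ⟨7, _⟩ => e_259_x
  | ⟨8, _⟩ => e_260_x
  | ⟨9, _⟩ => e_261_x
  | ⟨10, _⟩ => e_262_x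
  | ⟨11, _⟩ => e_263_x
  | ⟨12, _⟩ => e_264_x
  | ⟨13, _⟩ => e_265_x
  | ⟨14, _⟩ => e_266_x
  | ⟨15, _⟩ => e_267_x
  | ⟨16, _⟩ => e_268_x
  | ⟨17, _⟩ => e_269_x
  | ⟨18, _⟩ => e_270_x
  | ⟨19, _⟩ => e_271_x
  | ⟨20, _⟩ => e_272_x
  | ⟨21, _⟩ => e_273_x
  | ⟨22, _⟩ => e_274_x
  | ⟨23, _⟩ => e_275_x
  | ⟨24, _⟩ => e_276_x
  | ⟨25, _⟩ => e_277_x
  | ⟨26, _⟩ => e_278_x
  | ⟨27, _⟩ => e_279_x
  | ⟨28, _⟩ => e_280_x
  | ⟨29, _⟩ => e_281_x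
  | ⟨30, _⟩ => e_282_x
  | ⟨31, _⟩ => e_283_x
  | ⟨32, _⟩ => e_284_x
  | ⟨33, _⟩ => e_285_x
  | ⟨34, _⟩ => e_286_x
  | ⟨35, _⟩ => e_287_x
  | ⟨36, _⟩ => e_288_x
  | ⟨37, _⟩ => e_289_x
  | ⟨38, _⟩ => e_290_x
  | ⟨39, _⟩ => e_291_x
  | ⟨40, _⟩ => e_292_x
  | ⟨41, _⟩ => e_293_x
  | ⟨42, _⟩ => e_294_x
  | ⟨43, _⟩ => e_295_x
  | ⟨44, _⟩ => e_296_x
  | ⟨45, _⟩ => e_297_x
  | ⟨46, _⟩ => e_298_x
  | ⟨47, _⟩ => e_299_x
  | ⟨48, _⟩ => e_300_x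
  | ⟨49, _⟩ => e_301_x
  | ⟨50, _⟩ => e_302_x
  | ⟨51, _⟩ => e_303_x
  | ⟨52, _⟩ => e_304_x
  | ⟨53, _⟩ => e_305_x
  | ⟨54, _⟩ => e_306_x
  | ⟨55, _⟩ => e_307_x
  | ⟨56, _⟩ => e_308_x
  | ⟨57, _⟩ => e_309_x
  | ⟨58, _⟩ => e_310_x
  | ⟨59, _⟩ => e_311_x
  | ⟨60, _⟩ => e_312_x
  | ⟨61, _⟩ => e_313_x
  | ⟨62, _⟩ => e_314_x
  | ⟨n+63, h⟩ => absurd h (by omega)
theorem closed_x_c5 : ∀ b : Fin 63, rep_c5 b * x = rep (nx_x_c5 b)
  | ⟨0, _⟩ => e_315_x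
  | ⟨1, _⟩ => e_316_x
  | ⟨2, _⟩ => e_317_x
  | ⟨3, _⟩ => e_318_x
  | ⟨4, _⟩ => e_319_x
  | ⟨5, _⟩ => e_320_x
  | ⟨6, _⟩ => e_321_x
  | ⟨7, _⟩ => e_322_x
  | ⟨8, _⟩ => e_323_x
  | ⟨9, _⟩ => e_324_x
  | ⟨10, _⟩ => e_325_x
  | ⟨11, _⟩ => e_326_x
  | ⟨12, _⟩ => e_327_x
  | ⟨13, _⟩ => e_328_x
  | ⟨14, _⟩ => e_329_x
  | ⟨15, _⟩ => e_330_x
  | ⟨16, _⟩ => e_331_x
  | ⟨17, _⟩ => e_332_x
  | ⟨18, _⟩ => e_333_x
  | ⟨19, _⟩ => e_334_x
  | ⟨20, _⟩ => e_335_x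
  | ⟨21, _⟩ => e_336_x
  | ⟨22, _⟩ => e_337_x
  | ⟨23, _⟩ => e_338_x
  | ⟨24, _⟩ => e_339_x
  | ⟨25, _⟩ => e_340_x
  | ⟨26, _⟩ => e_341_x
  | ⟨27, _⟩ => e_342_x
  | ⟨28, _⟩ => e_343_x
  | ⟨29, _⟩ => e_344_x
  | ⟨30, _⟩ => e_345_x
  | ⟨31, _⟩ => e_346_x
  | ⟨32, _⟩ => e_347_x
  | ⟨33, _⟩ => e_348_x
  | ⟨34, _⟩ => e_349_x
  | ⟨35, _⟩ => e_350_x
  | ⟨36, _⟩ => e_351_x
  | ⟨37, _⟩ => e_352_x
  | ⟨38, _⟩ => e_353_x
  | ⟨39, _⟩ => e_354_x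
  | ⟨40, _⟩ => e_355_x
  | ⟨41, _⟩ => e_356_x
  | ⟨42, _⟩ => e_357_x
  | ⟨43, _⟩ => e_358_x
  | ⟨44, _⟩ => e_359_x
  | ⟨45, _⟩ => e_360_x
  | ⟨46, _⟩ => e_361_x
  | ⟨47, _⟩ => e_362_x
  | ⟨48, _⟩ => e_363_x
  | ⟨49, _⟩ => e_364_x
  | ⟨50, _⟩ => e_365_x
  | ⟨51, _⟩ => e_366_x
  | ⟨52, _⟩ => e_367_x
  | ⟨53, _⟩ => e_368_x
  | ⟨54, _⟩ => e_369_x
  | ⟨55, _⟩ => e_370_x
  | ⟨56, _⟩ => e_371_x
  | ⟨57, _⟩ => e_372_x
  | ⟨58, _⟩ => e_373_x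
  | ⟨59, _⟩ => e_374_x
  | ⟨60, _⟩ => e_375_x
  | ⟨61, _⟩ => e_376_x
  | ⟨62, _⟩ => e_377_x
  | ⟨n+63, h⟩ => absurd h (by omega)
theorem closed_x_c6 : ∀ b : Fin 63, rep_c6 b * x = rep (nx_x_c6 b)
  | ⟨0, _⟩ => e_378_x
  | ⟨1, _⟩ => e_379_x
  | ⟨2, _⟩ => e_380_x
  | ⟨3, _⟩ => e_381_x
  | ⟨4, _⟩ => e_382_x
  | ⟨5, _⟩ => e_383_x
  | ⟨6, _⟩ => e_384_x
  | ⟨7, _⟩ => e_385_x
  | ⟨8, _⟩ => e_386_x
  | ⟨9, _⟩ => e_387_x
  | ⟨10, _⟩ => e_388_x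
  | ⟨11, _⟩ => e_389_x
  | ⟨12, _⟩ => e_390_x
  | ⟨13, _⟩ => e_391_x
  | ⟨14, _⟩ => e_392_x
  | ⟨15, _⟩ => e_393_x
  | ⟨16, _⟩ => e_394_x
  | ⟨17, _⟩ => e_395_x
  | ⟨18, _⟩ => e_396_x
  | ⟨19, _⟩ => e_397_x
  | ⟨20, _⟩ => e_398_x
  | ⟨21, _⟩ => e_399_x
  | ⟨22, _⟩ => e_400_x
  | ⟨23, _⟩ => e_401_x
  | ⟨24, _⟩ => e_402_x
  | ⟨25, _⟩ => e_403_x
  | ⟨26, _⟩ => e_404_x
  | ⟨27, _⟩ => e_405_x
  | ⟨28, _⟩ => e_406_x
  | ⟨29, _⟩ => e_407_x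
  | ⟨30, _⟩ => e_408_x
  | ⟨31, _⟩ => e_409_x
  | ⟨32, _⟩ => e_410_x
  | ⟨33, _⟩ => e_411_x
  | ⟨34, _⟩ => e_412_x
  | ⟨35, _⟩ => e_413_x
  | ⟨36, _⟩ => e_414_x
  | ⟨37, _⟩ => e_415_x
  | ⟨38, _⟩ => e_416_x
  | ⟨39, _⟩ => e_417_x
  | ⟨40, _⟩ => e_418_x
  | ⟨41, _⟩ => e_419_x
  | ⟨42, _⟩ => e_420_x
  | ⟨43, _⟩ => e_421_x
  | ⟨44, _⟩ => e_422_x
  | ⟨45, _⟩ => e_423_x
  | ⟨46, _⟩ => e_424_x
  | ⟨47, _⟩ => e_425_x
  | ⟨48, _⟩ => e_426_x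
  | ⟨49, _⟩ => e_427_x
  | ⟨50, _⟩ => e_428_x
  | ⟨51, _⟩ => e_429_x
  | ⟨52, _⟩ => e_430_x
  | ⟨53, _⟩ => e_431_x
  | ⟨54, _⟩ => e_432_x
  | ⟨55, _⟩ => e_433_x
  | ⟨56, _⟩ => e_434_x
  | ⟨57, _⟩ => e_435_x
  | ⟨58, _⟩ => e_436_x
  | ⟨59, _⟩ => e_437_x
  | ⟨60, _⟩ => e_438_x
  | ⟨61, _⟩ => e_439_x
  | ⟨62, _⟩ => e_440_x
  | ⟨n+63, h⟩ => absurd h (by omega)
theorem closed_x_c7 : ∀ b : Fin 63, rep_c7 b * x = rep (nx_x_c7 b)
  | ⟨0, _⟩ => e_441_x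
  | ⟨1, _⟩ => e_442_x
  | ⟨2, _⟩ => e_443_x
  | ⟨3, _⟩ => e_444_x
  | ⟨4, _⟩ => e_445_x
  | ⟨5, _⟩ => e_446_x
  | ⟨6, _⟩ => e_447_x
  | ⟨7, _⟩ => e_448_x
  | ⟨8, _⟩ => e_449_x
  | ⟨9, _⟩ => e_450_x
  | ⟨10, _⟩ => e_451_x
  | ⟨11, _⟩ => e_452_x
  | ⟨12, _⟩ => e_453_x
  | ⟨13, _⟩ => e_454_x
  | ⟨14, _⟩ => e_455_x
  | ⟨15, _⟩ => e_456_x
  | ⟨16, _⟩ => e_457_x
  | ⟨17, _⟩ => e_458_x
  | ⟨18, _⟩ => e_459_x
  | ⟨19, _⟩ => e_460_x
  | ⟨20, _⟩ => e_461_x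
  | ⟨21, _⟩ => e_462_x
  | ⟨22, _⟩ => e_463_x
  | ⟨23, _⟩ => e_464_x
  | ⟨24, _⟩ => e_465_x
  | ⟨25, _⟩ => e_466_x
  | ⟨26, _⟩ => e_467_x
  | ⟨27, _⟩ => e_468_x
  | ⟨28, _⟩ => e_469_x
  | ⟨29, _⟩ => e_470_x
  | ⟨30, _⟩ => e_471_x
  | ⟨31, _⟩ => e_472_x
  | ⟨32, _⟩ => e_473_x
  | ⟨33, _⟩ => e_474_x
  | ⟨34, _⟩ => e_475_x
  | ⟨35, _⟩ => e_476_x
  | ⟨36, _⟩ => e_477_x
  | ⟨37, _⟩ => e_478_x
  | ⟨38, _⟩ => e_479_x
  | ⟨39, _⟩ => e_480_x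
  | ⟨40, _⟩ => e_481_x
  | ⟨41, _⟩ => e_482_x
  | ⟨42, _⟩ => e_483_x
  | ⟨43, _⟩ => e_484_x
  | ⟨44, _⟩ => e_485_x
  | ⟨45, _⟩ => e_486_x
  | ⟨46, _⟩ => e_487_x
  | ⟨47, _⟩ => e_488_x
  | ⟨48, _⟩ => e_489_x
  | ⟨49, _⟩ => e_490_x
  | ⟨50, _⟩ => e_491_x
  | ⟨51, _⟩ => e_492_x
  | ⟨52, _⟩ => e_493_x
  | ⟨53, _⟩ => e_494_x
  | ⟨54, _⟩ => e_495_x
  | ⟨55, _⟩ => e_496_x
  | ⟨56, _⟩ => e_497_x
  | ⟨57, _⟩ => e_498_x
  | ⟨58, _⟩ => e_499_x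
  | ⟨59, _⟩ => e_500_x
  | ⟨60, _⟩ => e_501_x
  | ⟨61, _⟩ => e_502_x
  | ⟨62, _⟩ => e_503_x
  | ⟨n+63, h⟩ => absurd h (by omega)
theorem closed_x_ch : ∀ (a : Fin 8) (b : Fin 63), rep_ch a b * x = rep (nx_x_ch a b)
  | ⟨0, _⟩ => closed_x_c0
  | ⟨1, _⟩ => closed_x_c1
  | ⟨2, _⟩ => closed_x_c2
  | ⟨3, _⟩ => closed_x_c3
  | ⟨4, _⟩ => closed_x_c4
  | ⟨5, _⟩ => closed_x_c5
  | ⟨6, _⟩ => closed_x_c6
  | ⟨7, _⟩ => closed_x_c7
  | ⟨n+8, h⟩ => absurd h (by omega)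
theorem closed_x (i : Idx) : rep i * x = rep (nx_x i) :=
  closed_x_ch i.1 i.2
theorem pre_x_c0 : ∀ b : Fin 63, rep (px_x_c0 b) * x = rep_c0 b
  | ⟨0, _⟩ => e_1_x
  | ⟨1, _⟩ => e_0_x
  | ⟨2, _⟩ => e_4_x
  | ⟨3, _⟩ => e_6_x
  | ⟨4, _⟩ => e_2_x
  | ⟨5, _⟩ => e_9_x
  | ⟨6, _⟩ => e_3_x
  | ⟨7, _⟩ => e_11_x
  | ⟨8, _⟩ => e_12_x
  | ⟨9, _⟩ => e_5_x
  | ⟨10, _⟩ => e_15_x
  | ⟨11, _⟩ => e_7_x
  | ⟨12, _⟩ => e_8_x
  | ⟨13, _⟩ => e_19_x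
  | ⟨14, _⟩ => e_20_x
  | ⟨15, _⟩ => e_10_x
  | ⟨16, _⟩ => e_23_x
  | ⟨17, _⟩ => e_24_x
  | ⟨18, _⟩ => e_26_x
  | ⟨19, _⟩ => e_13_x
  | ⟨20, _⟩ => e_14_x
  | ⟨21, _⟩ => e_30_x
  | ⟨22, _⟩ => e_31_x
  | ⟨23, _⟩ => e_16_x
  | ⟨24, _⟩ => e_17_x
  | ⟨25, _⟩ => e_35_x
  | ⟨26, _⟩ => e_18_x
  | ⟨27, _⟩ => e_37_x
  | ⟨28, _⟩ => e_38_x
  | ⟨29, _⟩ => e_40_x
  | ⟨30, _⟩ => e_21_x
  | ⟨31, _⟩ => e_22_x
  | ⟨32, _⟩ => e_44_x
  | ⟨33, _⟩ => e_45_x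
  | ⟨34, _⟩ => e_47_x
  | ⟨35, _⟩ => e_25_x
  | ⟨36, _⟩ => e_50_x
  | ⟨37, _⟩ => e_27_x
  | ⟨38, _⟩ => e_28_x
  | ⟨39, _⟩ => e_54_x
  | ⟨40, _⟩ => e_29_x
  | ⟨41, _⟩ => e_56_x
  | ⟨42, _⟩ => e_57_x
  | ⟨43, _⟩ => e_58_x
  | ⟨44, _⟩ => e_32_x
  | ⟨45, _⟩ => e_33_x
  | ⟨46, _⟩ => e_62_x
  | ⟨47, _⟩ => e_34_x
  | ⟨48, _⟩ => e_64_x
  | ⟨49, _⟩ => e_65_x
  | ⟨50, _⟩ => e_36_x
  | ⟨51, _⟩ => e_66_x
  | ⟨52, _⟩ => e_67_x
  | ⟨53, _⟩ => e_69_x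
  | ⟨54, _⟩ => e_39_x
  | ⟨55, _⟩ => e_72_x
  | ⟨56, _⟩ => e_41_x
  | ⟨57, _⟩ => e_42_x
  | ⟨58, _⟩ => e_43_x
  | ⟨59, _⟩ => e_76_x
  | ⟨60, _⟩ => e_77_x
  | ⟨61, _⟩ => e_79_x
  | ⟨62, _⟩ => e_46_x
  | ⟨n+63, h⟩ => absurd h (by omega)
theorem pre_x_c1 : ∀ b : Fin 63, rep (px_x_c1 b) * x = rep_c1 b
  | ⟨0, _⟩ => e_82_x
  | ⟨1, _⟩ => e_48_x
  | ⟨2, _⟩ => e_49_x
  | ⟨3, _⟩ => e_51_x
  | ⟨4, _⟩ => e_52_x
  | ⟨5, _⟩ => e_88_x
  | ⟨6, _⟩ => e_53_x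
  | ⟨7, _⟩ => e_90_x
  | ⟨8, _⟩ => e_91_x
  | ⟨9, _⟩ => e_55_x
  | ⟨10, _⟩ => e_92_x
  | ⟨11, _⟩ => e_93_x
  | ⟨12, _⟩ => e_95_x
  | ⟨13, _⟩ => e_59_x
  | ⟨14, _⟩ => e_60_x
  | ⟨15, _⟩ => e_99_x
  | ⟨16, _⟩ => e_61_x
  | ⟨17, _⟩ => e_101_x
  | ⟨18, _⟩ => e_102_x
  | ⟨19, _⟩ => e_63_x
  | ⟨20, _⟩ => e_103_x
  | ⟨21, _⟩ => e_104_x
  | ⟨22, _⟩ => e_106_x
  | ⟨23, _⟩ => e_108_x
  | ⟨24, _⟩ => e_110_x
  | ⟨25, _⟩ => e_68_x
  | ⟨26, _⟩ => e_113_x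
  | ⟨27, _⟩ => e_70_x
  | ⟨28, _⟩ => e_71_x
  | ⟨29, _⟩ => e_73_x
  | ⟨30, _⟩ => e_74_x
  | ⟨31, _⟩ => e_119_x
  | ⟨32, _⟩ => e_75_x
  | ⟨33, _⟩ => e_121_x
  | ⟨34, _⟩ => e_122_x
  | ⟨35, _⟩ => e_124_x
  | ⟨36, _⟩ => e_78_x
  | ⟨37, _⟩ => e_127_x
  | ⟨38, _⟩ => e_80_x
  | ⟨39, _⟩ => e_81_x
  | ⟨40, _⟩ => e_83_x
  | ⟨41, _⟩ => e_84_x
  | ⟨42, _⟩ => e_133_x
  | ⟨43, _⟩ => e_85_x
  | ⟨44, _⟩ => e_135_x
  | ⟨45, _⟩ => e_86_x
  | ⟨46, _⟩ => e_137_x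
  | ⟨47, _⟩ => e_87_x
  | ⟨48, _⟩ => e_139_x
  | ⟨49, _⟩ => e_140_x
  | ⟨50, _⟩ => e_89_x
  | ⟨51, _⟩ => e_141_x
  | ⟨52, _⟩ => e_142_x
  | ⟨53, _⟩ => e_144_x
  | ⟨54, _⟩ => e_146_x
  | ⟨55, _⟩ => e_148_x
  | ⟨56, _⟩ => e_94_x
  | ⟨57, _⟩ => e_151_x
  | ⟨58, _⟩ => e_96_x
  | ⟨59, _⟩ => e_97_x
  | ⟨60, _⟩ => e_155_x
  | ⟨61, _⟩ => e_98_x
  | ⟨62, _⟩ => e_157_x
  | ⟨n+63, h⟩ => absurd h (by omega)
theorem pre_x_c2 : ∀ b : Fin 63, rep (px_x_c2 b) * x = rep_c2 b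
  | ⟨0, _⟩ => e_158_x
  | ⟨1, _⟩ => e_100_x
  | ⟨2, _⟩ => e_159_x
  | ⟨3, _⟩ => e_160_x
  | ⟨4, _⟩ => e_162_x
  | ⟨5, _⟩ => e_164_x
  | ⟨6, _⟩ => e_166_x
  | ⟨7, _⟩ => e_105_x
  | ⟨8, _⟩ => e_169_x
  | ⟨9, _⟩ => e_107_x
  | ⟨10, _⟩ => e_172_x
  | ⟨11, _⟩ => e_109_x
  | ⟨12, _⟩ => e_175_x
  | ⟨13, _⟩ => e_111_x
  | ⟨14, _⟩ => e_112_x
  | ⟨15, _⟩ => e_114_x
  | ⟨16, _⟩ => e_115_x
  | ⟨17, _⟩ => e_181_x
  | ⟨18, _⟩ => e_116_x
  | ⟨19, _⟩ => e_183_x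
  | ⟨20, _⟩ => e_117_x
  | ⟨21, _⟩ => e_185_x
  | ⟨22, _⟩ => e_118_x
  | ⟨23, _⟩ => e_187_x
  | ⟨24, _⟩ => e_188_x
  | ⟨25, _⟩ => e_120_x
  | ⟨26, _⟩ => e_189_x
  | ⟨27, _⟩ => e_190_x
  | ⟨28, _⟩ => e_192_x
  | ⟨29, _⟩ => e_123_x
  | ⟨30, _⟩ => e_195_x
  | ⟨31, _⟩ => e_125_x
  | ⟨32, _⟩ => e_126_x
  | ⟨33, _⟩ => e_128_x
  | ⟨34, _⟩ => e_129_x
  | ⟨35, _⟩ => e_201_x
  | ⟨36, _⟩ => e_130_x
  | ⟨37, _⟩ => e_203_x
  | ⟨38, _⟩ => e_131_x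
  | ⟨39, _⟩ => e_205_x
  | ⟨40, _⟩ => e_132_x
  | ⟨41, _⟩ => e_207_x
  | ⟨42, _⟩ => e_208_x
  | ⟨43, _⟩ => e_134_x
  | ⟨44, _⟩ => e_209_x
  | ⟨45, _⟩ => e_210_x
  | ⟨46, _⟩ => e_136_x
  | ⟨47, _⟩ => e_213_x
  | ⟨48, _⟩ => e_214_x
  | ⟨49, _⟩ => e_138_x
  | ⟨50, _⟩ => e_215_x
  | ⟨51, _⟩ => e_216_x
  | ⟨52, _⟩ => e_218_x
  | ⟨53, _⟩ => e_220_x
  | ⟨54, _⟩ => e_222_x
  | ⟨55, _⟩ => e_143_x
  | ⟨56, _⟩ => e_225_x
  | ⟨57, _⟩ => e_145_x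
  | ⟨58, _⟩ => e_228_x
  | ⟨59, _⟩ => e_147_x
  | ⟨60, _⟩ => e_231_x
  | ⟨61, _⟩ => e_149_x
  | ⟨62, _⟩ => e_150_x
  | ⟨n+63, h⟩ => absurd h (by omega)
theorem pre_x_c3 : ∀ b : Fin 63, rep (px_x_c3 b) * x = rep_c3 b
  | ⟨0, _⟩ => e_152_x
  | ⟨1, _⟩ => e_153_x
  | ⟨2, _⟩ => e_237_x
  | ⟨3, _⟩ => e_154_x
  | ⟨4, _⟩ => e_238_x
  | ⟨5, _⟩ => e_239_x
  | ⟨6, _⟩ => e_156_x
  | ⟨7, _⟩ => e_240_x
  | ⟨8, _⟩ => e_241_x
  | ⟨9, _⟩ => e_243_x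
  | ⟨10, _⟩ => e_245_x
  | ⟨11, _⟩ => e_247_x
  | ⟨12, _⟩ => e_161_x
  | ⟨13, _⟩ => e_250_x
  | ⟨14, _⟩ => e_163_x
  | ⟨15, _⟩ => e_253_x
  | ⟨16, _⟩ => e_165_x
  | ⟨17, _⟩ => e_256_x
  | ⟨18, _⟩ => e_167_x
  | ⟨19, _⟩ => e_168_x
  | ⟨20, _⟩ => e_170_x
  | ⟨21, _⟩ => e_171_x
  | ⟨22, _⟩ => e_212_x
  | ⟨23, _⟩ => e_211_x
  | ⟨24, _⟩ => e_173_x
  | ⟨25, _⟩ => e_174_x
  | ⟨26, _⟩ => e_176_x
  | ⟨27, _⟩ => e_177_x
  | ⟨28, _⟩ => e_267_x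
  | ⟨29, _⟩ => e_178_x
  | ⟨30, _⟩ => e_269_x
  | ⟨31, _⟩ => e_179_x
  | ⟨32, _⟩ => e_271_x
  | ⟨33, _⟩ => e_180_x
  | ⟨34, _⟩ => e_273_x
  | ⟨35, _⟩ => e_274_x
  | ⟨36, _⟩ => e_182_x
  | ⟨37, _⟩ => e_275_x
  | ⟨38, _⟩ => e_276_x
  | ⟨39, _⟩ => e_184_x
  | ⟨40, _⟩ => e_279_x
  | ⟨41, _⟩ => e_280_x
  | ⟨42, _⟩ => e_186_x
  | ⟨43, _⟩ => e_281_x
  | ⟨44, _⟩ => e_282_x
  | ⟨45, _⟩ => e_284_x
  | ⟨46, _⟩ => e_286_x
  | ⟨47, _⟩ => e_288_x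
  | ⟨48, _⟩ => e_191_x
  | ⟨49, _⟩ => e_193_x
  | ⟨50, _⟩ => e_194_x
  | ⟨51, _⟩ => e_196_x
  | ⟨52, _⟩ => e_197_x
  | ⟨53, _⟩ => e_295_x
  | ⟨54, _⟩ => e_198_x
  | ⟨55, _⟩ => e_297_x
  | ⟨56, _⟩ => e_199_x
  | ⟨57, _⟩ => e_299_x
  | ⟨58, _⟩ => e_200_x
  | ⟨59, _⟩ => e_301_x
  | ⟨60, _⟩ => e_302_x
  | ⟨61, _⟩ => e_202_x
  | ⟨62, _⟩ => e_303_x
  | ⟨n+63, h⟩ => absurd h (by omega)
theorem pre_x_c4 : ∀ b : Fin 63, rep (px_x_c4 b) * x = rep_c4 b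
  | ⟨0, _⟩ => e_304_x
  | ⟨1, _⟩ => e_204_x
  | ⟨2, _⟩ => e_307_x
  | ⟨3, _⟩ => e_308_x
  | ⟨4, _⟩ => e_206_x
  | ⟨5, _⟩ => e_309_x
  | ⟨6, _⟩ => e_310_x
  | ⟨7, _⟩ => e_312_x
  | ⟨8, _⟩ => e_314_x
  | ⟨9, _⟩ => e_316_x
  | ⟨10, _⟩ => e_318_x
  | ⟨11, _⟩ => e_319_x
  | ⟨12, _⟩ => e_321_x
  | ⟨13, _⟩ => e_298_x
  | ⟨14, _⟩ => e_324_x
  | ⟨15, _⟩ => e_217_x
  | ⟨16, _⟩ => e_327_x
  | ⟨17, _⟩ => e_219_x
  | ⟨18, _⟩ => e_293_x
  | ⟨19, _⟩ => e_221_x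
  | ⟨20, _⟩ => e_332_x
  | ⟨21, _⟩ => e_223_x
  | ⟨22, _⟩ => e_224_x
  | ⟨23, _⟩ => e_226_x
  | ⟨24, _⟩ => e_227_x
  | ⟨25, _⟩ => e_278_x
  | ⟨26, _⟩ => e_277_x
  | ⟨27, _⟩ => e_229_x
  | ⟨28, _⟩ => e_230_x
  | ⟨29, _⟩ => e_232_x
  | ⟨30, _⟩ => e_233_x
  | ⟨31, _⟩ => e_343_x
  | ⟨32, _⟩ => e_234_x
  | ⟨33, _⟩ => e_345_x
  | ⟨34, _⟩ => e_235_x
  | ⟨35, _⟩ => e_347_x
  | ⟨36, _⟩ => e_236_x
  | ⟨37, _⟩ => e_349_x
  | ⟨38, _⟩ => e_350_x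
  | ⟨39, _⟩ => e_351_x
  | ⟨40, _⟩ => e_353_x
  | ⟨41, _⟩ => e_270_x
  | ⟨42, _⟩ => e_356_x
  | ⟨43, _⟩ => e_242_x
  | ⟨44, _⟩ => e_359_x
  | ⟨45, _⟩ => e_244_x
  | ⟨46, _⟩ => e_265_x
  | ⟨47, _⟩ => e_246_x
  | ⟨48, _⟩ => e_364_x
  | ⟨49, _⟩ => e_248_x
  | ⟨50, _⟩ => e_249_x
  | ⟨51, _⟩ => e_251_x
  | ⟨52, _⟩ => e_252_x
  | ⟨53, _⟩ => e_306_x
  | ⟨54, _⟩ => e_305_x
  | ⟨55, _⟩ => e_254_x
  | ⟨56, _⟩ => e_255_x
  | ⟨57, _⟩ => e_257_x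
  | ⟨58, _⟩ => e_258_x
  | ⟨59, _⟩ => e_375_x
  | ⟨60, _⟩ => e_259_x
  | ⟨61, _⟩ => e_377_x
  | ⟨62, _⟩ => e_260_x
  | ⟨n+63, h⟩ => absurd h (by omega)
theorem pre_x_c5 : ∀ b : Fin 63, rep (px_x_c5 b) * x = rep_c5 b
  | ⟨0, _⟩ => e_379_x
  | ⟨1, _⟩ => e_261_x
  | ⟨2, _⟩ => e_381_x
  | ⟨3, _⟩ => e_262_x
  | ⟨4, _⟩ => e_263_x
  | ⟨5, _⟩ => e_384_x
  | ⟨6, _⟩ => e_264_x
  | ⟨7, _⟩ => e_386_x
  | ⟨8, _⟩ => e_387_x
  | ⟨9, _⟩ => e_266_x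
  | ⟨10, _⟩ => e_389_x
  | ⟨11, _⟩ => e_369_x
  | ⟨12, _⟩ => e_268_x
  | ⟨13, _⟩ => e_390_x
  | ⟨14, _⟩ => e_391_x
  | ⟨15, _⟩ => e_373_x
  | ⟨16, _⟩ => e_393_x
  | ⟨17, _⟩ => e_272_x
  | ⟨18, _⟩ => e_394_x
  | ⟨19, _⟩ => e_395_x
  | ⟨20, _⟩ => e_397_x
  | ⟨21, _⟩ => e_399_x
  | ⟨22, _⟩ => e_358_x
  | ⟨23, _⟩ => e_370_x
  | ⟨24, _⟩ => e_402_x
  | ⟨25, _⟩ => e_404_x
  | ⟨26, _⟩ => e_362_x
  | ⟨27, _⟩ => e_407_x
  | ⟨28, _⟩ => e_283_x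
  | ⟨29, _⟩ => e_410_x
  | ⟨30, _⟩ => e_285_x
  | ⟨31, _⟩ => e_382_x
  | ⟨32, _⟩ => e_287_x
  | ⟨33, _⟩ => e_415_x
  | ⟨34, _⟩ => e_289_x
  | ⟨35, _⟩ => e_290_x
  | ⟨36, _⟩ => e_291_x
  | ⟨37, _⟩ => e_419_x
  | ⟨38, _⟩ => e_292_x
  | ⟨39, _⟩ => e_421_x
  | ⟨40, _⟩ => e_392_x
  | ⟨41, _⟩ => e_294_x
  | ⟨42, _⟩ => e_422_x
  | ⟨43, _⟩ => e_337_x
  | ⟨44, _⟩ => e_296_x
  | ⟨45, _⟩ => e_400_x
  | ⟨46, _⟩ => e_388_x
  | ⟨47, _⟩ => e_341_x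
  | ⟨48, _⟩ => e_405_x
  | ⟨49, _⟩ => e_300_x
  | ⟨50, _⟩ => e_423_x
  | ⟨51, _⟩ => e_424_x
  | ⟨52, _⟩ => e_383_x
  | ⟨53, _⟩ => e_411_x
  | ⟨54, _⟩ => e_326_x
  | ⟨55, _⟩ => e_338_x
  | ⟨56, _⟩ => e_428_x
  | ⟨57, _⟩ => e_414_x
  | ⟨58, _⟩ => e_330_x
  | ⟨59, _⟩ => e_431_x
  | ⟨60, _⟩ => e_311_x
  | ⟨61, _⟩ => e_434_x
  | ⟨62, _⟩ => e_313_x
  | ⟨n+63, h⟩ => absurd h (by omega)
theorem pre_x_c6 : ∀ b : Fin 63, rep (px_x_c6 b) * x = rep_c6 b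
  | ⟨0, _⟩ => e_418_x
  | ⟨1, _⟩ => e_315_x
  | ⟨2, _⟩ => e_437_x
  | ⟨3, _⟩ => e_317_x
  | ⟨4, _⟩ => e_346_x
  | ⟨5, _⟩ => e_367_x
  | ⟨6, _⟩ => e_320_x
  | ⟨7, _⟩ => e_420_x
  | ⟨8, _⟩ => e_322_x
  | ⟨9, _⟩ => e_323_x
  | ⟨10, _⟩ => e_361_x
  | ⟨11, _⟩ => e_325_x
  | ⟨12, _⟩ => e_328_x
  | ⟨13, _⟩ => e_329_x
  | ⟨14, _⟩ => e_355_x
  | ⟨15, _⟩ => e_331_x
  | ⟨16, _⟩ => e_333_x
  | ⟨17, _⟩ => e_334_x
  | ⟨18, _⟩ => e_448_x
  | ⟨19, _⟩ => e_335_x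
  | ⟨20, _⟩ => e_435_x
  | ⟨21, _⟩ => e_336_x
  | ⟨22, _⟩ => e_360_x
  | ⟨23, _⟩ => e_450_x
  | ⟨24, _⟩ => e_339_x
  | ⟨25, _⟩ => e_438_x
  | ⟨26, _⟩ => e_340_x
  | ⟨27, _⟩ => e_363_x
  | ⟨28, _⟩ => e_452_x
  | ⟨29, _⟩ => e_342_x
  | ⟨30, _⟩ => e_454_x
  | ⟨31, _⟩ => e_445_x
  | ⟨32, _⟩ => e_344_x
  | ⟨33, _⟩ => e_368_x
  | ⟨34, _⟩ => e_426_x
  | ⟨35, _⟩ => e_446_x
  | ⟨36, _⟩ => e_372_x
  | ⟨37, _⟩ => e_348_x
  | ⟨38, _⟩ => e_429_x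
  | ⟨39, _⟩ => e_456_x
  | ⟨40, _⟩ => e_378_x
  | ⟨41, _⟩ => e_352_x
  | ⟨42, _⟩ => e_385_x
  | ⟨43, _⟩ => e_354_x
  | ⟨44, _⟩ => e_357_x
  | ⟨45, _⟩ => e_365_x
  | ⟨46, _⟩ => e_366_x
  | ⟨47, _⟩ => e_463_x
  | ⟨48, _⟩ => e_412_x
  | ⟨49, _⟩ => e_451_x
  | ⟨50, _⟩ => e_371_x
  | ⟨51, _⟩ => e_416_x
  | ⟨52, _⟩ => e_464_x
  | ⟨53, _⟩ => e_374_x
  | ⟨54, _⟩ => e_466_x
  | ⟨55, _⟩ => e_443_x
  | ⟨56, _⟩ => e_376_x
  | ⟨57, _⟩ => e_398_x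
  | ⟨58, _⟩ => e_461_x
  | ⟨59, _⟩ => e_380_x
  | ⟨60, _⟩ => e_403_x
  | ⟨61, _⟩ => e_468_x
  | ⟨62, _⟩ => e_455_x
  | ⟨n+63, h⟩ => absurd h (by omega)
theorem pre_x_c7 : ∀ b : Fin 63, rep (px_x_c7 b) * x = rep_c7 b
  | ⟨0, _⟩ => e_470_x
  | ⟨1, _⟩ => e_453_x
  | ⟨2, _⟩ => e_433_x
  | ⟨3, _⟩ => e_471_x
  | ⟨4, _⟩ => e_409_x
  | ⟨5, _⟩ => e_413_x
  | ⟨6, _⟩ => e_474_x
  | ⟨7, _⟩ => e_396_x
  | ⟨8, _⟩ => e_477_x
  | ⟨9, _⟩ => e_401_x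
  | ⟨10, _⟩ => e_427_x
  | ⟨11, _⟩ => e_406_x
  | ⟨12, _⟩ => e_442_x
  | ⟨13, _⟩ => e_408_x
  | ⟨14, _⟩ => e_440_x
  | ⟨15, _⟩ => e_417_x
  | ⟨16, _⟩ => e_483_x
  | ⟨17, _⟩ => e_467_x
  | ⟨18, _⟩ => e_465_x
  | ⟨19, _⟩ => e_484_x
  | ⟨20, _⟩ => e_436_x
  | ⟨21, _⟩ => e_486_x
  | ⟨22, _⟩ => e_425_x
  | ⟨23, _⟩ => e_430_x
  | ⟨24, _⟩ => e_459_x
  | ⟨25, _⟩ => e_432_x
  | ⟨26, _⟩ => e_458_x
  | ⟨27, _⟩ => e_439_x
  | ⟨28, _⟩ => e_473_x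
  | ⟨29, _⟩ => e_441_x
  | ⟨30, _⟩ => e_444_x
  | ⟨31, _⟩ => e_492_x
  | ⟨32, _⟩ => e_469_x
  | ⟨33, _⟩ => e_447_x
  | ⟨34, _⟩ => e_493_x
  | ⟨35, _⟩ => e_480_x
  | ⟨36, _⟩ => e_449_x
  | ⟨37, _⟩ => e_494_x
  | ⟨38, _⟩ => e_495_x
  | ⟨39, _⟩ => e_476_x
  | ⟨40, _⟩ => e_496_x
  | ⟨41, _⟩ => e_497_x
  | ⟨42, _⟩ => e_457_x
  | ⟨43, _⟩ => e_460_x
  | ⟨44, _⟩ => e_498_x
  | ⟨45, _⟩ => e_462_x
  | ⟨46, _⟩ => e_499_x
  | ⟨47, _⟩ => e_489_x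
  | ⟨48, _⟩ => e_488_x
  | ⟨49, _⟩ => e_500_x
  | ⟨50, _⟩ => e_501_x
  | ⟨51, _⟩ => e_472_x
  | ⟨52, _⟩ => e_475_x
  | ⟨53, _⟩ => e_478_x
  | ⟨54, _⟩ => e_479_x
  | ⟨55, _⟩ => e_481_x
  | ⟨56, _⟩ => e_482_x
  | ⟨57, _⟩ => e_485_x
  | ⟨58, _⟩ => e_487_x
  | ⟨59, _⟩ => e_490_x
  | ⟨60, _⟩ => e_491_x
  | ⟨61, _⟩ => e_503_x
  | ⟨62, _⟩ => e_502_x
  | ⟨n+63, h⟩ => absurd h (by omega)
theorem pre_x_ch : ∀ (a : Fin 8) (b : Fin 63), rep (px_x_ch a b) * x = rep_ch a b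
  | ⟨0, _⟩ => pre_x_c0
  | ⟨1, _⟩ => pre_x_c1
  | ⟨2, _⟩ => pre_x_c2
  | ⟨3, _⟩ => pre_x_c3
  | ⟨4, _⟩ => pre_x_c4
  | ⟨5, _⟩ => pre_x_c5
  | ⟨6, _⟩ => pre_x_c6
  | ⟨7, _⟩ => pre_x_c7
  | ⟨n+8, h⟩ => absurd h (by omega)
theorem pre_x (i : Idx) : rep (px_x i) * x = rep i :=
  pre_x_ch i.1 i.2
def nx_y_c0 : Fin 63 → Idx
  | ⟨0, _⟩ => (0, 2)
  | ⟨1, _⟩ => (0, 3)
  | ⟨2, _⟩ => (0, 5)
  | ⟨3, _⟩ => (0, 7)
  | ⟨4, _⟩ => (0, 8)
  | ⟨5, _⟩ => (0, 0)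
  | ⟨6, _⟩ => (0, 10)
  | ⟨7, _⟩ => (0, 1)
  | ⟨8, _⟩ => (0, 13)
  | ⟨9, _⟩ => (0, 14)
  | ⟨10, _⟩ => (0, 16)
  | ⟨11, _⟩ => (0, 17)
  | ⟨12, _⟩ => (0, 18)
  | ⟨13, _⟩ => (0, 4)
  | ⟨14, _⟩ => (0, 21)
  | ⟨15, _⟩ => (0, 22)
  | ⟨16, _⟩ => (0, 6)
  | ⟨17, _⟩ => (0, 25)
  | ⟨18, _⟩ => (0, 27)
  | ⟨19, _⟩ => (0, 28)
  | ⟨20, _⟩ => (0, 29)
  | ⟨21, _⟩ => (0, 9)
  | ⟨22, _⟩ => (0, 32)
  | ⟨23, _⟩ => (0, 33)
  | ⟨24, _⟩ => (0, 34)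
  | ⟨25, _⟩ => (0, 11)
  | ⟨26, _⟩ => (0, 36)
  | ⟨27, _⟩ => (0, 12)
  | ⟨28, _⟩ => (0, 39)
  | ⟨29, _⟩ => (0, 41)
  | ⟨30, _⟩ => (0, 42)
  | ⟨31, _⟩ => (0, 43)
  | ⟨32, _⟩ => (0, 15)
  | ⟨33, _⟩ => (0, 46)
  | ⟨34, _⟩ => (0, 48)
  | ⟨35, _⟩ => (0, 49)
  | ⟨36, _⟩ => (0, 51)
  | ⟨37, _⟩ => (0, 52)
  | ⟨38, _⟩ => (0, 53)
  | ⟨39, _⟩ => (0, 19)
  | ⟨40, _⟩ => (0, 55)
  | ⟨41, _⟩ => (0, 20)
  | ⟨42, _⟩ => (0, 58)
  | ⟨43, _⟩ => (0, 59)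
  | ⟨44, _⟩ => (0, 60)
  | ⟨45, _⟩ => (0, 61)
  | ⟨46, _⟩ => (0, 23)
  | ⟨47, _⟩ => (1, 0)
  | ⟨48, _⟩ => (0, 24)
  | ⟨49, _⟩ => (0, 50)
  | ⟨50, _⟩ => (0, 35)
  | ⟨51, _⟩ => (0, 26)
  | ⟨52, _⟩ => (1, 5)
  | ⟨53, _⟩ => (1, 7)
  | ⟨54, _⟩ => (1, 8)
  | ⟨55, _⟩ => (1, 10)
  | ⟨56, _⟩ => (1, 11)
  | ⟨57, _⟩ => (1, 12)
  | ⟨58, _⟩ => (0, 30)
  | ⟨59, _⟩ => (0, 31)
  | ⟨60, _⟩ => (1, 15)
  | ⟨61, _⟩ => (1, 17)
  | ⟨62, _⟩ => (1, 18)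
  | ⟨n+63, h⟩ => absurd h (by omega)
def nx_y_c1 : Fin 63 → Idx
  | ⟨0, _⟩ => (1, 20)
  | ⟨1, _⟩ => (1, 21)
  | ⟨2, _⟩ => (1, 22)
  | ⟨3, _⟩ => (1, 23)
  | ⟨4, _⟩ => (1, 24)
  | ⟨5, _⟩ => (0, 37)
  | ⟨6, _⟩ => (1, 26)
  | ⟨7, _⟩ => (0, 38)
  | ⟨8, _⟩ => (1, 9)
  | ⟨9, _⟩ => (0, 54)
  | ⟨10, _⟩ => (0, 40)
  | ⟨11, _⟩ => (1, 31)
  | ⟨12, _⟩ => (1, 33)
  | ⟨13, _⟩ => (1, 34)
  | ⟨14, _⟩ => (1, 35)
  | ⟨15, _⟩ => (0, 44)
  | ⟨16, _⟩ => (1, 37)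
  | ⟨17, _⟩ => (0, 45)
  | ⟨18, _⟩ => (1, 19)
  | ⟨19, _⟩ => (0, 62)
  | ⟨20, _⟩ => (0, 47)
  | ⟨21, _⟩ => (1, 42)
  | ⟨22, _⟩ => (1, 44)
  | ⟨23, _⟩ => (1, 46)
  | ⟨24, _⟩ => (1, 48)
  | ⟨25, _⟩ => (1, 49)
  | ⟨26, _⟩ => (1, 51)
  | ⟨27, _⟩ => (1, 52)
  | ⟨28, _⟩ => (1, 53)
  | ⟨29, _⟩ => (1, 54)
  | ⟨30, _⟩ => (1, 55)
  | ⟨31, _⟩ => (0, 56)
  | ⟨32, _⟩ => (1, 57)
  | ⟨33, _⟩ => (0, 57)
  | ⟨34, _⟩ => (1, 60)
  | ⟨35, _⟩ => (1, 62)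
  | ⟨36, _⟩ => (2, 0)
  | ⟨37, _⟩ => (2, 2)
  | ⟨38, _⟩ => (2, 3)
  | ⟨39, _⟩ => (2, 4)
  | ⟨40, _⟩ => (2, 5)
  | ⟨41, _⟩ => (2, 6)
  | ⟨42, _⟩ => (1, 1)
  | ⟨43, _⟩ => (2, 8)
  | ⟨44, _⟩ => (1, 2)
  | ⟨45, _⟩ => (2, 10)
  | ⟨46, _⟩ => (1, 3)
  | ⟨47, _⟩ => (2, 12)
  | ⟨48, _⟩ => (1, 4)
  | ⟨49, _⟩ => (1, 50)
  | ⟨50, _⟩ => (1, 25)
  | ⟨51, _⟩ => (1, 6)
  | ⟨52, _⟩ => (2, 17)
  | ⟨53, _⟩ => (2, 19)
  | ⟨54, _⟩ => (2, 21)
  | ⟨55, _⟩ => (2, 23)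
  | ⟨56, _⟩ => (2, 24)
  | ⟨57, _⟩ => (2, 26)
  | ⟨58, _⟩ => (2, 27)
  | ⟨59, _⟩ => (2, 28)
  | ⟨60, _⟩ => (1, 13)
  | ⟨61, _⟩ => (2, 30)
  | ⟨62, _⟩ => (1, 14)
  | ⟨n+63, h⟩ => absurd h (by omega)
def nx_y_c2 : Fin 63 → Idx
  | ⟨0, _⟩ => (2, 1)
  | ⟨1, _⟩ => (1, 36)
  | ⟨2, _⟩ => (1, 16)
  | ⟨3, _⟩ => (2, 35)
  | ⟨4, _⟩ => (2, 37)
  | ⟨5, _⟩ => (2, 39)
  | ⟨6, _⟩ => (2, 41)
  | ⟨7, _⟩ => (2, 42)
  | ⟨8, _⟩ => (2, 44)
  | ⟨9, _⟩ => (2, 45)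
  | ⟨10, _⟩ => (2, 47)
  | ⟨11, _⟩ => (2, 48)
  | ⟨12, _⟩ => (2, 50)
  | ⟨13, _⟩ => (2, 51)
  | ⟨14, _⟩ => (2, 52)
  | ⟨15, _⟩ => (2, 53)
  | ⟨16, _⟩ => (2, 54)
  | ⟨17, _⟩ => (1, 27)
  | ⟨18, _⟩ => (2, 56)
  | ⟨19, _⟩ => (1, 28)
  | ⟨20, _⟩ => (2, 58)
  | ⟨21, _⟩ => (1, 29)
  | ⟨22, _⟩ => (2, 60)
  | ⟨23, _⟩ => (1, 30)
  | ⟨24, _⟩ => (2, 25)
  | ⟨25, _⟩ => (1, 56)
  | ⟨26, _⟩ => (1, 32)
  | ⟨27, _⟩ => (3, 2)
  | ⟨28, _⟩ => (3, 4)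
  | ⟨29, _⟩ => (3, 5)
  | ⟨30, _⟩ => (3, 7)
  | ⟨31, _⟩ => (3, 8)
  | ⟨32, _⟩ => (3, 9)
  | ⟨33, _⟩ => (3, 10)
  | ⟨34, _⟩ => (3, 11)
  | ⟨35, _⟩ => (1, 38)
  | ⟨36, _⟩ => (3, 13)
  | ⟨37, _⟩ => (1, 39)
  | ⟨38, _⟩ => (3, 15)
  | ⟨39, _⟩ => (1, 40)
  | ⟨40, _⟩ => (3, 17)
  | ⟨41, _⟩ => (1, 41)
  | ⟨42, _⟩ => (2, 43)
  | ⟨43, _⟩ => (2, 7)
  | ⟨44, _⟩ => (1, 43)
  | ⟨45, _⟩ => (3, 22)
  | ⟨46, _⟩ => (3, 23)
  | ⟨47, _⟩ => (1, 45)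
  | ⟨48, _⟩ => (2, 49)
  | ⟨49, _⟩ => (2, 11)
  | ⟨50, _⟩ => (1, 47)
  | ⟨51, _⟩ => (3, 28)
  | ⟨52, _⟩ => (3, 30)
  | ⟨53, _⟩ => (3, 32)
  | ⟨54, _⟩ => (3, 34)
  | ⟨55, _⟩ => (3, 35)
  | ⟨56, _⟩ => (3, 37)
  | ⟨57, _⟩ => (3, 38)
  | ⟨58, _⟩ => (3, 40)
  | ⟨59, _⟩ => (3, 41)
  | ⟨60, _⟩ => (3, 43)
  | ⟨61, _⟩ => (3, 44)
  | ⟨62, _⟩ => (3, 45)
  | ⟨n+63, h⟩ => absurd h (by omega)
def nx_y_c3 : Fin 63 → Idx
  | ⟨0, _⟩ => (3, 46)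
  | ⟨1, _⟩ => (3, 47)
  | ⟨2, _⟩ => (1, 58)
  | ⟨3, _⟩ => (3, 48)
  | ⟨4, _⟩ => (1, 59)
  | ⟨5, _⟩ => (3, 6)
  | ⟨6, _⟩ => (2, 29)
  | ⟨7, _⟩ => (1, 61)
  | ⟨8, _⟩ => (3, 53)
  | ⟨9, _⟩ => (3, 55)
  | ⟨10, _⟩ => (3, 57)
  | ⟨11, _⟩ => (3, 59)
  | ⟨12, _⟩ => (3, 60)
  | ⟨13, _⟩ => (3, 62)
  | ⟨14, _⟩ => (4, 0)
  | ⟨15, _⟩ => (4, 2)
  | ⟨16, _⟩ => (4, 3)
  | ⟨17, _⟩ => (4, 5)
  | ⟨18, _⟩ => (4, 6)
  | ⟨19, _⟩ => (4, 7)
  | ⟨20, _⟩ => (4, 8)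
  | ⟨21, _⟩ => (4, 9)
  | ⟨22, _⟩ => (2, 9)
  | ⟨23, _⟩ => (4, 10)
  | ⟨24, _⟩ => (4, 11)
  | ⟨25, _⟩ => (4, 12)
  | ⟨26, _⟩ => (4, 13)
  | ⟨27, _⟩ => (4, 14)
  | ⟨28, _⟩ => (2, 13)
  | ⟨29, _⟩ => (4, 16)
  | ⟨30, _⟩ => (2, 14)
  | ⟨31, _⟩ => (4, 18)
  | ⟨32, _⟩ => (2, 15)
  | ⟨33, _⟩ => (4, 20)
  | ⟨34, _⟩ => (2, 16)
  | ⟨35, _⟩ => (3, 36)
  | ⟨36, _⟩ => (2, 55)
  | ⟨37, _⟩ => (2, 18)
  | ⟨38, _⟩ => (4, 25)
  | ⟨39, _⟩ => (4, 26)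
  | ⟨40, _⟩ => (2, 20)
  | ⟨41, _⟩ => (3, 42)
  | ⟨42, _⟩ => (2, 59)
  | ⟨43, _⟩ => (2, 22)
  | ⟨44, _⟩ => (4, 31)
  | ⟨45, _⟩ => (4, 33)
  | ⟨46, _⟩ => (4, 35)
  | ⟨47, _⟩ => (4, 37)
  | ⟨48, _⟩ => (4, 38)
  | ⟨49, _⟩ => (4, 39)
  | ⟨50, _⟩ => (4, 40)
  | ⟨51, _⟩ => (4, 41)
  | ⟨52, _⟩ => (4, 42)
  | ⟨53, _⟩ => (2, 31)
  | ⟨54, _⟩ => (4, 44)
  | ⟨55, _⟩ => (2, 32)
  | ⟨56, _⟩ => (4, 46)
  | ⟨57, _⟩ => (2, 33)
  | ⟨58, _⟩ => (4, 48)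
  | ⟨59, _⟩ => (2, 34)
  | ⟨60, _⟩ => (3, 61)
  | ⟨61, _⟩ => (3, 12)
  | ⟨62, _⟩ => (2, 36)
  | ⟨n+63, h⟩ => absurd h (by omega)
def nx_y_c4 : Fin 63 → Idx
  | ⟨0, _⟩ => (4, 53)
  | ⟨1, _⟩ => (4, 54)
  | ⟨2, _⟩ => (2, 38)
  | ⟨3, _⟩ => (4, 4)
  | ⟨4, _⟩ => (3, 16)
  | ⟨5, _⟩ => (2, 40)
  | ⟨6, _⟩ => (4, 59)
  | ⟨7, _⟩ => (4, 61)
  | ⟨8, _⟩ => (5, 0)
  | ⟨9, _⟩ => (5, 2)
  | ⟨10, _⟩ => (2, 46)
  | ⟨11, _⟩ => (5, 5)
  | ⟨12, _⟩ => (5, 7)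
  | ⟨13, _⟩ => (5, 8)
  | ⟨14, _⟩ => (5, 10)
  | ⟨15, _⟩ => (5, 11)
  | ⟨16, _⟩ => (5, 13)
  | ⟨17, _⟩ => (5, 14)
  | ⟨18, _⟩ => (5, 15)
  | ⟨19, _⟩ => (5, 16)
  | ⟨20, _⟩ => (5, 18)
  | ⟨21, _⟩ => (5, 19)
  | ⟨22, _⟩ => (5, 20)
  | ⟨23, _⟩ => (5, 21)
  | ⟨24, _⟩ => (5, 22)
  | ⟨25, _⟩ => (2, 57)
  | ⟨26, _⟩ => (5, 23)
  | ⟨27, _⟩ => (5, 24)
  | ⟨28, _⟩ => (5, 25)
  | ⟨29, _⟩ => (5, 26)
  | ⟨30, _⟩ => (5, 27)
  | ⟨31, _⟩ => (2, 61)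
  | ⟨32, _⟩ => (5, 29)
  | ⟨33, _⟩ => (2, 62)
  | ⟨34, _⟩ => (5, 31)
  | ⟨35, _⟩ => (3, 0)
  | ⟨36, _⟩ => (5, 33)
  | ⟨37, _⟩ => (3, 1)
  | ⟨38, _⟩ => (3, 3)
  | ⟨39, _⟩ => (5, 37)
  | ⟨40, _⟩ => (5, 39)
  | ⟨41, _⟩ => (5, 40)
  | ⟨42, _⟩ => (5, 42)
  | ⟨43, _⟩ => (5, 43)
  | ⟨44, _⟩ => (5, 45)
  | ⟨45, _⟩ => (5, 46)
  | ⟨46, _⟩ => (5, 47)
  | ⟨47, _⟩ => (5, 48)
  | ⟨48, _⟩ => (5, 50)
  | ⟨49, _⟩ => (5, 51)
  | ⟨50, _⟩ => (5, 52)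
  | ⟨51, _⟩ => (5, 53)
  | ⟨52, _⟩ => (5, 54)
  | ⟨53, _⟩ => (3, 14)
  | ⟨54, _⟩ => (5, 55)
  | ⟨55, _⟩ => (5, 56)
  | ⟨56, _⟩ => (5, 57)
  | ⟨57, _⟩ => (5, 58)
  | ⟨58, _⟩ => (5, 59)
  | ⟨59, _⟩ => (3, 18)
  | ⟨60, _⟩ => (5, 61)
  | ⟨61, _⟩ => (3, 19)
  | ⟨62, _⟩ => (6, 0)
  | ⟨n+63, h⟩ => absurd h (by omega)
def nx_y_c5 : Fin 63 → Idx
  | ⟨0, _⟩ => (3, 20)
  | ⟨1, _⟩ => (6, 2)
  | ⟨2, _⟩ => (3, 21)
  | ⟨3, _⟩ => (6, 4)
  | ⟨4, _⟩ => (6, 5)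
  | ⟨5, _⟩ => (3, 24)
  | ⟨6, _⟩ => (6, 7)
  | ⟨7, _⟩ => (3, 25)
  | ⟨8, _⟩ => (3, 26)
  | ⟨9, _⟩ => (6, 10)
  | ⟨10, _⟩ => (3, 27)
  | ⟨11, _⟩ => (5, 12)
  | ⟨12, _⟩ => (4, 15)
  | ⟨13, _⟩ => (3, 29)
  | ⟨14, _⟩ => (6, 14)
  | ⟨15, _⟩ => (3, 31)
  | ⟨16, _⟩ => (5, 17)
  | ⟨17, _⟩ => (4, 19)
  | ⟨18, _⟩ => (3, 33)
  | ⟨19, _⟩ => (6, 18)
  | ⟨20, _⟩ => (6, 20)
  | ⟨21, _⟩ => (6, 22)
  | ⟨22, _⟩ => (6, 23)
  | ⟨23, _⟩ => (3, 39)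
  | ⟨24, _⟩ => (6, 25)
  | ⟨25, _⟩ => (6, 27)
  | ⟨26, _⟩ => (6, 28)
  | ⟨27, _⟩ => (6, 30)
  | ⟨28, _⟩ => (6, 31)
  | ⟨29, _⟩ => (6, 33)
  | ⟨30, _⟩ => (6, 34)
  | ⟨31, _⟩ => (6, 35)
  | ⟨32, _⟩ => (6, 36)
  | ⟨33, _⟩ => (6, 38)
  | ⟨34, _⟩ => (6, 39)
  | ⟨35, _⟩ => (6, 40)
  | ⟨36, _⟩ => (6, 19)
  | ⟨37, _⟩ => (3, 49)
  | ⟨38, _⟩ => (6, 42)
  | ⟨39, _⟩ => (3, 50)
  | ⟨40, _⟩ => (3, 51)
  | ⟨41, _⟩ => (6, 13)
  | ⟨42, _⟩ => (3, 52)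
  | ⟨43, _⟩ => (5, 44)
  | ⟨44, _⟩ => (4, 43)
  | ⟨45, _⟩ => (3, 54)
  | ⟨46, _⟩ => (6, 9)
  | ⟨47, _⟩ => (3, 56)
  | ⟨48, _⟩ => (5, 49)
  | ⟨49, _⟩ => (4, 47)
  | ⟨50, _⟩ => (3, 58)
  | ⟨51, _⟩ => (6, 47)
  | ⟨52, _⟩ => (6, 48)
  | ⟨53, _⟩ => (6, 12)
  | ⟨54, _⟩ => (6, 49)
  | ⟨55, _⟩ => (4, 1)
  | ⟨56, _⟩ => (6, 51)
  | ⟨57, _⟩ => (6, 15)
  | ⟨58, _⟩ => (6, 52)
  | ⟨59, _⟩ => (6, 54)
  | ⟨60, _⟩ => (6, 55)
  | ⟨61, _⟩ => (6, 21)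
  | ⟨62, _⟩ => (6, 57)
  | ⟨n+63, h⟩ => absurd h (by omega)
def nx_y_c6 : Fin 63 → Idx
  | ⟨0, _⟩ => (6, 58)
  | ⟨1, _⟩ => (6, 26)
  | ⟨2, _⟩ => (6, 60)
  | ⟨3, _⟩ => (6, 61)
  | ⟨4, _⟩ => (6, 62)
  | ⟨5, _⟩ => (7, 0)
  | ⟨6, _⟩ => (5, 38)
  | ⟨7, _⟩ => (6, 41)
  | ⟨8, _⟩ => (7, 1)
  | ⟨9, _⟩ => (4, 45)
  | ⟨10, _⟩ => (7, 2)
  | ⟨11, _⟩ => (7, 3)
  | ⟨12, _⟩ => (4, 51)
  | ⟨13, _⟩ => (7, 4)
  | ⟨14, _⟩ => (4, 17)
  | ⟨15, _⟩ => (4, 56)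
  | ⟨16, _⟩ => (7, 5)
  | ⟨17, _⟩ => (7, 6)
  | ⟨18, _⟩ => (4, 21)
  | ⟨19, _⟩ => (7, 8)
  | ⟨20, _⟩ => (4, 22)
  | ⟨21, _⟩ => (4, 60)
  | ⟨22, _⟩ => (4, 23)
  | ⟨23, _⟩ => (4, 24)
  | ⟨24, _⟩ => (7, 10)
  | ⟨25, _⟩ => (4, 27)
  | ⟨26, _⟩ => (6, 59)
  | ⟨27, _⟩ => (4, 28)
  | ⟨28, _⟩ => (4, 29)
  | ⟨29, _⟩ => (7, 12)
  | ⟨30, _⟩ => (4, 30)
  | ⟨31, _⟩ => (6, 32)
  | ⟨32, _⟩ => (5, 28)
  | ⟨33, _⟩ => (4, 32)
  | ⟨34, _⟩ => (7, 14)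
  | ⟨35, _⟩ => (4, 34)
  | ⟨36, _⟩ => (6, 37)
  | ⟨37, _⟩ => (5, 32)
  | ⟨38, _⟩ => (4, 36)
  | ⟨39, _⟩ => (7, 16)
  | ⟨40, _⟩ => (7, 17)
  | ⟨41, _⟩ => (5, 6)
  | ⟨42, _⟩ => (6, 6)
  | ⟨43, _⟩ => (7, 18)
  | ⟨44, _⟩ => (7, 19)
  | ⟨45, _⟩ => (7, 20)
  | ⟨46, _⟩ => (7, 21)
  | ⟨47, _⟩ => (4, 49)
  | ⟨48, _⟩ => (4, 50)
  | ⟨49, _⟩ => (4, 52)
  | ⟨50, _⟩ => (7, 9)
  | ⟨51, _⟩ => (4, 55)
  | ⟨52, _⟩ => (4, 57)
  | ⟨53, _⟩ => (7, 24)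
  | ⟨54, _⟩ => (4, 58)
  | ⟨55, _⟩ => (6, 56)
  | ⟨56, _⟩ => (5, 60)
  | ⟨57, _⟩ => (7, 26)
  | ⟨58, _⟩ => (4, 62)
  | ⟨59, _⟩ => (6, 1)
  | ⟨60, _⟩ => (5, 1)
  | ⟨61, _⟩ => (7, 28)
  | ⟨62, _⟩ => (5, 3)
  | ⟨n+63, h⟩ => absurd h (by omega)
def nx_y_c7 : Fin 63 → Idx
  | ⟨0, _⟩ => (5, 4)
  | ⟨1, _⟩ => (7, 11)
  | ⟨2, _⟩ => (5, 9)
  | ⟨3, _⟩ => (7, 31)
  | ⟨4, _⟩ => (5, 41)
  | ⟨5, _⟩ => (7, 32)
  | ⟨6, _⟩ => (7, 34)
  | ⟨7, _⟩ => (7, 35)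
  | ⟨8, _⟩ => (5, 36)
  | ⟨9, _⟩ => (7, 37)
  | ⟨10, _⟩ => (7, 38)
  | ⟨11, _⟩ => (6, 8)
  | ⟨12, _⟩ => (7, 39)
  | ⟨13, _⟩ => (7, 40)
  | ⟨14, _⟩ => (5, 30)
  | ⟨15, _⟩ => (7, 41)
  | ⟨16, _⟩ => (5, 34)
  | ⟨17, _⟩ => (5, 35)
  | ⟨18, _⟩ => (7, 23)
  | ⟨19, _⟩ => (7, 44)
  | ⟨20, _⟩ => (7, 42)
  | ⟨21, _⟩ => (7, 46)
  | ⟨22, _⟩ => (7, 47)
  | ⟨23, _⟩ => (6, 43)
  | ⟨24, _⟩ => (7, 48)
  | ⟨25, _⟩ => (7, 49)
  | ⟨26, _⟩ => (5, 62)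
  | ⟨27, _⟩ => (7, 50)
  | ⟨28, _⟩ => (6, 3)
  | ⟨29, _⟩ => (7, 22)
  | ⟨30, _⟩ => (7, 25)
  | ⟨31, _⟩ => (6, 11)
  | ⟨32, _⟩ => (6, 16)
  | ⟨33, _⟩ => (7, 27)
  | ⟨34, _⟩ => (6, 17)
  | ⟨35, _⟩ => (7, 36)
  | ⟨36, _⟩ => (7, 7)
  | ⟨37, _⟩ => (6, 50)
  | ⟨38, _⟩ => (6, 24)
  | ⟨39, _⟩ => (6, 29)
  | ⟨40, _⟩ => (7, 43)
  | ⟨41, _⟩ => (7, 45)
  | ⟨42, _⟩ => (6, 45)
  | ⟨43, _⟩ => (7, 13)
  | ⟨44, _⟩ => (6, 44)
  | ⟨45, _⟩ => (7, 15)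
  | ⟨46, _⟩ => (6, 46)
  | ⟨47, _⟩ => (7, 29)
  | ⟨48, _⟩ => (6, 53)
  | ⟨49, _⟩ => (7, 30)
  | ⟨50, _⟩ => (7, 33)
  | ⟨51, _⟩ => (7, 60)
  | ⟨52, _⟩ => (7, 61)
  | ⟨53, _⟩ => (7, 57)
  | ⟨54, _⟩ => (7, 51)
  | ⟨55, _⟩ => (7, 52)
  | ⟨56, _⟩ => (7, 53)
  | ⟨57, _⟩ => (7, 56)
  | ⟨58, _⟩ => (7, 62)
  | ⟨59, _⟩ => (7, 58)
  | ⟨60, _⟩ => (7, 54)
  | ⟨61, _⟩ => (7, 55)
  | ⟨62, _⟩ => (7, 59)
  | ⟨n+63, h⟩ => absurd h (by omega)
def nx_y_ch : Fin 8 → Fin 63 → Idx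
  | ⟨0, _⟩ => nx_y_c0
  | ⟨1, _⟩ => nx_y_c1
  | ⟨2, _⟩ => nx_y_c2
  | ⟨3, _⟩ => nx_y_c3
  | ⟨4, _⟩ => nx_y_c4
  | ⟨5, _⟩ => nx_y_c5
  | ⟨6, _⟩ => nx_y_c6
  | ⟨7, _⟩ => nx_y_c7
  | ⟨n+8, h⟩ => absurd h (by omega)
def nx_y (i : Idx) : Idx := nx_y_ch i.1 i.2
def px_y_c0 : Fin 63 → Idx
  | ⟨0, _⟩ => (0, 5)
  | ⟨1, _⟩ => (0, 7)
  | ⟨2, _⟩ => (0, 0)
  | ⟨3, _⟩ => (0, 1)
  | ⟨4, _⟩ => (0, 13)
  | ⟨5, _⟩ => (0, 2)
  | ⟨6, _⟩ => (0, 16)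
  | ⟨7, _⟩ => (0, 3)
  | ⟨8, _⟩ => (0, 4)
  | ⟨9, _⟩ => (0, 21)
  | ⟨10, _⟩ => (0, 6)
  | ⟨11, _⟩ => (0, 25)
  | ⟨12, _⟩ => (0, 27)
  | ⟨13, _⟩ => (0, 8)
  | ⟨14, _⟩ => (0, 9)
  | ⟨15, _⟩ => (0, 32)
  | ⟨16, _⟩ => (0, 10)
  | ⟨17, _⟩ => (0, 11)
  | ⟨18, _⟩ => (0, 12)
  | ⟨19, _⟩ => (0, 39)
  | ⟨20, _⟩ => (0, 41)
  | ⟨21, _⟩ => (0, 14)
  | ⟨22, _⟩ => (0, 15)
  | ⟨23, _⟩ => (0, 46)
  | ⟨24, _⟩ => (0, 48)
  | ⟨25, _⟩ => (0, 17)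
  | ⟨26, _⟩ => (0, 51)
  | ⟨27, _⟩ => (0, 18)
  | ⟨28, _⟩ => (0, 19)
  | ⟨29, _⟩ => (0, 20)
  | ⟨30, _⟩ => (0, 58)
  | ⟨31, _⟩ => (0, 59)
  | ⟨32, _⟩ => (0, 22)
  | ⟨33, _⟩ => (0, 23)
  | ⟨34, _⟩ => (0, 24)
  | ⟨35, _⟩ => (0, 50)
  | ⟨36, _⟩ => (0, 26)
  | ⟨37, _⟩ => (1, 5)
  | ⟨38, _⟩ => (1, 7)
  | ⟨39, _⟩ => (0, 28)
  | ⟨40, _⟩ => (1, 10)
  | ⟨41, _⟩ => (0, 29)
  | ⟨42, _⟩ => (0, 30)
  | ⟨43, _⟩ => (0, 31)
  | ⟨44, _⟩ => (1, 15)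
  | ⟨45, _⟩ => (1, 17)
  | ⟨46, _⟩ => (0, 33)
  | ⟨47, _⟩ => (1, 20)
  | ⟨48, _⟩ => (0, 34)
  | ⟨49, _⟩ => (0, 35)
  | ⟨50, _⟩ => (0, 49)
  | ⟨51, _⟩ => (0, 36)
  | ⟨52, _⟩ => (0, 37)
  | ⟨53, _⟩ => (0, 38)
  | ⟨54, _⟩ => (1, 9)
  | ⟨55, _⟩ => (0, 40)
  | ⟨56, _⟩ => (1, 31)
  | ⟨57, _⟩ => (1, 33)
  | ⟨58, _⟩ => (0, 42)
  | ⟨59, _⟩ => (0, 43)
  | ⟨60, _⟩ => (0, 44)
  | ⟨61, _⟩ => (0, 45)
  | ⟨62, _⟩ => (1, 19)
  | ⟨n+63, h⟩ => absurd h (by omega)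
def px_y_c1 : Fin 63 → Idx
  | ⟨0, _⟩ => (0, 47)
  | ⟨1, _⟩ => (1, 42)
  | ⟨2, _⟩ => (1, 44)
  | ⟨3, _⟩ => (1, 46)
  | ⟨4, _⟩ => (1, 48)
  | ⟨5, _⟩ => (0, 52)
  | ⟨6, _⟩ => (1, 51)
  | ⟨7, _⟩ => (0, 53)
  | ⟨8, _⟩ => (0, 54)
  | ⟨9, _⟩ => (1, 8)
  | ⟨10, _⟩ => (0, 55)
  | ⟨11, _⟩ => (0, 56)
  | ⟨12, _⟩ => (0, 57)
  | ⟨13, _⟩ => (1, 60)
  | ⟨14, _⟩ => (1, 62)
  | ⟨15, _⟩ => (0, 60)
  | ⟨16, _⟩ => (2, 2)
  | ⟨17, _⟩ => (0, 61)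
  | ⟨18, _⟩ => (0, 62)
  | ⟨19, _⟩ => (1, 18)
  | ⟨20, _⟩ => (1, 0)
  | ⟨21, _⟩ => (1, 1)
  | ⟨22, _⟩ => (1, 2)
  | ⟨23, _⟩ => (1, 3)
  | ⟨24, _⟩ => (1, 4)
  | ⟨25, _⟩ => (1, 50)
  | ⟨26, _⟩ => (1, 6)
  | ⟨27, _⟩ => (2, 17)
  | ⟨28, _⟩ => (2, 19)
  | ⟨29, _⟩ => (2, 21)
  | ⟨30, _⟩ => (2, 23)
  | ⟨31, _⟩ => (1, 11)
  | ⟨32, _⟩ => (2, 26)
  | ⟨33, _⟩ => (1, 12)
  | ⟨34, _⟩ => (1, 13)
  | ⟨35, _⟩ => (1, 14)
  | ⟨36, _⟩ => (2, 1)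
  | ⟨37, _⟩ => (1, 16)
  | ⟨38, _⟩ => (2, 35)
  | ⟨39, _⟩ => (2, 37)
  | ⟨40, _⟩ => (2, 39)
  | ⟨41, _⟩ => (2, 41)
  | ⟨42, _⟩ => (1, 21)
  | ⟨43, _⟩ => (2, 44)
  | ⟨44, _⟩ => (1, 22)
  | ⟨45, _⟩ => (2, 47)
  | ⟨46, _⟩ => (1, 23)
  | ⟨47, _⟩ => (2, 50)
  | ⟨48, _⟩ => (1, 24)
  | ⟨49, _⟩ => (1, 25)
  | ⟨50, _⟩ => (1, 49)
  | ⟨51, _⟩ => (1, 26)
  | ⟨52, _⟩ => (1, 27)
  | ⟨53, _⟩ => (1, 28)
  | ⟨54, _⟩ => (1, 29)
  | ⟨55, _⟩ => (1, 30)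
  | ⟨56, _⟩ => (2, 25)
  | ⟨57, _⟩ => (1, 32)
  | ⟨58, _⟩ => (3, 2)
  | ⟨59, _⟩ => (3, 4)
  | ⟨60, _⟩ => (1, 34)
  | ⟨61, _⟩ => (3, 7)
  | ⟨62, _⟩ => (1, 35)
  | ⟨n+63, h⟩ => absurd h (by omega)
def px_y_c2 : Fin 63 → Idx
  | ⟨0, _⟩ => (1, 36)
  | ⟨1, _⟩ => (2, 0)
  | ⟨2, _⟩ => (1, 37)
  | ⟨3, _⟩ => (1, 38)
  | ⟨4, _⟩ => (1, 39)
  | ⟨5, _⟩ => (1, 40)
  | ⟨6, _⟩ => (1, 41)
  | ⟨7, _⟩ => (2, 43)
  | ⟨8, _⟩ => (1, 43)
  | ⟨9, _⟩ => (3, 22)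
  | ⟨10, _⟩ => (1, 45)
  | ⟨11, _⟩ => (2, 49)
  | ⟨12, _⟩ => (1, 47)
  | ⟨13, _⟩ => (3, 28)
  | ⟨14, _⟩ => (3, 30)
  | ⟨15, _⟩ => (3, 32)
  | ⟨16, _⟩ => (3, 34)
  | ⟨17, _⟩ => (1, 52)
  | ⟨18, _⟩ => (3, 37)
  | ⟨19, _⟩ => (1, 53)
  | ⟨20, _⟩ => (3, 40)
  | ⟨21, _⟩ => (1, 54)
  | ⟨22, _⟩ => (3, 43)
  | ⟨23, _⟩ => (1, 55)
  | ⟨24, _⟩ => (1, 56)
  | ⟨25, _⟩ => (2, 24)
  | ⟨26, _⟩ => (1, 57)
  | ⟨27, _⟩ => (1, 58)
  | ⟨28, _⟩ => (1, 59)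
  | ⟨29, _⟩ => (3, 6)
  | ⟨30, _⟩ => (1, 61)
  | ⟨31, _⟩ => (3, 53)
  | ⟨32, _⟩ => (3, 55)
  | ⟨33, _⟩ => (3, 57)
  | ⟨34, _⟩ => (3, 59)
  | ⟨35, _⟩ => (2, 3)
  | ⟨36, _⟩ => (3, 62)
  | ⟨37, _⟩ => (2, 4)
  | ⟨38, _⟩ => (4, 2)
  | ⟨39, _⟩ => (2, 5)
  | ⟨40, _⟩ => (4, 5)
  | ⟨41, _⟩ => (2, 6)
  | ⟨42, _⟩ => (2, 7)
  | ⟨43, _⟩ => (2, 42)
  | ⟨44, _⟩ => (2, 8)
  | ⟨45, _⟩ => (2, 9)
  | ⟨46, _⟩ => (4, 10)
  | ⟨47, _⟩ => (2, 10)
  | ⟨48, _⟩ => (2, 11)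
  | ⟨49, _⟩ => (2, 48)
  | ⟨50, _⟩ => (2, 12)
  | ⟨51, _⟩ => (2, 13)
  | ⟨52, _⟩ => (2, 14)
  | ⟨53, _⟩ => (2, 15)
  | ⟨54, _⟩ => (2, 16)
  | ⟨55, _⟩ => (3, 36)
  | ⟨56, _⟩ => (2, 18)
  | ⟨57, _⟩ => (4, 25)
  | ⟨58, _⟩ => (2, 20)
  | ⟨59, _⟩ => (3, 42)
  | ⟨60, _⟩ => (2, 22)
  | ⟨61, _⟩ => (4, 31)
  | ⟨62, _⟩ => (4, 33)
  | ⟨n+63, h⟩ => absurd h (by omega)
def px_y_c3 : Fin 63 → Idx
  | ⟨0, _⟩ => (4, 35)
  | ⟨1, _⟩ => (4, 37)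
  | ⟨2, _⟩ => (2, 27)
  | ⟨3, _⟩ => (4, 38)
  | ⟨4, _⟩ => (2, 28)
  | ⟨5, _⟩ => (2, 29)
  | ⟨6, _⟩ => (3, 5)
  | ⟨7, _⟩ => (2, 30)
  | ⟨8, _⟩ => (2, 31)
  | ⟨9, _⟩ => (2, 32)
  | ⟨10, _⟩ => (2, 33)
  | ⟨11, _⟩ => (2, 34)
  | ⟨12, _⟩ => (3, 61)
  | ⟨13, _⟩ => (2, 36)
  | ⟨14, _⟩ => (4, 53)
  | ⟨15, _⟩ => (2, 38)
  | ⟨16, _⟩ => (4, 4)
  | ⟨17, _⟩ => (2, 40)
  | ⟨18, _⟩ => (4, 59)
  | ⟨19, _⟩ => (4, 61)
  | ⟨20, _⟩ => (5, 0)
  | ⟨21, _⟩ => (5, 2)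
  | ⟨22, _⟩ => (2, 45)
  | ⟨23, _⟩ => (2, 46)
  | ⟨24, _⟩ => (5, 5)
  | ⟨25, _⟩ => (5, 7)
  | ⟨26, _⟩ => (5, 8)
  | ⟨27, _⟩ => (5, 10)
  | ⟨28, _⟩ => (2, 51)
  | ⟨29, _⟩ => (5, 13)
  | ⟨30, _⟩ => (2, 52)
  | ⟨31, _⟩ => (5, 15)
  | ⟨32, _⟩ => (2, 53)
  | ⟨33, _⟩ => (5, 18)
  | ⟨34, _⟩ => (2, 54)
  | ⟨35, _⟩ => (2, 55)
  | ⟨36, _⟩ => (3, 35)
  | ⟨37, _⟩ => (2, 56)
  | ⟨38, _⟩ => (2, 57)
  | ⟨39, _⟩ => (5, 23)
  | ⟨40, _⟩ => (2, 58)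
  | ⟨41, _⟩ => (2, 59)
  | ⟨42, _⟩ => (3, 41)
  | ⟨43, _⟩ => (2, 60)
  | ⟨44, _⟩ => (2, 61)
  | ⟨45, _⟩ => (2, 62)
  | ⟨46, _⟩ => (3, 0)
  | ⟨47, _⟩ => (3, 1)
  | ⟨48, _⟩ => (3, 3)
  | ⟨49, _⟩ => (5, 37)
  | ⟨50, _⟩ => (5, 39)
  | ⟨51, _⟩ => (5, 40)
  | ⟨52, _⟩ => (5, 42)
  | ⟨53, _⟩ => (3, 8)
  | ⟨54, _⟩ => (5, 45)
  | ⟨55, _⟩ => (3, 9)
  | ⟨56, _⟩ => (5, 47)
  | ⟨57, _⟩ => (3, 10)
  | ⟨58, _⟩ => (5, 50)
  | ⟨59, _⟩ => (3, 11)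
  | ⟨60, _⟩ => (3, 12)
  | ⟨61, _⟩ => (3, 60)
  | ⟨62, _⟩ => (3, 13)
  | ⟨n+63, h⟩ => absurd h (by omega)
def px_y_c4 : Fin 63 → Idx
  | ⟨0, _⟩ => (3, 14)
  | ⟨1, _⟩ => (5, 55)
  | ⟨2, _⟩ => (3, 15)
  | ⟨3, _⟩ => (3, 16)
  | ⟨4, _⟩ => (4, 3)
  | ⟨5, _⟩ => (3, 17)
  | ⟨6, _⟩ => (3, 18)
  | ⟨7, _⟩ => (3, 19)
  | ⟨8, _⟩ => (3, 20)
  | ⟨9, _⟩ => (3, 21)
  | ⟨10, _⟩ => (3, 23)
  | ⟨11, _⟩ => (3, 24)
  | ⟨12, _⟩ => (3, 25)
  | ⟨13, _⟩ => (3, 26)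
  | ⟨14, _⟩ => (3, 27)
  | ⟨15, _⟩ => (5, 12)
  | ⟨16, _⟩ => (3, 29)
  | ⟨17, _⟩ => (6, 14)
  | ⟨18, _⟩ => (3, 31)
  | ⟨19, _⟩ => (5, 17)
  | ⟨20, _⟩ => (3, 33)
  | ⟨21, _⟩ => (6, 18)
  | ⟨22, _⟩ => (6, 20)
  | ⟨23, _⟩ => (6, 22)
  | ⟨24, _⟩ => (6, 23)
  | ⟨25, _⟩ => (3, 38)
  | ⟨26, _⟩ => (3, 39)
  | ⟨27, _⟩ => (6, 25)
  | ⟨28, _⟩ => (6, 27)
  | ⟨29, _⟩ => (6, 28)
  | ⟨30, _⟩ => (6, 30)
  | ⟨31, _⟩ => (3, 44)
  | ⟨32, _⟩ => (6, 33)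
  | ⟨33, _⟩ => (3, 45)
  | ⟨34, _⟩ => (6, 35)
  | ⟨35, _⟩ => (3, 46)
  | ⟨36, _⟩ => (6, 38)
  | ⟨37, _⟩ => (3, 47)
  | ⟨38, _⟩ => (3, 48)
  | ⟨39, _⟩ => (3, 49)
  | ⟨40, _⟩ => (3, 50)
  | ⟨41, _⟩ => (3, 51)
  | ⟨42, _⟩ => (3, 52)
  | ⟨43, _⟩ => (5, 44)
  | ⟨44, _⟩ => (3, 54)
  | ⟨45, _⟩ => (6, 9)
  | ⟨46, _⟩ => (3, 56)
  | ⟨47, _⟩ => (5, 49)
  | ⟨48, _⟩ => (3, 58)
  | ⟨49, _⟩ => (6, 47)
  | ⟨50, _⟩ => (6, 48)
  | ⟨51, _⟩ => (6, 12)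
  | ⟨52, _⟩ => (6, 49)
  | ⟨53, _⟩ => (4, 0)
  | ⟨54, _⟩ => (4, 1)
  | ⟨55, _⟩ => (6, 51)
  | ⟨56, _⟩ => (6, 15)
  | ⟨57, _⟩ => (6, 52)
  | ⟨58, _⟩ => (6, 54)
  | ⟨59, _⟩ => (4, 6)
  | ⟨60, _⟩ => (6, 21)
  | ⟨61, _⟩ => (4, 7)
  | ⟨62, _⟩ => (6, 58)
  | ⟨n+63, h⟩ => absurd h (by omega)
def px_y_c5 : Fin 63 → Idx
  | ⟨0, _⟩ => (4, 8)
  | ⟨1, _⟩ => (6, 60)
  | ⟨2, _⟩ => (4, 9)
  | ⟨3, _⟩ => (6, 62)
  | ⟨4, _⟩ => (7, 0)
  | ⟨5, _⟩ => (4, 11)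
  | ⟨6, _⟩ => (6, 41)
  | ⟨7, _⟩ => (4, 12)
  | ⟨8, _⟩ => (4, 13)
  | ⟨9, _⟩ => (7, 2)
  | ⟨10, _⟩ => (4, 14)
  | ⟨11, _⟩ => (4, 15)
  | ⟨12, _⟩ => (5, 11)
  | ⟨13, _⟩ => (4, 16)
  | ⟨14, _⟩ => (4, 17)
  | ⟨15, _⟩ => (4, 18)
  | ⟨16, _⟩ => (4, 19)
  | ⟨17, _⟩ => (5, 16)
  | ⟨18, _⟩ => (4, 20)
  | ⟨19, _⟩ => (4, 21)
  | ⟨20, _⟩ => (4, 22)
  | ⟨21, _⟩ => (4, 23)
  | ⟨22, _⟩ => (4, 24)
  | ⟨23, _⟩ => (4, 26)
  | ⟨24, _⟩ => (4, 27)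
  | ⟨25, _⟩ => (4, 28)
  | ⟨26, _⟩ => (4, 29)
  | ⟨27, _⟩ => (4, 30)
  | ⟨28, _⟩ => (6, 32)
  | ⟨29, _⟩ => (4, 32)
  | ⟨30, _⟩ => (7, 14)
  | ⟨31, _⟩ => (4, 34)
  | ⟨32, _⟩ => (6, 37)
  | ⟨33, _⟩ => (4, 36)
  | ⟨34, _⟩ => (7, 16)
  | ⟨35, _⟩ => (7, 17)
  | ⟨36, _⟩ => (7, 8)
  | ⟨37, _⟩ => (4, 39)
  | ⟨38, _⟩ => (6, 6)
  | ⟨39, _⟩ => (4, 40)
  | ⟨40, _⟩ => (4, 41)
  | ⟨41, _⟩ => (7, 4)
  | ⟨42, _⟩ => (4, 42)
  | ⟨43, _⟩ => (4, 43)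
  | ⟨44, _⟩ => (5, 43)
  | ⟨45, _⟩ => (4, 44)
  | ⟨46, _⟩ => (4, 45)
  | ⟨47, _⟩ => (4, 46)
  | ⟨48, _⟩ => (4, 47)
  | ⟨49, _⟩ => (5, 48)
  | ⟨50, _⟩ => (4, 48)
  | ⟨51, _⟩ => (4, 49)
  | ⟨52, _⟩ => (4, 50)
  | ⟨53, _⟩ => (4, 51)
  | ⟨54, _⟩ => (4, 52)
  | ⟨55, _⟩ => (4, 54)
  | ⟨56, _⟩ => (4, 55)
  | ⟨57, _⟩ => (4, 56)
  | ⟨58, _⟩ => (4, 57)
  | ⟨59, _⟩ => (4, 58)
  | ⟨60, _⟩ => (6, 56)
  | ⟨61, _⟩ => (4, 60)
  | ⟨62, _⟩ => (7, 26)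
  | ⟨n+63, h⟩ => absurd h (by omega)
def px_y_c6 : Fin 63 → Idx
  | ⟨0, _⟩ => (4, 62)
  | ⟨1, _⟩ => (6, 59)
  | ⟨2, _⟩ => (5, 1)
  | ⟨3, _⟩ => (7, 28)
  | ⟨4, _⟩ => (5, 3)
  | ⟨5, _⟩ => (5, 4)
  | ⟨6, _⟩ => (6, 42)
  | ⟨7, _⟩ => (5, 6)
  | ⟨8, _⟩ => (7, 11)
  | ⟨9, _⟩ => (5, 46)
  | ⟨10, _⟩ => (5, 9)
  | ⟨11, _⟩ => (7, 31)
  | ⟨12, _⟩ => (5, 53)
  | ⟨13, _⟩ => (5, 41)
  | ⟨14, _⟩ => (5, 14)
  | ⟨15, _⟩ => (5, 57)
  | ⟨16, _⟩ => (7, 32)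
  | ⟨17, _⟩ => (7, 34)
  | ⟨18, _⟩ => (5, 19)
  | ⟨19, _⟩ => (5, 36)
  | ⟨20, _⟩ => (5, 20)
  | ⟨21, _⟩ => (5, 61)
  | ⟨22, _⟩ => (5, 21)
  | ⟨23, _⟩ => (5, 22)
  | ⟨24, _⟩ => (7, 38)
  | ⟨25, _⟩ => (5, 24)
  | ⟨26, _⟩ => (6, 1)
  | ⟨27, _⟩ => (5, 25)
  | ⟨28, _⟩ => (5, 26)
  | ⟨29, _⟩ => (7, 39)
  | ⟨30, _⟩ => (5, 27)
  | ⟨31, _⟩ => (5, 28)
  | ⟨32, _⟩ => (6, 31)
  | ⟨33, _⟩ => (5, 29)
  | ⟨34, _⟩ => (5, 30)
  | ⟨35, _⟩ => (5, 31)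
  | ⟨36, _⟩ => (5, 32)
  | ⟨37, _⟩ => (6, 36)
  | ⟨38, _⟩ => (5, 33)
  | ⟨39, _⟩ => (5, 34)
  | ⟨40, _⟩ => (5, 35)
  | ⟨41, _⟩ => (6, 7)
  | ⟨42, _⟩ => (5, 38)
  | ⟨43, _⟩ => (7, 23)
  | ⟨44, _⟩ => (7, 44)
  | ⟨45, _⟩ => (7, 42)
  | ⟨46, _⟩ => (7, 46)
  | ⟨47, _⟩ => (5, 51)
  | ⟨48, _⟩ => (5, 52)
  | ⟨49, _⟩ => (5, 54)
  | ⟨50, _⟩ => (7, 37)
  | ⟨51, _⟩ => (5, 56)
  | ⟨52, _⟩ => (5, 58)
  | ⟨53, _⟩ => (7, 48)
  | ⟨54, _⟩ => (5, 59)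
  | ⟨55, _⟩ => (5, 60)
  | ⟨56, _⟩ => (6, 55)
  | ⟨57, _⟩ => (5, 62)
  | ⟨58, _⟩ => (6, 0)
  | ⟨59, _⟩ => (6, 26)
  | ⟨60, _⟩ => (6, 2)
  | ⟨61, _⟩ => (6, 3)
  | ⟨62, _⟩ => (6, 4)
  | ⟨n+63, h⟩ => absurd h (by omega)
def px_y_c7 : Fin 63 → Idx
  | ⟨0, _⟩ => (6, 5)
  | ⟨1, _⟩ => (6, 8)
  | ⟨2, _⟩ => (6, 10)
  | ⟨3, _⟩ => (6, 11)
  | ⟨4, _⟩ => (6, 13)
  | ⟨5, _⟩ => (6, 16)
  | ⟨6, _⟩ => (6, 17)
  | ⟨7, _⟩ => (7, 36)
  | ⟨8, _⟩ => (6, 19)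
  | ⟨9, _⟩ => (6, 50)
  | ⟨10, _⟩ => (6, 24)
  | ⟨11, _⟩ => (7, 1)
  | ⟨12, _⟩ => (6, 29)
  | ⟨13, _⟩ => (7, 43)
  | ⟨14, _⟩ => (6, 34)
  | ⟨15, _⟩ => (7, 45)
  | ⟨16, _⟩ => (6, 39)
  | ⟨17, _⟩ => (6, 40)
  | ⟨18, _⟩ => (6, 43)
  | ⟨19, _⟩ => (6, 44)
  | ⟨20, _⟩ => (6, 45)
  | ⟨21, _⟩ => (6, 46)
  | ⟨22, _⟩ => (7, 29)
  | ⟨23, _⟩ => (7, 18)
  | ⟨24, _⟩ => (6, 53)
  | ⟨25, _⟩ => (7, 30)
  | ⟨26, _⟩ => (6, 57)
  | ⟨27, _⟩ => (7, 33)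
  | ⟨28, _⟩ => (6, 61)
  | ⟨29, _⟩ => (7, 47)
  | ⟨30, _⟩ => (7, 49)
  | ⟨31, _⟩ => (7, 3)
  | ⟨32, _⟩ => (7, 5)
  | ⟨33, _⟩ => (7, 50)
  | ⟨34, _⟩ => (7, 6)
  | ⟨35, _⟩ => (7, 7)
  | ⟨36, _⟩ => (7, 35)
  | ⟨37, _⟩ => (7, 9)
  | ⟨38, _⟩ => (7, 10)
  | ⟨39, _⟩ => (7, 12)
  | ⟨40, _⟩ => (7, 13)
  | ⟨41, _⟩ => (7, 15)
  | ⟨42, _⟩ => (7, 20)
  | ⟨43, _⟩ => (7, 40)
  | ⟨44, _⟩ => (7, 19)
  | ⟨45, _⟩ => (7, 41)
  | ⟨46, _⟩ => (7, 21)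
  | ⟨47, _⟩ => (7, 22)
  | ⟨48, _⟩ => (7, 24)
  | ⟨49, _⟩ => (7, 25)
  | ⟨50, _⟩ => (7, 27)
  | ⟨51, _⟩ => (7, 54)
  | ⟨52, _⟩ => (7, 55)
  | ⟨53, _⟩ => (7, 56)
  | ⟨54, _⟩ => (7, 60)
  | ⟨55, _⟩ => (7, 61)
  | ⟨56, _⟩ => (7, 57)
  | ⟨57, _⟩ => (7, 53)
  | ⟨58, _⟩ => (7, 59)
  | ⟨59, _⟩ => (7, 62)
  | ⟨60, _⟩ => (7, 51)
  | ⟨61, _⟩ => (7, 52)
  | ⟨62, _⟩ => (7, 58)
  | ⟨n+63, h⟩ => absurd h (by omega)
def px_y_ch : Fin 8 → Fin 63 → Idx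
  | ⟨0, _⟩ => px_y_c0
  | ⟨1, _⟩ => px_y_c1
  | ⟨2, _⟩ => px_y_c2
  | ⟨3, _⟩ => px_y_c3
  | ⟨4, _⟩ => px_y_c4
  | ⟨5, _⟩ => px_y_c5
  | ⟨6, _⟩ => px_y_c6
  | ⟨7, _⟩ => px_y_c7
  | ⟨n+8, h⟩ => absurd h (by omega)
def px_y (i : Idx) : Idx := px_y_ch i.1 i.2
theorem closed_y_c0 : ∀ b : Fin 63, rep_c0 b * y = rep (nx_y_c0 b)
  | ⟨0, _⟩ => e_0_y
  | ⟨1, _⟩ => e_1_y
  | ⟨2, _⟩ => e_2_y
  | ⟨3, _⟩ => e_3_y
  | ⟨4, _⟩ => e_4_y
  | ⟨5, _⟩ => e_5_y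
  | ⟨6, _⟩ => e_6_y
  | ⟨7, _⟩ => e_7_y
  | ⟨8, _⟩ => e_8_y
  | ⟨9, _⟩ => e_9_y
  | ⟨10, _⟩ => e_10_y
  | ⟨11, _⟩ => e_11_y
  | ⟨12, _⟩ => e_12_y
  | ⟨13, _⟩ => e_13_y
  | ⟨14, _⟩ => e_14_y
  | ⟨15, _⟩ => e_15_y
  | ⟨16, _⟩ => e_16_y
  | ⟨17, _⟩ => e_17_y
  | ⟨18, _⟩ => e_18_y
  | ⟨19, _⟩ => e_19_y
  | ⟨20, _⟩ => e_20_y
  | ⟨21, _⟩ => e_21_y
  | ⟨22, _⟩ => e_22_y
  | ⟨23, _⟩ => e_23_y
  | ⟨24, _⟩ => e_24_y
  | ⟨25, _⟩ => e_25_y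
  | ⟨26, _⟩ => e_26_y
  | ⟨27, _⟩ => e_27_y
  | ⟨28, _⟩ => e_28_y
  | ⟨29, _⟩ => e_29_y
  | ⟨30, _⟩ => e_30_y
  | ⟨31, _⟩ => e_31_y
  | ⟨32, _⟩ => e_32_y
  | ⟨33, _⟩ => e_33_y
  | ⟨34, _⟩ => e_34_y
  | ⟨35, _⟩ => e_35_y
  | ⟨36, _⟩ => e_36_y
  | ⟨37, _⟩ => e_37_y
  | ⟨38, _⟩ => e_38_y
  | ⟨39, _⟩ => e_39_y
  | ⟨40, _⟩ => e_40_y
  | ⟨41, _⟩ => e_41_y
  | ⟨42, _⟩ => e_42_y
  | ⟨43, _⟩ => e_43_y
  | ⟨44, _⟩ => e_44_y
  | ⟨45, _⟩ => e_45_y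
  | ⟨46, _⟩ => e_46_y
  | ⟨47, _⟩ => e_47_y
  | ⟨48, _⟩ => e_48_y
  | ⟨49, _⟩ => e_49_y
  | ⟨50, _⟩ => e_50_y
  | ⟨51, _⟩ => e_51_y
  | ⟨52, _⟩ => e_52_y
  | ⟨53, _⟩ => e_53_y
  | ⟨54, _⟩ => e_54_y
  | ⟨55, _⟩ => e_55_y
  | ⟨56, _⟩ => e_56_y
  | ⟨57, _⟩ => e_57_y
  | ⟨58, _⟩ => e_58_y
  | ⟨59, _⟩ => e_59_y
  | ⟨60, _⟩ => e_60_y
  | ⟨61, _⟩ => e_61_y
  | ⟨62, _⟩ => e_62_y
  | ⟨n+63, h⟩ => absurd h (by omega)
theorem closed_y_c1 : ∀ b : Fin 63, rep_c1 b * y = rep (nx_y_c1 b)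
  | ⟨0, _⟩ => e_63_y
  | ⟨1, _⟩ => e_64_y
  | ⟨2, _⟩ => e_65_y
  | ⟨3, _⟩ => e_66_y
  | ⟨4, _⟩ => e_67_y
  | ⟨5, _⟩ => e_68_y
  | ⟨6, _⟩ => e_69_y
  | ⟨7, _⟩ => e_70_y
  | ⟨8, _⟩ => e_71_y
  | ⟨9, _⟩ => e_72_y
  | ⟨10, _⟩ => e_73_y
  | ⟨11, _⟩ => e_74_y
  | ⟨12, _⟩ => e_75_y
  | ⟨13, _⟩ => e_76_y
  | ⟨14, _⟩ => e_77_y
  | ⟨15, _⟩ => e_78_y
  | ⟨16, _⟩ => e_79_y
  | ⟨17, _⟩ => e_80_y
  | ⟨18, _⟩ => e_81_y
  | ⟨19, _⟩ => e_82_y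
  | ⟨20, _⟩ => e_83_y
  | ⟨21, _⟩ => e_84_y
  | ⟨22, _⟩ => e_85_y
  | ⟨23, _⟩ => e_86_y
  | ⟨24, _⟩ => e_87_y
  | ⟨25, _⟩ => e_88_y
  | ⟨26, _⟩ => e_89_y
  | ⟨27, _⟩ => e_90_y
  | ⟨28, _⟩ => e_91_y
  | ⟨29, _⟩ => e_92_y
  | ⟨30, _⟩ => e_93_y
  | ⟨31, _⟩ => e_94_y
  | ⟨32, _⟩ => e_95_y
  | ⟨33, _⟩ => e_96_y
  | ⟨34, _⟩ => e_97_y
  | ⟨35, _⟩ => e_98_y
  | ⟨36, _⟩ => e_99_y
  | ⟨37, _⟩ => e_100_y
  | ⟨38, _⟩ => e_101_y
  | ⟨39, _⟩ => e_102_y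
  | ⟨40, _⟩ => e_103_y
  | ⟨41, _⟩ => e_104_y
  | ⟨42, _⟩ => e_105_y
  | ⟨43, _⟩ => e_106_y
  | ⟨44, _⟩ => e_107_y
  | ⟨45, _⟩ => e_108_y
  | ⟨46, _⟩ => e_109_y
  | ⟨47, _⟩ => e_110_y
  | ⟨48, _⟩ => e_111_y
  | ⟨49, _⟩ => e_112_y
  | ⟨50, _⟩ => e_113_y
  | ⟨51, _⟩ => e_114_y
  | ⟨52, _⟩ => e_115_y
  | ⟨53, _⟩ => e_116_y
  | ⟨54, _⟩ => e_117_y
  | ⟨55, _⟩ => e_118_y
  | ⟨56, _⟩ => e_119_y
  | ⟨57, _⟩ => e_120_y
  | ⟨58, _⟩ => e_121_y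
  | ⟨59, _⟩ => e_122_y
  | ⟨60, _⟩ => e_123_y
  | ⟨61, _⟩ => e_124_y
  | ⟨62, _⟩ => e_125_y
  | ⟨n+63, h⟩ => absurd h (by omega)
theorem closed_y_c2 : ∀ b : Fin 63, rep_c2 b * y = rep (nx_y_c2 b)
  | ⟨0, _⟩ => e_126_y
  | ⟨1, _⟩ => e_127_y
  | ⟨2, _⟩ => e_128_y
  | ⟨3, _⟩ => e_129_y
  | ⟨4, _⟩ => e_130_y
  | ⟨5, _⟩ => e_131_y
  | ⟨6, _⟩ => e_132_y
  | ⟨7, _⟩ => e_133_y
  | ⟨8, _⟩ => e_134_y
  | ⟨9, _⟩ => e_135_y
  | ⟨10, _⟩ => e_136_y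
  | ⟨11, _⟩ => e_137_y
  | ⟨12, _⟩ => e_138_y
  | ⟨13, _⟩ => e_139_y
  | ⟨14, _⟩ => e_140_y
  | ⟨15, _⟩ => e_141_y
  | ⟨16, _⟩ => e_142_y
  | ⟨17, _⟩ => e_143_y
  | ⟨18, _⟩ => e_144_y
  | ⟨19, _⟩ => e_145_y
  | ⟨20, _⟩ => e_146_y
  | ⟨21, _⟩ => e_147_y
  | ⟨22, _⟩ => e_148_y
  | ⟨23, _⟩ => e_149_y
  | ⟨24, _⟩ => e_150_y
  | ⟨25, _⟩ => e_151_y
  | ⟨26, _⟩ => e_152_y
  | ⟨27, _⟩ => e_153_y
  | ⟨28, _⟩ => e_154_y
  | ⟨29, _⟩ => e_155_y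
  | ⟨30, _⟩ => e_156_y
  | ⟨31, _⟩ => e_157_y
  | ⟨32, _⟩ => e_158_y
  | ⟨33, _⟩ => e_159_y
  | ⟨34, _⟩ => e_160_y
  | ⟨35, _⟩ => e_161_y
  | ⟨36, _⟩ => e_162_y
  | ⟨37, _⟩ => e_163_y
  | ⟨38, _⟩ => e_164_y
  | ⟨39, _⟩ => e_165_y
  | ⟨40, _⟩ => e_166_y
  | ⟨41, _⟩ => e_167_y
  | ⟨42, _⟩ => e_168_y
  | ⟨43, _⟩ => e_169_y
  | ⟨44, _⟩ => e_170_y
  | ⟨45, _⟩ => e_171_y
  | ⟨46, _⟩ => e_172_y
  | ⟨47, _⟩ => e_173_y
  | ⟨48, _⟩ => e_174_y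
  | ⟨49, _⟩ => e_175_y
  | ⟨50, _⟩ => e_176_y
  | ⟨51, _⟩ => e_177_y
  | ⟨52, _⟩ => e_178_y
  | ⟨53, _⟩ => e_179_y
  | ⟨54, _⟩ => e_180_y
  | ⟨55, _⟩ => e_181_y
  | ⟨56, _⟩ => e_182_y
  | ⟨57, _⟩ => e_183_y
  | ⟨58, _⟩ => e_184_y
  | ⟨59, _⟩ => e_185_y
  | ⟨60, _⟩ => e_186_y
  | ⟨61, _⟩ => e_187_y
  | ⟨62, _⟩ => e_188_y
  | ⟨n+63, h⟩ => absurd h (by omega)
theorem closed_y_c3 : ∀ b : Fin 63, rep_c3 b * y = rep (nx_y_c3 b)
  | ⟨0, _⟩ => e_189_y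
  | ⟨1, _⟩ => e_190_y
  | ⟨2, _⟩ => e_191_y
  | ⟨3, _⟩ => e_192_y
  | ⟨4, _⟩ => e_193_y
  | ⟨5, _⟩ => e_194_y
  | ⟨6, _⟩ => e_195_y
  | ⟨7, _⟩ => e_196_y
  | ⟨8, _⟩ => e_197_y
  | ⟨9, _⟩ => e_198_y
  | ⟨10, _⟩ => e_199_y
  | ⟨11, _⟩ => e_200_y
  | ⟨12, _⟩ => e_201_y
  | ⟨13, _⟩ => e_202_y
  | ⟨14, _⟩ => e_203_y
  | ⟨15, _⟩ => e_204_y
  | ⟨16, _⟩ => e_205_y
  | ⟨17, _⟩ => e_206_y
  | ⟨18, _⟩ => e_207_y
  | ⟨19, _⟩ => e_208_y
  | ⟨20, _⟩ => e_209_y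
  | ⟨21, _⟩ => e_210_y
  | ⟨22, _⟩ => e_211_y
  | ⟨23, _⟩ => e_212_y
  | ⟨24, _⟩ => e_213_y
  | ⟨25, _⟩ => e_214_y
  | ⟨26, _⟩ => e_215_y
  | ⟨27, _⟩ => e_216_y
  | ⟨28, _⟩ => e_217_y
  | ⟨29, _⟩ => e_218_y
  | ⟨30, _⟩ => e_219_y
  | ⟨31, _⟩ => e_220_y
  | ⟨32, _⟩ => e_221_y
  | ⟨33, _⟩ => e_222_y
  | ⟨34, _⟩ => e_223_y
  | ⟨35, _⟩ => e_224_y
  | ⟨36, _⟩ => e_225_y
  | ⟨37, _⟩ => e_226_y
  | ⟨38, _⟩ => e_227_y
  | ⟨39, _⟩ => e_228_y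
  | ⟨40, _⟩ => e_229_y
  | ⟨41, _⟩ => e_230_y
  | ⟨42, _⟩ => e_231_y
  | ⟨43, _⟩ => e_232_y
  | ⟨44, _⟩ => e_233_y
  | ⟨45, _⟩ => e_234_y
  | ⟨46, _⟩ => e_235_y
  | ⟨47, _⟩ => e_236_y
  | ⟨48, _⟩ => e_237_y
  | ⟨49, _⟩ => e_238_y
  | ⟨50, _⟩ => e_239_y
  | ⟨51, _⟩ => e_240_y
  | ⟨52, _⟩ => e_241_y
  | ⟨53, _⟩ => e_242_y
  | ⟨54, _⟩ => e_243_y
  | ⟨55, _⟩ => e_244_y
  | ⟨56, _⟩ => e_245_y
  | ⟨57, _⟩ => e_246_y
  | ⟨58, _⟩ => e_247_y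
  | ⟨59, _⟩ => e_248_y
  | ⟨60, _⟩ => e_249_y
  | ⟨61, _⟩ => e_250_y
  | ⟨62, _⟩ => e_251_y
  | ⟨n+63, h⟩ => absurd h (by omega)
theorem closed_y_c4 : ∀ b : Fin 63, rep_c4 b * y = rep (nx_y_c4 b)
  | ⟨0, _⟩ => e_252_y
  | ⟨1, _⟩ => e_253_y
  | ⟨2, _⟩ => e_254_y
  | ⟨3, _⟩ => e_255_y
  | ⟨4, _⟩ => e_256_y
  | ⟨5, _⟩ => e_257_y
  | ⟨6, _⟩ => e_258_y
  | ⟨7, _⟩ => e_259_y
  | ⟨8, _⟩ => e_260_y
  | ⟨9, _⟩ => e_261_y
  | ⟨10, _⟩ => e_262_y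
  | ⟨11, _⟩ => e_263_y
  | ⟨12, _⟩ => e_264_y
  | ⟨13, _⟩ => e_265_y
  | ⟨14, _⟩ => e_266_y
  | ⟨15, _⟩ => e_267_y
  | ⟨16, _⟩ => e_268_y
  | ⟨17, _⟩ => e_269_y
  | ⟨18, _⟩ => e_270_y
  | ⟨19, _⟩ => e_271_y
  | ⟨20, _⟩ => e_272_y
  | ⟨21, _⟩ => e_273_y
  | ⟨22, _⟩ => e_274_y
  | ⟨23, _⟩ => e_275_y
  | ⟨24, _⟩ => e_276_y
  | ⟨25, _⟩ => e_277_y
  | ⟨26, _⟩ => e_278_y
  | ⟨27, _⟩ => e_279_y
  | ⟨28, _⟩ => e_280_y
  | ⟨29, _⟩ => e_281_y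
  | ⟨30, _⟩ => e_282_y
  | ⟨31, _⟩ => e_283_y
  | ⟨32, _⟩ => e_284_y
  | ⟨33, _⟩ => e_285_y
  | ⟨34, _⟩ => e_286_y
  | ⟨35, _⟩ => e_287_y
  | ⟨36, _⟩ => e_288_y
  | ⟨37, _⟩ => e_289_y
  | ⟨38, _⟩ => e_290_y
  | ⟨39, _⟩ => e_291_y
  | ⟨40, _⟩ => e_292_y
  | ⟨41, _⟩ => e_293_y
  | ⟨42, _⟩ => e_294_y
  | ⟨43, _⟩ => e_295_y
  | ⟨44, _⟩ => e_296_y
  | ⟨45, _⟩ => e_297_y
  | ⟨46, _⟩ => e_298_y
  | ⟨47, _⟩ => e_299_y
  | ⟨48, _⟩ => e_300_y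
  | ⟨49, _⟩ => e_301_y
  | ⟨50, _⟩ => e_302_y
  | ⟨51, _⟩ => e_303_y
  | ⟨52, _⟩ => e_304_y
  | ⟨53, _⟩ => e_305_y
  | ⟨54, _⟩ => e_306_y
  | ⟨55, _⟩ => e_307_y
  | ⟨56, _⟩ => e_308_y
  | ⟨57, _⟩ => e_309_y
  | ⟨58, _⟩ => e_310_y
  | ⟨59, _⟩ => e_311_y
  | ⟨60, _⟩ => e_312_y
  | ⟨61, _⟩ => e_313_y
  | ⟨62, _⟩ => e_314_y
  | ⟨n+63, h⟩ => absurd h (by omega)
theorem closed_y_c5 : ∀ b : Fin 63, rep_c5 b * y = rep (nx_y_c5 b)
  | ⟨0, _⟩ => e_315_y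
  | ⟨1, _⟩ => e_316_y
  | ⟨2, _⟩ => e_317_y
  | ⟨3, _⟩ => e_318_y
  | ⟨4, _⟩ => e_319_y
  | ⟨5, _⟩ => e_320_y
  | ⟨6, _⟩ => e_321_y
  | ⟨7, _⟩ => e_322_y
  | ⟨8, _⟩ => e_323_y
  | ⟨9, _⟩ => e_324_y
  | ⟨10, _⟩ => e_325_y
  | ⟨11, _⟩ => e_326_y
  | ⟨12, _⟩ => e_327_y
  | ⟨13, _⟩ => e_328_y
  | ⟨14, _⟩ => e_329_y
  | ⟨15, _⟩ => e_330_y
  | ⟨16, _⟩ => e_331_y
  | ⟨17, _⟩ => e_332_y
  | ⟨18, _⟩ => e_333_y
  | ⟨19, _⟩ => e_334_y
  | ⟨20, _⟩ => e_335_y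
  | ⟨21, _⟩ => e_336_y
  | ⟨22, _⟩ => e_337_y
  | ⟨23, _⟩ => e_338_y
  | ⟨24, _⟩ => e_339_y
  | ⟨25, _⟩ => e_340_y
  | ⟨26, _⟩ => e_341_y
  | ⟨27, _⟩ => e_342_y
  | ⟨28, _⟩ => e_343_y
  | ⟨29, _⟩ => e_344_y
  | ⟨30, _⟩ => e_345_y
  | ⟨31, _⟩ => e_346_y
  | ⟨32, _⟩ => e_347_y
  | ⟨33, _⟩ => e_348_y
  | ⟨34, _⟩ => e_349_y
  | ⟨35, _⟩ => e_350_y
  | ⟨36, _⟩ => e_351_y
  | ⟨37, _⟩ => e_352_y
  | ⟨38, _⟩ => e_353_y
  | ⟨39, _⟩ => e_354_y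
  | ⟨40, _⟩ => e_355_y
  | ⟨41, _⟩ => e_356_y
  | ⟨42, _⟩ => e_357_y
  | ⟨43, _⟩ => e_358_y
  | ⟨44, _⟩ => e_359_y
  | ⟨45, _⟩ => e_360_y
  | ⟨46, _⟩ => e_361_y
  | ⟨47, _⟩ => e_362_y
  | ⟨48, _⟩ => e_363_y
  | ⟨49, _⟩ => e_364_y
  | ⟨50, _⟩ => e_365_y
  | ⟨51, _⟩ => e_366_y
  | ⟨52, _⟩ => e_367_y
  | ⟨53, _⟩ => e_368_y
  | ⟨54, _⟩ => e_369_y
  | ⟨55, _⟩ => e_370_y
  | ⟨56, _⟩ => e_371_y
  | ⟨57, _⟩ => e_372_y
  | ⟨58, _⟩ => e_373_y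
  | ⟨59, _⟩ => e_374_y
  | ⟨60, _⟩ => e_375_y
  | ⟨61, _⟩ => e_376_y
  | ⟨62, _⟩ => e_377_y
  | ⟨n+63, h⟩ => absurd h (by omega)
theorem closed_y_c6 : ∀ b : Fin 63, rep_c6 b * y = rep (nx_y_c6 b)
  | ⟨0, _⟩ => e_378_y
  | ⟨1, _⟩ => e_379_y
  | ⟨2, _⟩ => e_380_y
  | ⟨3, _⟩ => e_381_y
  | ⟨4, _⟩ => e_382_y
  | ⟨5, _⟩ => e_383_y
  | ⟨6, _⟩ => e_384_y
  | ⟨7, _⟩ => e_385_y
  | ⟨8, _⟩ => e_386_y
  | ⟨9, _⟩ => e_387_y
  | ⟨10, _⟩ => e_388_y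
  | ⟨11, _⟩ => e_389_y
  | ⟨12, _⟩ => e_390_y
  | ⟨13, _⟩ => e_391_y
  | ⟨14, _⟩ => e_392_y
  | ⟨15, _⟩ => e_393_y
  | ⟨16, _⟩ => e_394_y
  | ⟨17, _⟩ => e_395_y
  | ⟨18, _⟩ => e_396_y
  | ⟨19, _⟩ => e_397_y
  | ⟨20, _⟩ => e_398_y
  | ⟨21, _⟩ => e_399_y
  | ⟨22, _⟩ => e_400_y
  | ⟨23, _⟩ => e_401_y
  | ⟨24, _⟩ => e_402_y
  | ⟨25, _⟩ => e_403_y
  | ⟨26, _⟩ => e_404_y
  | ⟨27, _⟩ => e_405_y
  | ⟨28, _⟩ => e_406_y
  | ⟨29, _⟩ => e_407_y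
  | ⟨30, _⟩ => e_408_y
  | ⟨31, _⟩ => e_409_y
  | ⟨32, _⟩ => e_410_y
  | ⟨33, _⟩ => e_411_y
  | ⟨34, _⟩ => e_412_y
  | ⟨35, _⟩ => e_413_y
  | ⟨36, _⟩ => e_414_y
  | ⟨37, _⟩ => e_415_y
  | ⟨38, _⟩ => e_416_y
  | ⟨39, _⟩ => e_417_y
  | ⟨40, _⟩ => e_418_y
  | ⟨41, _⟩ => e_419_y
  | ⟨42, _⟩ => e_420_y
  | ⟨43, _⟩ => e_421_y
  | ⟨44, _⟩ => e_422_y
  | ⟨45, _⟩ => e_423_y
  | ⟨46, _⟩ => e_424_y
  | ⟨47, _⟩ => e_425_y
  | ⟨48, _⟩ => e_426_y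
  | ⟨49, _⟩ => e_427_y
  | ⟨50, _⟩ => e_428_y
  | ⟨51, _⟩ => e_429_y
  | ⟨52, _⟩ => e_430_y
  | ⟨53, _⟩ => e_431_y
  | ⟨54, _⟩ => e_432_y
  | ⟨55, _⟩ => e_433_y
  | ⟨56, _⟩ => e_434_y
  | ⟨57, _⟩ => e_435_y
  | ⟨58, _⟩ => e_436_y
  | ⟨59, _⟩ => e_437_y
  | ⟨60, _⟩ => e_438_y
  | ⟨61, _⟩ => e_439_y
  | ⟨62, _⟩ => e_440_y
  | ⟨n+63, h⟩ => absurd h (by omega)
theorem closed_y_c7 : ∀ b : Fin 63, rep_c7 b * y = rep (nx_y_c7 b)
  | ⟨0, _⟩ => e_441_y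
  | ⟨1, _⟩ => e_442_y
  | ⟨2, _⟩ => e_443_y
  | ⟨3, _⟩ => e_444_y
  | ⟨4, _⟩ => e_445_y
  | ⟨5, _⟩ => e_446_y
  | ⟨6, _⟩ => e_447_y
  | ⟨7, _⟩ => e_448_y
  | ⟨8, _⟩ => e_449_y
  | ⟨9, _⟩ => e_450_y
  | ⟨10, _⟩ => e_451_y
  | ⟨11, _⟩ => e_452_y
  | ⟨12, _⟩ => e_453_y
  | ⟨13, _⟩ => e_454_y
  | ⟨14, _⟩ => e_455_y
  | ⟨15, _⟩ => e_456_y
  | ⟨16, _⟩ => e_457_y
  | ⟨17, _⟩ => e_458_y
  | ⟨18, _⟩ => e_459_y
  | ⟨19, _⟩ => e_460_y
  | ⟨20, _⟩ => e_461_y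
  | ⟨21, _⟩ => e_462_y
  | ⟨22, _⟩ => e_463_y
  | ⟨23, _⟩ => e_464_y
  | ⟨24, _⟩ => e_465_y
  | ⟨25, _⟩ => e_466_y
  | ⟨26, _⟩ => e_467_y
  | ⟨27, _⟩ => e_468_y
  | ⟨28, _⟩ => e_469_y
  | ⟨29, _⟩ => e_470_y
  | ⟨30, _⟩ => e_471_y
  | ⟨31, _⟩ => e_472_y
  | ⟨32, _⟩ => e_473_y
  | ⟨33, _⟩ => e_474_y
  | ⟨34, _⟩ => e_475_y
  | ⟨35, _⟩ => e_476_y
  | ⟨36, _⟩ => e_477_y
  | ⟨37, _⟩ => e_478_y
  | ⟨38, _⟩ => e_479_y
  | ⟨39, _⟩ => e_480_y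
  | ⟨40, _⟩ => e_481_y
  | ⟨41, _⟩ => e_482_y
  | ⟨42, _⟩ => e_483_y
  | ⟨43, _⟩ => e_484_y
  | ⟨44, _⟩ => e_485_y
  | ⟨45, _⟩ => e_486_y
  | ⟨46, _⟩ => e_487_y
  | ⟨47, _⟩ => e_488_y
  | ⟨48, _⟩ => e_489_y
  | ⟨49, _⟩ => e_490_y
  | ⟨50, _⟩ => e_491_y
  | ⟨51, _⟩ => e_492_y
  | ⟨52, _⟩ => e_493_y
  | ⟨53, _⟩ => e_494_y
  | ⟨54, _⟩ => e_495_y
  | ⟨55, _⟩ => e_496_y
  | ⟨56, _⟩ => e_497_y
  | ⟨57, _⟩ => e_498_y
  | ⟨58, _⟩ => e_499_y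
  | ⟨59, _⟩ => e_500_y
  | ⟨60, _⟩ => e_501_y
  | ⟨61, _⟩ => e_502_y
  | ⟨62, _⟩ => e_503_y
  | ⟨n+63, h⟩ => absurd h (by omega)
theorem closed_y_ch : ∀ (a : Fin 8) (b : Fin 63), rep_ch a b * y = rep (nx_y_ch a b)
  | ⟨0, _⟩ => closed_y_c0
  | ⟨1, _⟩ => closed_y_c1
  | ⟨2, _⟩ => closed_y_c2
  | ⟨3, _⟩ => closed_y_c3
  | ⟨4, _⟩ => closed_y_c4
  | ⟨5, _⟩ => closed_y_c5
  | ⟨6, _⟩ => closed_y_c6
  | ⟨7, _⟩ => closed_y_c7
  | ⟨n+8, h⟩ => absurd h (by omega)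
theorem closed_y (i : Idx) : rep i * y = rep (nx_y i) :=
  closed_y_ch i.1 i.2
theorem pre_y_c0 : ∀ b : Fin 63, rep (px_y_c0 b) * y = rep_c0 b
  | ⟨0, _⟩ => e_5_y
  | ⟨1, _⟩ => e_7_y
  | ⟨2, _⟩ => e_0_y
  | ⟨3, _⟩ => e_1_y
  | ⟨4, _⟩ => e_13_y
  | ⟨5, _⟩ => e_2_y
  | ⟨6, _⟩ => e_16_y
  | ⟨7, _⟩ => e_3_y
  | ⟨8, _⟩ => e_4_y
  | ⟨9, _⟩ => e_21_y
  | ⟨10, _⟩ => e_6_y
  | ⟨11, _⟩ => e_25_y
  | ⟨12, _⟩ => e_27_y
  | ⟨13, _⟩ => e_8_y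
  | ⟨14, _⟩ => e_9_y
  | ⟨15, _⟩ => e_32_y
  | ⟨16, _⟩ => e_10_y
  | ⟨17, _⟩ => e_11_y
  | ⟨18, _⟩ => e_12_y
  | ⟨19, _⟩ => e_39_y
  | ⟨20, _⟩ => e_41_y
  | ⟨21, _⟩ => e_14_y
  | ⟨22, _⟩ => e_15_y
  | ⟨23, _⟩ => e_46_y
  | ⟨24, _⟩ => e_48_y
  | ⟨25, _⟩ => e_17_y
  | ⟨26, _⟩ => e_51_y
  | ⟨27, _⟩ => e_18_y
  | ⟨28, _⟩ => e_19_y
  | ⟨29, _⟩ => e_20_y
  | ⟨30, _⟩ => e_58_y
  | ⟨31, _⟩ => e_59_y
  | ⟨32, _⟩ => e_22_y
  | ⟨33, _⟩ => e_23_y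
  | ⟨34, _⟩ => e_24_y
  | ⟨35, _⟩ => e_50_y
  | ⟨36, _⟩ => e_26_y
  | ⟨37, _⟩ => e_68_y
  | ⟨38, _⟩ => e_70_y
  | ⟨39, _⟩ => e_28_y
  | ⟨40, _⟩ => e_73_y
  | ⟨41, _⟩ => e_29_y
  | ⟨42, _⟩ => e_30_y
  | ⟨43, _⟩ => e_31_y
  | ⟨44, _⟩ => e_78_y
  | ⟨45, _⟩ => e_80_y
  | ⟨46, _⟩ => e_33_y
  | ⟨47, _⟩ => e_83_y
  | ⟨48, _⟩ => e_34_y
  | ⟨49, _⟩ => e_35_y
  | ⟨50, _⟩ => e_49_y
  | ⟨51, _⟩ => e_36_y
  | ⟨52, _⟩ => e_37_y
  | ⟨53, _⟩ => e_38_y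
  | ⟨54, _⟩ => e_72_y
  | ⟨55, _⟩ => e_40_y
  | ⟨56, _⟩ => e_94_y
  | ⟨57, _⟩ => e_96_y
  | ⟨58, _⟩ => e_42_y
  | ⟨59, _⟩ => e_43_y
  | ⟨60, _⟩ => e_44_y
  | ⟨61, _⟩ => e_45_y
  | ⟨62, _⟩ => e_82_y
  | ⟨n+63, h⟩ => absurd h (by omega)
theorem pre_y_c1 : ∀ b : Fin 63, rep (px_y_c1 b) * y = rep_c1 b
  | ⟨0, _⟩ => e_47_y
  | ⟨1, _⟩ => e_105_y
  | ⟨2, _⟩ => e_107_y
  | ⟨3, _⟩ => e_109_y
  | ⟨4, _⟩ => e_111_y
  | ⟨5, _⟩ => e_52_y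
  | ⟨6, _⟩ => e_114_y
  | ⟨7, _⟩ => e_53_y
  | ⟨8, _⟩ => e_54_y
  | ⟨9, _⟩ => e_71_y
  | ⟨10, _⟩ => e_55_y
  | ⟨11, _⟩ => e_56_y
  | ⟨12, _⟩ => e_57_y
  | ⟨13, _⟩ => e_123_y
  | ⟨14, _⟩ => e_125_y
  | ⟨15, _⟩ => e_60_y
  | ⟨16, _⟩ => e_128_y
  | ⟨17, _⟩ => e_61_y
  | ⟨18, _⟩ => e_62_y
  | ⟨19, _⟩ => e_81_y
  | ⟨20, _⟩ => e_63_y
  | ⟨21, _⟩ => e_64_y
  | ⟨22, _⟩ => e_65_y
  | ⟨23, _⟩ => e_66_y
  | ⟨24, _⟩ => e_67_y
  | ⟨25, _⟩ => e_113_y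
  | ⟨26, _⟩ => e_69_y
  | ⟨27, _⟩ => e_143_y
  | ⟨28, _⟩ => e_145_y
  | ⟨29, _⟩ => e_147_y
  | ⟨30, _⟩ => e_149_y
  | ⟨31, _⟩ => e_74_y
  | ⟨32, _⟩ => e_152_y
  | ⟨33, _⟩ => e_75_y
  | ⟨34, _⟩ => e_76_y
  | ⟨35, _⟩ => e_77_y
  | ⟨36, _⟩ => e_127_y
  | ⟨37, _⟩ => e_79_y
  | ⟨38, _⟩ => e_161_y
  | ⟨39, _⟩ => e_163_y
  | ⟨40, _⟩ => e_165_y
  | ⟨41, _⟩ => e_167_y
  | ⟨42, _⟩ => e_84_y
  | ⟨43, _⟩ => e_170_y
  | ⟨44, _⟩ => e_85_y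
  | ⟨45, _⟩ => e_173_y
  | ⟨46, _⟩ => e_86_y
  | ⟨47, _⟩ => e_176_y
  | ⟨48, _⟩ => e_87_y
  | ⟨49, _⟩ => e_88_y
  | ⟨50, _⟩ => e_112_y
  | ⟨51, _⟩ => e_89_y
  | ⟨52, _⟩ => e_90_y
  | ⟨53, _⟩ => e_91_y
  | ⟨54, _⟩ => e_92_y
  | ⟨55, _⟩ => e_93_y
  | ⟨56, _⟩ => e_151_y
  | ⟨57, _⟩ => e_95_y
  | ⟨58, _⟩ => e_191_y
  | ⟨59, _⟩ => e_193_y
  | ⟨60, _⟩ => e_97_y
  | ⟨61, _⟩ => e_196_y
  | ⟨62, _⟩ => e_98_y
  | ⟨n+63, h⟩ => absurd h (by omega)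
theorem pre_y_c2 : ∀ b : Fin 63, rep (px_y_c2 b) * y = rep_c2 b
  | ⟨0, _⟩ => e_99_y
  | ⟨1, _⟩ => e_126_y
  | ⟨2, _⟩ => e_100_y
  | ⟨3, _⟩ => e_101_y
  | ⟨4, _⟩ => e_102_y
  | ⟨5, _⟩ => e_103_y
  | ⟨6, _⟩ => e_104_y
  | ⟨7, _⟩ => e_169_y
  | ⟨8, _⟩ => e_106_y
  | ⟨9, _⟩ => e_211_y
  | ⟨10, _⟩ => e_108_y
  | ⟨11, _⟩ => e_175_y
  | ⟨12, _⟩ => e_110_y
  | ⟨13, _⟩ => e_217_y
  | ⟨14, _⟩ => e_219_y
  | ⟨15, _⟩ => e_221_y
  | ⟨16, _⟩ => e_223_y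
  | ⟨17, _⟩ => e_115_y
  | ⟨18, _⟩ => e_226_y
  | ⟨19, _⟩ => e_116_y
  | ⟨20, _⟩ => e_229_y
  | ⟨21, _⟩ => e_117_y
  | ⟨22, _⟩ => e_232_y
  | ⟨23, _⟩ => e_118_y
  | ⟨24, _⟩ => e_119_y
  | ⟨25, _⟩ => e_150_y
  | ⟨26, _⟩ => e_120_y
  | ⟨27, _⟩ => e_121_y
  | ⟨28, _⟩ => e_122_y
  | ⟨29, _⟩ => e_195_y
  | ⟨30, _⟩ => e_124_y
  | ⟨31, _⟩ => e_242_y
  | ⟨32, _⟩ => e_244_y
  | ⟨33, _⟩ => e_246_y
  | ⟨34, _⟩ => e_248_y
  | ⟨35, _⟩ => e_129_y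
  | ⟨36, _⟩ => e_251_y
  | ⟨37, _⟩ => e_130_y
  | ⟨38, _⟩ => e_254_y
  | ⟨39, _⟩ => e_131_y
  | ⟨40, _⟩ => e_257_y
  | ⟨41, _⟩ => e_132_y
  | ⟨42, _⟩ => e_133_y
  | ⟨43, _⟩ => e_168_y
  | ⟨44, _⟩ => e_134_y
  | ⟨45, _⟩ => e_135_y
  | ⟨46, _⟩ => e_262_y
  | ⟨47, _⟩ => e_136_y
  | ⟨48, _⟩ => e_137_y
  | ⟨49, _⟩ => e_174_y
  | ⟨50, _⟩ => e_138_y
  | ⟨51, _⟩ => e_139_y
  | ⟨52, _⟩ => e_140_y
  | ⟨53, _⟩ => e_141_y
  | ⟨54, _⟩ => e_142_y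
  | ⟨55, _⟩ => e_225_y
  | ⟨56, _⟩ => e_144_y
  | ⟨57, _⟩ => e_277_y
  | ⟨58, _⟩ => e_146_y
  | ⟨59, _⟩ => e_231_y
  | ⟨60, _⟩ => e_148_y
  | ⟨61, _⟩ => e_283_y
  | ⟨62, _⟩ => e_285_y
  | ⟨n+63, h⟩ => absurd h (by omega)
theorem pre_y_c3 : ∀ b : Fin 63, rep (px_y_c3 b) * y = rep_c3 b
  | ⟨0, _⟩ => e_287_y
  | ⟨1, _⟩ => e_289_y
  | ⟨2, _⟩ => e_153_y
  | ⟨3, _⟩ => e_290_y
  | ⟨4, _⟩ => e_154_y
  | ⟨5, _⟩ => e_155_y
  | ⟨6, _⟩ => e_194_y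
  | ⟨7, _⟩ => e_156_y
  | ⟨8, _⟩ => e_157_y
  | ⟨9, _⟩ => e_158_y
  | ⟨10, _⟩ => e_159_y
  | ⟨11, _⟩ => e_160_y
  | ⟨12, _⟩ => e_250_y
  | ⟨13, _⟩ => e_162_y
  | ⟨14, _⟩ => e_305_y
  | ⟨15, _⟩ => e_164_y
  | ⟨16, _⟩ => e_256_y
  | ⟨17, _⟩ => e_166_y
  | ⟨18, _⟩ => e_311_y
  | ⟨19, _⟩ => e_313_y
  | ⟨20, _⟩ => e_315_y
  | ⟨21, _⟩ => e_317_y
  | ⟨22, _⟩ => e_171_y
  | ⟨23, _⟩ => e_172_y
  | ⟨24, _⟩ => e_320_y
  | ⟨25, _⟩ => e_322_y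
  | ⟨26, _⟩ => e_323_y
  | ⟨27, _⟩ => e_325_y
  | ⟨28, _⟩ => e_177_y
  | ⟨29, _⟩ => e_328_y
  | ⟨30, _⟩ => e_178_y
  | ⟨31, _⟩ => e_330_y
  | ⟨32, _⟩ => e_179_y
  | ⟨33, _⟩ => e_333_y
  | ⟨34, _⟩ => e_180_y
  | ⟨35, _⟩ => e_181_y
  | ⟨36, _⟩ => e_224_y
  | ⟨37, _⟩ => e_182_y
  | ⟨38, _⟩ => e_183_y
  | ⟨39, _⟩ => e_338_y
  | ⟨40, _⟩ => e_184_y
  | ⟨41, _⟩ => e_185_y
  | ⟨42, _⟩ => e_230_y
  | ⟨43, _⟩ => e_186_y
  | ⟨44, _⟩ => e_187_y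
  | ⟨45, _⟩ => e_188_y
  | ⟨46, _⟩ => e_189_y
  | ⟨47, _⟩ => e_190_y
  | ⟨48, _⟩ => e_192_y
  | ⟨49, _⟩ => e_352_y
  | ⟨50, _⟩ => e_354_y
  | ⟨51, _⟩ => e_355_y
  | ⟨52, _⟩ => e_357_y
  | ⟨53, _⟩ => e_197_y
  | ⟨54, _⟩ => e_360_y
  | ⟨55, _⟩ => e_198_y
  | ⟨56, _⟩ => e_362_y
  | ⟨57, _⟩ => e_199_y
  | ⟨58, _⟩ => e_365_y
  | ⟨59, _⟩ => e_200_y
  | ⟨60, _⟩ => e_201_y
  | ⟨61, _⟩ => e_249_y
  | ⟨62, _⟩ => e_202_y
  | ⟨n+63, h⟩ => absurd h (by omega)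
theorem pre_y_c4 : ∀ b : Fin 63, rep (px_y_c4 b) * y = rep_c4 b
  | ⟨0, _⟩ => e_203_y
  | ⟨1, _⟩ => e_370_y
  | ⟨2, _⟩ => e_204_y
  | ⟨3, _⟩ => e_205_y
  | ⟨4, _⟩ => e_255_y
  | ⟨5, _⟩ => e_206_y
  | ⟨6, _⟩ => e_207_y
  | ⟨7, _⟩ => e_208_y
  | ⟨8, _⟩ => e_209_y
  | ⟨9, _⟩ => e_210_y
  | ⟨10, _⟩ => e_212_y
  | ⟨11, _⟩ => e_213_y
  | ⟨12, _⟩ => e_214_y
  | ⟨13, _⟩ => e_215_y
  | ⟨14, _⟩ => e_216_y
  | ⟨15, _⟩ => e_327_y
  | ⟨16, _⟩ => e_218_y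
  | ⟨17, _⟩ => e_392_y
  | ⟨18, _⟩ => e_220_y
  | ⟨19, _⟩ => e_332_y
  | ⟨20, _⟩ => e_222_y
  | ⟨21, _⟩ => e_396_y
  | ⟨22, _⟩ => e_398_y
  | ⟨23, _⟩ => e_400_y
  | ⟨24, _⟩ => e_401_y
  | ⟨25, _⟩ => e_227_y
  | ⟨26, _⟩ => e_228_y
  | ⟨27, _⟩ => e_403_y
  | ⟨28, _⟩ => e_405_y
  | ⟨29, _⟩ => e_406_y
  | ⟨30, _⟩ => e_408_y
  | ⟨31, _⟩ => e_233_y
  | ⟨32, _⟩ => e_411_y
  | ⟨33, _⟩ => e_234_y
  | ⟨34, _⟩ => e_413_y
  | ⟨35, _⟩ => e_235_y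
  | ⟨36, _⟩ => e_416_y
  | ⟨37, _⟩ => e_236_y
  | ⟨38, _⟩ => e_237_y
  | ⟨39, _⟩ => e_238_y
  | ⟨40, _⟩ => e_239_y
  | ⟨41, _⟩ => e_240_y
  | ⟨42, _⟩ => e_241_y
  | ⟨43, _⟩ => e_359_y
  | ⟨44, _⟩ => e_243_y
  | ⟨45, _⟩ => e_387_y
  | ⟨46, _⟩ => e_245_y
  | ⟨47, _⟩ => e_364_y
  | ⟨48, _⟩ => e_247_y
  | ⟨49, _⟩ => e_425_y
  | ⟨50, _⟩ => e_426_y
  | ⟨51, _⟩ => e_390_y
  | ⟨52, _⟩ => e_427_y
  | ⟨53, _⟩ => e_252_y
  | ⟨54, _⟩ => e_253_y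
  | ⟨55, _⟩ => e_429_y
  | ⟨56, _⟩ => e_393_y
  | ⟨57, _⟩ => e_430_y
  | ⟨58, _⟩ => e_432_y
  | ⟨59, _⟩ => e_258_y
  | ⟨60, _⟩ => e_399_y
  | ⟨61, _⟩ => e_259_y
  | ⟨62, _⟩ => e_436_y
  | ⟨n+63, h⟩ => absurd h (by omega)
theorem pre_y_c5 : ∀ b : Fin 63, rep (px_y_c5 b) * y = rep_c5 b
  | ⟨0, _⟩ => e_260_y
  | ⟨1, _⟩ => e_438_y
  | ⟨2, _⟩ => e_261_y
  | ⟨3, _⟩ => e_440_y
  | ⟨4, _⟩ => e_441_y
  | ⟨5, _⟩ => e_263_y
  | ⟨6, _⟩ => e_419_y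
  | ⟨7, _⟩ => e_264_y
  | ⟨8, _⟩ => e_265_y
  | ⟨9, _⟩ => e_443_y
  | ⟨10, _⟩ => e_266_y
  | ⟨11, _⟩ => e_267_y
  | ⟨12, _⟩ => e_326_y
  | ⟨13, _⟩ => e_268_y
  | ⟨14, _⟩ => e_269_y
  | ⟨15, _⟩ => e_270_y
  | ⟨16, _⟩ => e_271_y
  | ⟨17, _⟩ => e_331_y
  | ⟨18, _⟩ => e_272_y
  | ⟨19, _⟩ => e_273_y
  | ⟨20, _⟩ => e_274_y
  | ⟨21, _⟩ => e_275_y
  | ⟨22, _⟩ => e_276_y
  | ⟨23, _⟩ => e_278_y
  | ⟨24, _⟩ => e_279_y
  | ⟨25, _⟩ => e_280_y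
  | ⟨26, _⟩ => e_281_y
  | ⟨27, _⟩ => e_282_y
  | ⟨28, _⟩ => e_410_y
  | ⟨29, _⟩ => e_284_y
  | ⟨30, _⟩ => e_455_y
  | ⟨31, _⟩ => e_286_y
  | ⟨32, _⟩ => e_415_y
  | ⟨33, _⟩ => e_288_y
  | ⟨34, _⟩ => e_457_y
  | ⟨35, _⟩ => e_458_y
  | ⟨36, _⟩ => e_449_y
  | ⟨37, _⟩ => e_291_y
  | ⟨38, _⟩ => e_384_y
  | ⟨39, _⟩ => e_292_y
  | ⟨40, _⟩ => e_293_y
  | ⟨41, _⟩ => e_445_y
  | ⟨42, _⟩ => e_294_y
  | ⟨43, _⟩ => e_295_y
  | ⟨44, _⟩ => e_358_y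
  | ⟨45, _⟩ => e_296_y
  | ⟨46, _⟩ => e_297_y
  | ⟨47, _⟩ => e_298_y
  | ⟨48, _⟩ => e_299_y
  | ⟨49, _⟩ => e_363_y
  | ⟨50, _⟩ => e_300_y
  | ⟨51, _⟩ => e_301_y
  | ⟨52, _⟩ => e_302_y
  | ⟨53, _⟩ => e_303_y
  | ⟨54, _⟩ => e_304_y
  | ⟨55, _⟩ => e_306_y
  | ⟨56, _⟩ => e_307_y
  | ⟨57, _⟩ => e_308_y
  | ⟨58, _⟩ => e_309_y
  | ⟨59, _⟩ => e_310_y
  | ⟨60, _⟩ => e_434_y
  | ⟨61, _⟩ => e_312_y
  | ⟨62, _⟩ => e_467_y
  | ⟨n+63, h⟩ => absurd h (by omega)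
theorem pre_y_c6 : ∀ b : Fin 63, rep (px_y_c6 b) * y = rep_c6 b
  | ⟨0, _⟩ => e_314_y
  | ⟨1, _⟩ => e_437_y
  | ⟨2, _⟩ => e_316_y
  | ⟨3, _⟩ => e_469_y
  | ⟨4, _⟩ => e_318_y
  | ⟨5, _⟩ => e_319_y
  | ⟨6, _⟩ => e_420_y
  | ⟨7, _⟩ => e_321_y
  | ⟨8, _⟩ => e_452_y
  | ⟨9, _⟩ => e_361_y
  | ⟨10, _⟩ => e_324_y
  | ⟨11, _⟩ => e_472_y
  | ⟨12, _⟩ => e_368_y
  | ⟨13, _⟩ => e_356_y
  | ⟨14, _⟩ => e_329_y
  | ⟨15, _⟩ => e_372_y
  | ⟨16, _⟩ => e_473_y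
  | ⟨17, _⟩ => e_475_y
  | ⟨18, _⟩ => e_334_y
  | ⟨19, _⟩ => e_351_y
  | ⟨20, _⟩ => e_335_y
  | ⟨21, _⟩ => e_376_y
  | ⟨22, _⟩ => e_336_y
  | ⟨23, _⟩ => e_337_y
  | ⟨24, _⟩ => e_479_y
  | ⟨25, _⟩ => e_339_y
  | ⟨26, _⟩ => e_379_y
  | ⟨27, _⟩ => e_340_y
  | ⟨28, _⟩ => e_341_y
  | ⟨29, _⟩ => e_480_y
  | ⟨30, _⟩ => e_342_y
  | ⟨31, _⟩ => e_343_y
  | ⟨32, _⟩ => e_409_y
  | ⟨33, _⟩ => e_344_y
  | ⟨34, _⟩ => e_345_y
  | ⟨35, _⟩ => e_346_y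
  | ⟨36, _⟩ => e_347_y
  | ⟨37, _⟩ => e_414_y
  | ⟨38, _⟩ => e_348_y
  | ⟨39, _⟩ => e_349_y
  | ⟨40, _⟩ => e_350_y
  | ⟨41, _⟩ => e_385_y
  | ⟨42, _⟩ => e_353_y
  | ⟨43, _⟩ => e_464_y
  | ⟨44, _⟩ => e_485_y
  | ⟨45, _⟩ => e_483_y
  | ⟨46, _⟩ => e_487_y
  | ⟨47, _⟩ => e_366_y
  | ⟨48, _⟩ => e_367_y
  | ⟨49, _⟩ => e_369_y
  | ⟨50, _⟩ => e_478_y
  | ⟨51, _⟩ => e_371_y
  | ⟨52, _⟩ => e_373_y
  | ⟨53, _⟩ => e_489_y
  | ⟨54, _⟩ => e_374_y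
  | ⟨55, _⟩ => e_375_y
  | ⟨56, _⟩ => e_433_y
  | ⟨57, _⟩ => e_377_y
  | ⟨58, _⟩ => e_378_y
  | ⟨59, _⟩ => e_404_y
  | ⟨60, _⟩ => e_380_y
  | ⟨61, _⟩ => e_381_y
  | ⟨62, _⟩ => e_382_y
  | ⟨n+63, h⟩ => absurd h (by omega)
theorem pre_y_c7 : ∀ b : Fin 63, rep (px_y_c7 b) * y = rep_c7 b
  | ⟨0, _⟩ => e_383_y
  | ⟨1, _⟩ => e_386_y
  | ⟨2, _⟩ => e_388_y
  | ⟨3, _⟩ => e_389_y
  | ⟨4, _⟩ => e_391_y
  | ⟨5, _⟩ => e_394_y
  | ⟨6, _⟩ => e_395_y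
  | ⟨7, _⟩ => e_477_y
  | ⟨8, _⟩ => e_397_y
  | ⟨9, _⟩ => e_428_y
  | ⟨10, _⟩ => e_402_y
  | ⟨11, _⟩ => e_442_y
  | ⟨12, _⟩ => e_407_y
  | ⟨13, _⟩ => e_484_y
  | ⟨14, _⟩ => e_412_y
  | ⟨15, _⟩ => e_486_y
  | ⟨16, _⟩ => e_417_y
  | ⟨17, _⟩ => e_418_y
  | ⟨18, _⟩ => e_421_y
  | ⟨19, _⟩ => e_422_y
  | ⟨20, _⟩ => e_423_y
  | ⟨21, _⟩ => e_424_y
  | ⟨22, _⟩ => e_470_y
  | ⟨23, _⟩ => e_459_y
  | ⟨24, _⟩ => e_431_y
  | ⟨25, _⟩ => e_471_y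
  | ⟨26, _⟩ => e_435_y
  | ⟨27, _⟩ => e_474_y
  | ⟨28, _⟩ => e_439_y
  | ⟨29, _⟩ => e_488_y
  | ⟨30, _⟩ => e_490_y
  | ⟨31, _⟩ => e_444_y
  | ⟨32, _⟩ => e_446_y
  | ⟨33, _⟩ => e_491_y
  | ⟨34, _⟩ => e_447_y
  | ⟨35, _⟩ => e_448_y
  | ⟨36, _⟩ => e_476_y
  | ⟨37, _⟩ => e_450_y
  | ⟨38, _⟩ => e_451_y
  | ⟨39, _⟩ => e_453_y
  | ⟨40, _⟩ => e_454_y
  | ⟨41, _⟩ => e_456_y
  | ⟨42, _⟩ => e_461_y
  | ⟨43, _⟩ => e_481_y
  | ⟨44, _⟩ => e_460_y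
  | ⟨45, _⟩ => e_482_y
  | ⟨46, _⟩ => e_462_y
  | ⟨47, _⟩ => e_463_y
  | ⟨48, _⟩ => e_465_y
  | ⟨49, _⟩ => e_466_y
  | ⟨50, _⟩ => e_468_y
  | ⟨51, _⟩ => e_495_y
  | ⟨52, _⟩ => e_496_y
  | ⟨53, _⟩ => e_497_y
  | ⟨54, _⟩ => e_501_y
  | ⟨55, _⟩ => e_502_y
  | ⟨56, _⟩ => e_498_y
  | ⟨57, _⟩ => e_494_y
  | ⟨58, _⟩ => e_500_y
  | ⟨59, _⟩ => e_503_y
  | ⟨60, _⟩ => e_492_y
  | ⟨61, _⟩ => e_493_y
  | ⟨62, _⟩ => e_499_y
  | ⟨n+63, h⟩ => absurd h (by omega)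
theorem pre_y_ch : ∀ (a : Fin 8) (b : Fin 63), rep (px_y_ch a b) * y = rep_ch a b
  | ⟨0, _⟩ => pre_y_c0
  | ⟨1, _⟩ => pre_y_c1
  | ⟨2, _⟩ => pre_y_c2
  | ⟨3, _⟩ => pre_y_c3
  | ⟨4, _⟩ => pre_y_c4
  | ⟨5, _⟩ => pre_y_c5
  | ⟨6, _⟩ => pre_y_c6
  | ⟨7, _⟩ => pre_y_c7
  | ⟨n+8, h⟩ => absurd h (by omega)
theorem pre_y (i : Idx) : rep (px_y i) * y = rep i :=
  pre_y_ch i.1 i.2

theorem rep_surj : Function.Surjective rep := by
  let H : Subgroup P :=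
    { carrier := {p | ∀ s : P, s ∈ Set.range rep ↔ s * p ∈ Set.range rep}
      mul_mem' := by
        intro a b ha hb s
        rw [ha s, hb (s * a), mul_assoc]
      one_mem' := by intro s; rw [mul_one]
      inv_mem' := by
        intro a ha s
        rw [ha (s * a⁻¹), inv_mul_cancel_right] }
  have hgen : ∀ j : Fin 2, (PresentedGroup.of j : P) ∈ H := by
    intro j
    fin_cases j
    · intro s
      constructor
      · rintro ⟨i, rfl⟩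
        exact ⟨nx_x i, (closed_x i).symm⟩
      · rintro ⟨i, hi⟩
        refine ⟨px_x i, ?_⟩
        have := pre_x i
        rw [hi] at this
        exact mul_right_cancel this
    · intro s
      constructor
      · rintro ⟨i, rfl⟩
        exact ⟨nx_y i, (closed_y i).symm⟩
      · rintro ⟨i, hi⟩
        refine ⟨px_y i, ?_⟩
        have := pre_y i
        rw [hi] at this
        exact mul_right_cancel this
  intro p
  have hp : p ∈ H := PresentedGroup.generated_by rels H hgen p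
  have h1 : (1 : P) * p ∈ Set.range rep := (hp 1).mp ⟨(0, 0), rfl⟩
  rw [one_mul] at h1
  exact h1

/-! ### The map to `PSL(2, L)` -/

abbrev S8 := Matrix.SpecialLinearGroup (Fin 2) F8

def gA : S8 := ⟨!![⟨0⟩, ⟨1⟩; ⟨1⟩, ⟨0⟩], by rw [Matrix.det_fin_two]; decide⟩
def gB : S8 := ⟨!![⟨0⟩, ⟨2⟩; ⟨5⟩, ⟨1⟩], by rw [Matrix.det_fin_two]; decide⟩

def m8_0 : S8 := ⟨!![⟨1⟩, ⟨0⟩; ⟨0⟩, ⟨1⟩], by rw [Matrix.det_fin_two]; decide⟩
def m8_1 : S8 := ⟨!![⟨0⟩, ⟨1⟩; ⟨1⟩, ⟨0⟩], by rw [Matrix.det_fin_two]; decide⟩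
def m8_2 : S8 := ⟨!![⟨0⟩, ⟨2⟩; ⟨5⟩, ⟨1⟩], by rw [Matrix.det_fin_two]; decide⟩
def m8_3 : S8 := ⟨!![⟨5⟩, ⟨1⟩; ⟨0⟩, ⟨2⟩], by rw [Matrix.det_fin_two]; decide⟩
def m8_4 : S8 := ⟨!![⟨2⟩, ⟨0⟩; ⟨1⟩, ⟨5⟩], by rw [Matrix.det_fin_two]; decide⟩
def m8_5 : S8 := ⟨!![⟨1⟩, ⟨2⟩; ⟨5⟩, ⟨0⟩], by rw [Matrix.det_fin_two]; decide⟩
def m8_6 : S8 := ⟨!![⟨1⟩, ⟨5⟩; ⟨2⟩, ⟨0⟩], by rw [Matrix.det_fin_two]; decide⟩
def m8_7 : S8 := ⟨!![⟨5⟩, ⟨0⟩; ⟨1⟩, ⟨2⟩], by rw [Matrix.det_fin_two]; decide⟩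
def m8_8 : S8 := ⟨!![⟨0⟩, ⟨4⟩; ⟨7⟩, ⟨7⟩], by rw [Matrix.det_fin_two]; decide⟩
def m8_9 : S8 := ⟨!![⟨2⟩, ⟨1⟩; ⟨0⟩, ⟨5⟩], by rw [Matrix.det_fin_two]; decide⟩
def m8_10 : S8 := ⟨!![⟨7⟩, ⟨7⟩; ⟨0⟩, ⟨4⟩], by rw [Matrix.det_fin_two]; decide⟩
def m8_11 : S8 := ⟨!![⟨0⟩, ⟨5⟩; ⟨2⟩, ⟨1⟩], by rw [Matrix.det_fin_two]; decide⟩
def m8_12 : S8 := ⟨!![⟨4⟩, ⟨0⟩; ⟨7⟩, ⟨7⟩], by rw [Matrix.det_fin_two]; decide⟩
def m8_13 : S8 := ⟨!![⟨2⟩, ⟨4⟩; ⟨6⟩, ⟨2⟩], by rw [Matrix.det_fin_two]; decide⟩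
def m8_14 : S8 := ⟨!![⟨5⟩, ⟨5⟩; ⟨7⟩, ⟨5⟩], by rw [Matrix.det_fin_two]; decide⟩
def m8_15 : S8 := ⟨!![⟨7⟩, ⟨7⟩; ⟨4⟩, ⟨0⟩], by rw [Matrix.det_fin_two]; decide⟩
def m8_16 : S8 := ⟨!![⟨6⟩, ⟨2⟩; ⟨2⟩, ⟨4⟩], by rw [Matrix.det_fin_two]; decide⟩
def m8_17 : S8 := ⟨!![⟨7⟩, ⟨5⟩; ⟨5⟩, ⟨5⟩], by rw [Matrix.det_fin_two]; decide⟩
def m8_18 : S8 := ⟨!![⟨0⟩, ⟨3⟩; ⟨6⟩, ⟨2⟩], by rw [Matrix.det_fin_two]; decide⟩
def m8_19 : S8 := ⟨!![⟨4⟩, ⟨2⟩; ⟨2⟩, ⟨6⟩], by rw [Matrix.det_fin_two]; decide⟩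
def m8_20 : S8 := ⟨!![⟨5⟩, ⟨5⟩; ⟨5⟩, ⟨7⟩], by rw [Matrix.det_fin_two]; decide⟩
def m8_21 : S8 := ⟨!![⟨7⟩, ⟨4⟩; ⟨7⟩, ⟨0⟩], by rw [Matrix.det_fin_two]; decide⟩
def m8_22 : S8 := ⟨!![⟨6⟩, ⟨2⟩; ⟨0⟩, ⟨3⟩], by rw [Matrix.det_fin_two]; decide⟩
def m8_23 : S8 := ⟨!![⟨2⟩, ⟨6⟩; ⟨4⟩, ⟨2⟩], by rw [Matrix.det_fin_two]; decide⟩
def m8_24 : S8 := ⟨!![⟨5⟩, ⟨7⟩; ⟨5⟩, ⟨5⟩], by rw [Matrix.det_fin_two]; decide⟩
def m8_25 : S8 := ⟨!![⟨7⟩, ⟨0⟩; ⟨7⟩, ⟨4⟩], by rw [Matrix.det_fin_two]; decide⟩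
def m8_26 : S8 := ⟨!![⟨3⟩, ⟨0⟩; ⟨2⟩, ⟨6⟩], by rw [Matrix.det_fin_two]; decide⟩
def m8_27 : S8 := ⟨!![⟨4⟩, ⟨3⟩; ⟨1⟩, ⟨5⟩], by rw [Matrix.det_fin_two]; decide⟩
def m8_28 : S8 := ⟨!![⟨1⟩, ⟨1⟩; ⟨3⟩, ⟨2⟩], by rw [Matrix.det_fin_two]; decide⟩
def m8_29 : S8 := ⟨!![⟨7⟩, ⟨4⟩; ⟨6⟩, ⟨6⟩], by rw [Matrix.det_fin_two]; decide⟩
def m8_30 : S8 := ⟨!![⟨4⟩, ⟨7⟩; ⟨0⟩, ⟨7⟩], by rw [Matrix.det_fin_two]; decide⟩
def m8_31 : S8 := ⟨!![⟨2⟩, ⟨6⟩; ⟨3⟩, ⟨0⟩], by rw [Matrix.det_fin_two]; decide⟩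
def m8_32 : S8 := ⟨!![⟨1⟩, ⟨5⟩; ⟨4⟩, ⟨3⟩], by rw [Matrix.det_fin_two]; decide⟩
def m8_33 : S8 := ⟨!![⟨3⟩, ⟨2⟩; ⟨1⟩, ⟨1⟩], by rw [Matrix.det_fin_two]; decide⟩
def m8_34 : S8 := ⟨!![⟨6⟩, ⟨6⟩; ⟨7⟩, ⟨4⟩], by rw [Matrix.det_fin_two]; decide⟩
def m8_35 : S8 := ⟨!![⟨0⟩, ⟨7⟩; ⟨4⟩, ⟨7⟩], by rw [Matrix.det_fin_two]; decide⟩
def m8_36 : S8 := ⟨!![⟨0⟩, ⟨6⟩; ⟨3⟩, ⟨2⟩], by rw [Matrix.det_fin_two]; decide⟩
def m8_37 : S8 := ⟨!![⟨3⟩, ⟨4⟩; ⟨5⟩, ⟨1⟩], by rw [Matrix.det_fin_two]; decide⟩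
def m8_38 : S8 := ⟨!![⟨1⟩, ⟨1⟩; ⟨2⟩, ⟨3⟩], by rw [Matrix.det_fin_two]; decide⟩
def m8_39 : S8 := ⟨!![⟨5⟩, ⟨3⟩; ⟨1⟩, ⟨4⟩], by rw [Matrix.det_fin_two]; decide⟩
def m8_40 : S8 := ⟨!![⟨4⟩, ⟨7⟩; ⟨6⟩, ⟨6⟩], by rw [Matrix.det_fin_two]; decide⟩
def m8_41 : S8 := ⟨!![⟨2⟩, ⟨1⟩; ⟨3⟩, ⟨1⟩], by rw [Matrix.det_fin_two]; decide⟩
def m8_42 : S8 := ⟨!![⟨6⟩, ⟨4⟩; ⟨6⟩, ⟨7⟩], by rw [Matrix.det_fin_two]; decide⟩
def m8_43 : S8 := ⟨!![⟨3⟩, ⟨2⟩; ⟨0⟩, ⟨6⟩], by rw [Matrix.det_fin_two]; decide⟩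
def m8_44 : S8 := ⟨!![⟨5⟩, ⟨1⟩; ⟨3⟩, ⟨4⟩], by rw [Matrix.det_fin_two]; decide⟩
def m8_45 : S8 := ⟨!![⟨2⟩, ⟨3⟩; ⟨1⟩, ⟨1⟩], by rw [Matrix.det_fin_two]; decide⟩
def m8_46 : S8 := ⟨!![⟨1⟩, ⟨4⟩; ⟨5⟩, ⟨3⟩], by rw [Matrix.det_fin_two]; decide⟩
def m8_47 : S8 := ⟨!![⟨6⟩, ⟨6⟩; ⟨4⟩, ⟨7⟩], by rw [Matrix.det_fin_two]; decide⟩
def m8_48 : S8 := ⟨!![⟨3⟩, ⟨1⟩; ⟨2⟩, ⟨1⟩], by rw [Matrix.det_fin_two]; decide⟩
def m8_49 : S8 := ⟨!![⟨6⟩, ⟨7⟩; ⟨6⟩, ⟨4⟩], by rw [Matrix.det_fin_two]; decide⟩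
def m8_50 : S8 := ⟨!![⟨6⟩, ⟨0⟩; ⟨2⟩, ⟨3⟩], by rw [Matrix.det_fin_two]; decide⟩
def m8_51 : S8 := ⟨!![⟨3⟩, ⟨6⟩; ⟨1⟩, ⟨4⟩], by rw [Matrix.det_fin_two]; decide⟩
def m8_52 : S8 := ⟨!![⟨2⟩, ⟨2⟩; ⟨5⟩, ⟨0⟩], by rw [Matrix.det_fin_two]; decide⟩
def m8_53 : S8 := ⟨!![⟨5⟩, ⟨3⟩; ⟨4⟩, ⟨7⟩], by rw [Matrix.det_fin_two]; decide⟩
def m8_54 : S8 := ⟨!![⟨3⟩, ⟨5⟩; ⟨4⟩, ⟨1⟩], by rw [Matrix.det_fin_two]; decide⟩
def m8_55 : S8 := ⟨!![⟨6⟩, ⟨4⟩; ⟨3⟩, ⟨1⟩], by rw [Matrix.det_fin_two]; decide⟩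
def m8_56 : S8 := ⟨!![⟨1⟩, ⟨2⟩; ⟨1⟩, ⟨3⟩], by rw [Matrix.det_fin_two]; decide⟩
def m8_57 : S8 := ⟨!![⟨4⟩, ⟨6⟩; ⟨7⟩, ⟨6⟩], by rw [Matrix.det_fin_two]; decide⟩
def m8_58 : S8 := ⟨!![⟨2⟩, ⟨3⟩; ⟨6⟩, ⟨0⟩], by rw [Matrix.det_fin_two]; decide⟩
def m8_59 : S8 := ⟨!![⟨1⟩, ⟨4⟩; ⟨3⟩, ⟨6⟩], by rw [Matrix.det_fin_two]; decide⟩
def m8_60 : S8 := ⟨!![⟨5⟩, ⟨0⟩; ⟨2⟩, ⟨2⟩], by rw [Matrix.det_fin_two]; decide⟩
def m8_61 : S8 := ⟨!![⟨4⟩, ⟨7⟩; ⟨5⟩, ⟨3⟩], by rw [Matrix.det_fin_two]; decide⟩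
def m8_62 : S8 := ⟨!![⟨4⟩, ⟨1⟩; ⟨3⟩, ⟨5⟩], by rw [Matrix.det_fin_two]; decide⟩
def m8_63 : S8 := ⟨!![⟨3⟩, ⟨1⟩; ⟨6⟩, ⟨4⟩], by rw [Matrix.det_fin_two]; decide⟩
def m8_64 : S8 := ⟨!![⟨1⟩, ⟨3⟩; ⟨1⟩, ⟨2⟩], by rw [Matrix.det_fin_two]; decide⟩
def m8_65 : S8 := ⟨!![⟨7⟩, ⟨6⟩; ⟨4⟩, ⟨6⟩], by rw [Matrix.det_fin_two]; decide⟩
def m8_66 : S8 := ⟨!![⟨6⟩, ⟨3⟩; ⟨4⟩, ⟨1⟩], by rw [Matrix.det_fin_two]; decide⟩
def m8_67 : S8 := ⟨!![⟨2⟩, ⟨2⟩; ⟨0⟩, ⟨5⟩], by rw [Matrix.det_fin_two]; decide⟩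
def m8_68 : S8 := ⟨!![⟨1⟩, ⟨6⟩; ⟨0⟩, ⟨1⟩], by rw [Matrix.det_fin_two]; decide⟩
def m8_69 : S8 := ⟨!![⟨3⟩, ⟨5⟩; ⟨7⟩, ⟨4⟩], by rw [Matrix.det_fin_two]; decide⟩
def m8_70 : S8 := ⟨!![⟨4⟩, ⟨2⟩; ⟨6⟩, ⟨4⟩], by rw [Matrix.det_fin_two]; decide⟩
def m8_71 : S8 := ⟨!![⟨7⟩, ⟨3⟩; ⟨5⟩, ⟨2⟩], by rw [Matrix.det_fin_two]; decide⟩
def m8_72 : S8 := ⟨!![⟨4⟩, ⟨6⟩; ⟨1⟩, ⟨3⟩], by rw [Matrix.det_fin_two]; decide⟩
def m8_73 : S8 := ⟨!![⟨2⟩, ⟨3⟩; ⟨5⟩, ⟨7⟩], by rw [Matrix.det_fin_two]; decide⟩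
def m8_74 : S8 := ⟨!![⟨1⟩, ⟨0⟩; ⟨4⟩, ⟨1⟩], by rw [Matrix.det_fin_two]; decide⟩
def m8_75 : S8 := ⟨!![⟨3⟩, ⟨5⟩; ⟨3⟩, ⟨3⟩], by rw [Matrix.det_fin_two]; decide⟩
def m8_76 : S8 := ⟨!![⟨4⟩, ⟨1⟩; ⟨6⟩, ⟨3⟩], by rw [Matrix.det_fin_two]; decide⟩
def m8_77 : S8 := ⟨!![⟨0⟩, ⟨5⟩; ⟨2⟩, ⟨2⟩], by rw [Matrix.det_fin_two]; decide⟩
def m8_78 : S8 := ⟨!![⟨0⟩, ⟨1⟩; ⟨1⟩, ⟨6⟩], by rw [Matrix.det_fin_two]; decide⟩
def m8_79 : S8 := ⟨!![⟨7⟩, ⟨4⟩; ⟨3⟩, ⟨5⟩], by rw [Matrix.det_fin_two]; decide⟩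
def m8_80 : S8 := ⟨!![⟨6⟩, ⟨4⟩; ⟨4⟩, ⟨2⟩], by rw [Matrix.det_fin_two]; decide⟩
def m8_81 : S8 := ⟨!![⟨5⟩, ⟨2⟩; ⟨7⟩, ⟨3⟩], by rw [Matrix.det_fin_two]; decide⟩
def m8_82 : S8 := ⟨!![⟨1⟩, ⟨3⟩; ⟨4⟩, ⟨6⟩], by rw [Matrix.det_fin_two]; decide⟩
def m8_83 : S8 := ⟨!![⟨5⟩, ⟨7⟩; ⟨2⟩, ⟨3⟩], by rw [Matrix.det_fin_two]; decide⟩
def m8_84 : S8 := ⟨!![⟨4⟩, ⟨1⟩; ⟨1⟩, ⟨0⟩], by rw [Matrix.det_fin_two]; decide⟩
def m8_85 : S8 := ⟨!![⟨3⟩, ⟨3⟩; ⟨3⟩, ⟨5⟩], by rw [Matrix.det_fin_two]; decide⟩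
def m8_86 : S8 := ⟨!![⟨4⟩, ⟨4⟩; ⟨5⟩, ⟨2⟩], by rw [Matrix.det_fin_two]; decide⟩
def m8_87 : S8 := ⟨!![⟨1⟩, ⟨6⟩; ⟨7⟩, ⟨5⟩], by rw [Matrix.det_fin_two]; decide⟩
def m8_88 : S8 := ⟨!![⟨6⟩, ⟨1⟩; ⟨1⟩, ⟨0⟩], by rw [Matrix.det_fin_two]; decide⟩
def m8_89 : S8 := ⟨!![⟨7⟩, ⟨3⟩; ⟨2⟩, ⟨1⟩], by rw [Matrix.det_fin_two]; decide⟩
def m8_90 : S8 := ⟨!![⟨2⟩, ⟨4⟩; ⟨4⟩, ⟨6⟩], by rw [Matrix.det_fin_two]; decide⟩
def m8_91 : S8 := ⟨!![⟨3⟩, ⟨7⟩; ⟨2⟩, ⟨5⟩], by rw [Matrix.det_fin_two]; decide⟩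
def m8_92 : S8 := ⟨!![⟨3⟩, ⟨2⟩; ⟨7⟩, ⟨5⟩], by rw [Matrix.det_fin_two]; decide⟩
def m8_93 : S8 := ⟨!![⟨0⟩, ⟨1⟩; ⟨1⟩, ⟨4⟩], by rw [Matrix.det_fin_two]; decide⟩
def m8_94 : S8 := ⟨!![⟨0⟩, ⟨2⟩; ⟨5⟩, ⟨2⟩], by rw [Matrix.det_fin_two]; decide⟩
def m8_95 : S8 := ⟨!![⟨5⟩, ⟨3⟩; ⟨3⟩, ⟨3⟩], by rw [Matrix.det_fin_two]; decide⟩
def m8_96 : S8 := ⟨!![⟨7⟩, ⟨3⟩; ⟨4⟩, ⟨5⟩], by rw [Matrix.det_fin_two]; decide⟩
def m8_97 : S8 := ⟨!![⟨5⟩, ⟨2⟩; ⟨4⟩, ⟨4⟩], by rw [Matrix.det_fin_two]; decide⟩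
def m8_98 : S8 := ⟨!![⟨7⟩, ⟨5⟩; ⟨1⟩, ⟨6⟩], by rw [Matrix.det_fin_two]; decide⟩
def m8_99 : S8 := ⟨!![⟨1⟩, ⟨0⟩; ⟨6⟩, ⟨1⟩], by rw [Matrix.det_fin_two]; decide⟩
def m8_100 : S8 := ⟨!![⟨2⟩, ⟨1⟩; ⟨7⟩, ⟨3⟩], by rw [Matrix.det_fin_two]; decide⟩
def m8_101 : S8 := ⟨!![⟨4⟩, ⟨6⟩; ⟨2⟩, ⟨4⟩], by rw [Matrix.det_fin_two]; decide⟩
def m8_102 : S8 := ⟨!![⟨2⟩, ⟨5⟩; ⟨3⟩, ⟨7⟩], by rw [Matrix.det_fin_two]; decide⟩
def m8_103 : S8 := ⟨!![⟨7⟩, ⟨5⟩; ⟨3⟩, ⟨2⟩], by rw [Matrix.det_fin_two]; decide⟩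
def m8_104 : S8 := ⟨!![⟨1⟩, ⟨4⟩; ⟨0⟩, ⟨1⟩], by rw [Matrix.det_fin_two]; decide⟩
def m8_105 : S8 := ⟨!![⟨5⟩, ⟨2⟩; ⟨0⟩, ⟨2⟩], by rw [Matrix.det_fin_two]; decide⟩
def m8_106 : S8 := ⟨!![⟨3⟩, ⟨3⟩; ⟨5⟩, ⟨3⟩], by rw [Matrix.det_fin_two]; decide⟩
def m8_107 : S8 := ⟨!![⟨4⟩, ⟨5⟩; ⟨7⟩, ⟨3⟩], by rw [Matrix.det_fin_two]; decide⟩
def m8_108 : S8 := ⟨!![⟨4⟩, ⟨4⟩; ⟨2⟩, ⟨5⟩], by rw [Matrix.det_fin_two]; decide⟩
def m8_109 : S8 := ⟨!![⟨2⟩, ⟨7⟩; ⟨1⟩, ⟨3⟩], by rw [Matrix.det_fin_two]; decide⟩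
def m8_110 : S8 := ⟨!![⟨6⟩, ⟨1⟩; ⟨5⟩, ⟨7⟩], by rw [Matrix.det_fin_two]; decide⟩
def m8_111 : S8 := ⟨!![⟨3⟩, ⟨4⟩; ⟨7⟩, ⟨0⟩], by rw [Matrix.det_fin_two]; decide⟩
def m8_112 : S8 := ⟨!![⟨5⟩, ⟨6⟩; ⟨0⟩, ⟨2⟩], by rw [Matrix.det_fin_two]; decide⟩
def m8_113 : S8 := ⟨!![⟨3⟩, ⟨7⟩; ⟨1⟩, ⟨2⟩], by rw [Matrix.det_fin_two]; decide⟩
def m8_114 : S8 := ⟨!![⟨4⟩, ⟨6⟩; ⟨5⟩, ⟨5⟩], by rw [Matrix.det_fin_two]; decide⟩
def m8_115 : S8 := ⟨!![⟨2⟩, ⟨0⟩; ⟨3⟩, ⟨5⟩], by rw [Matrix.det_fin_two]; decide⟩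
def m8_116 : S8 := ⟨!![⟨6⟩, ⟨1⟩; ⟨7⟩, ⟨1⟩], by rw [Matrix.det_fin_two]; decide⟩
def m8_117 : S8 := ⟨!![⟨1⟩, ⟨4⟩; ⟨7⟩, ⟨0⟩], by rw [Matrix.det_fin_two]; decide⟩
def m8_118 : S8 := ⟨!![⟨5⟩, ⟨1⟩; ⟨2⟩, ⟨6⟩], by rw [Matrix.det_fin_two]; decide⟩
def m8_119 : S8 := ⟨!![⟨2⟩, ⟨0⟩; ⟨2⟩, ⟨5⟩], by rw [Matrix.det_fin_two]; decide⟩
def m8_120 : S8 := ⟨!![⟨4⟩, ⟨2⟩; ⟨4⟩, ⟨5⟩], by rw [Matrix.det_fin_two]; decide⟩
def m8_121 : S8 := ⟨!![⟨3⟩, ⟨7⟩; ⟨5⟩, ⟨4⟩], by rw [Matrix.det_fin_two]; decide⟩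
def m8_122 : S8 := ⟨!![⟨2⟩, ⟨5⟩; ⟨4⟩, ⟨4⟩], by rw [Matrix.det_fin_two]; decide⟩
def m8_123 : S8 := ⟨!![⟨1⟩, ⟨3⟩; ⟨2⟩, ⟨7⟩], by rw [Matrix.det_fin_two]; decide⟩
def m8_124 : S8 := ⟨!![⟨5⟩, ⟨7⟩; ⟨6⟩, ⟨1⟩], by rw [Matrix.det_fin_two]; decide⟩
def m8_125 : S8 := ⟨!![⟨7⟩, ⟨0⟩; ⟨3⟩, ⟨4⟩], by rw [Matrix.det_fin_two]; decide⟩
def m8_126 : S8 := ⟨!![⟨0⟩, ⟨2⟩; ⟨5⟩, ⟨6⟩], by rw [Matrix.det_fin_two]; decide⟩
def m8_127 : S8 := ⟨!![⟨1⟩, ⟨2⟩; ⟨3⟩, ⟨7⟩], by rw [Matrix.det_fin_two]; decide⟩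
def m8_128 : S8 := ⟨!![⟨5⟩, ⟨5⟩; ⟨4⟩, ⟨6⟩], by rw [Matrix.det_fin_two]; decide⟩
def m8_129 : S8 := ⟨!![⟨3⟩, ⟨5⟩; ⟨2⟩, ⟨0⟩], by rw [Matrix.det_fin_two]; decide⟩
def m8_130 : S8 := ⟨!![⟨7⟩, ⟨1⟩; ⟨6⟩, ⟨1⟩], by rw [Matrix.det_fin_two]; decide⟩
def m8_131 : S8 := ⟨!![⟨7⟩, ⟨0⟩; ⟨1⟩, ⟨4⟩], by rw [Matrix.det_fin_two]; decide⟩
def m8_132 : S8 := ⟨!![⟨2⟩, ⟨6⟩; ⟨5⟩, ⟨1⟩], by rw [Matrix.det_fin_two]; decide⟩
def m8_133 : S8 := ⟨!![⟨2⟩, ⟨5⟩; ⟨2⟩, ⟨0⟩], by rw [Matrix.det_fin_two]; decide⟩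
def m8_134 : S8 := ⟨!![⟨4⟩, ⟨5⟩; ⟨4⟩, ⟨2⟩], by rw [Matrix.det_fin_two]; decide⟩
def m8_135 : S8 := ⟨!![⟨5⟩, ⟨4⟩; ⟨3⟩, ⟨7⟩], by rw [Matrix.det_fin_two]; decide⟩
def m8_136 : S8 := ⟨!![⟨2⟩, ⟨7⟩; ⟨7⟩, ⟨1⟩], by rw [Matrix.det_fin_two]; decide⟩
def m8_137 : S8 := ⟨!![⟨7⟩, ⟨2⟩; ⟨3⟩, ⟨1⟩], by rw [Matrix.det_fin_two]; decide⟩
def m8_138 : S8 := ⟨!![⟨5⟩, ⟨6⟩; ⟨6⟩, ⟨6⟩], by rw [Matrix.det_fin_two]; decide⟩
def m8_139 : S8 := ⟨!![⟨4⟩, ⟨3⟩; ⟨0⟩, ⟨7⟩], by rw [Matrix.det_fin_two]; decide⟩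
def m8_140 : S8 := ⟨!![⟨6⟩, ⟨5⟩; ⟨2⟩, ⟨0⟩], by rw [Matrix.det_fin_two]; decide⟩
def m8_141 : S8 := ⟨!![⟨6⟩, ⟨4⟩; ⟨5⟩, ⟨5⟩], by rw [Matrix.det_fin_two]; decide⟩
def m8_142 : S8 := ⟨!![⟨0⟩, ⟨2⟩; ⟨5⟩, ⟨3⟩], by rw [Matrix.det_fin_two]; decide⟩
def m8_143 : S8 := ⟨!![⟨0⟩, ⟨4⟩; ⟨7⟩, ⟨3⟩], by rw [Matrix.det_fin_two]; decide⟩
def m8_144 : S8 := ⟨!![⟨1⟩, ⟨6⟩; ⟨1⟩, ⟨7⟩], by rw [Matrix.det_fin_two]; decide⟩
def m8_145 : S8 := ⟨!![⟨5⟩, ⟨6⟩; ⟨5⟩, ⟨4⟩], by rw [Matrix.det_fin_two]; decide⟩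
def m8_146 : S8 := ⟨!![⟨4⟩, ⟨1⟩; ⟨0⟩, ⟨7⟩], by rw [Matrix.det_fin_two]; decide⟩
def m8_147 : S8 := ⟨!![⟨2⟩, ⟨6⟩; ⟨0⟩, ⟨5⟩], by rw [Matrix.det_fin_two]; decide⟩
def m8_148 : S8 := ⟨!![⟨1⟩, ⟨5⟩; ⟨6⟩, ⟨2⟩], by rw [Matrix.det_fin_two]; decide⟩
def m8_149 : S8 := ⟨!![⟨5⟩, ⟨0⟩; ⟨3⟩, ⟨2⟩], by rw [Matrix.det_fin_two]; decide⟩
def m8_150 : S8 := ⟨!![⟨0⟩, ⟨4⟩; ⟨7⟩, ⟨1⟩], by rw [Matrix.det_fin_two]; decide⟩
def m8_151 : S8 := ⟨!![⟨2⟩, ⟨4⟩; ⟨5⟩, ⟨4⟩], by rw [Matrix.det_fin_two]; decide⟩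
def m8_152 : S8 := ⟨!![⟨1⟩, ⟨1⟩; ⟨7⟩, ⟨6⟩], by rw [Matrix.det_fin_two]; decide⟩
def m8_153 : S8 := ⟨!![⟨6⟩, ⟨1⟩; ⟨2⟩, ⟨5⟩], by rw [Matrix.det_fin_two]; decide⟩
def m8_154 : S8 := ⟨!![⟨7⟩, ⟨1⟩; ⟨2⟩, ⟨7⟩], by rw [Matrix.det_fin_two]; decide⟩
def m8_155 : S8 := ⟨!![⟨3⟩, ⟨1⟩; ⟨7⟩, ⟨2⟩], by rw [Matrix.det_fin_two]; decide⟩
def m8_156 : S8 := ⟨!![⟨6⟩, ⟨6⟩; ⟨5⟩, ⟨6⟩], by rw [Matrix.det_fin_two]; decide⟩
def m8_157 : S8 := ⟨!![⟨0⟩, ⟨7⟩; ⟨4⟩, ⟨3⟩], by rw [Matrix.det_fin_two]; decide⟩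
def m8_158 : S8 := ⟨!![⟨2⟩, ⟨0⟩; ⟨6⟩, ⟨5⟩], by rw [Matrix.det_fin_two]; decide⟩
def m8_159 : S8 := ⟨!![⟨5⟩, ⟨5⟩; ⟨6⟩, ⟨4⟩], by rw [Matrix.det_fin_two]; decide⟩
def m8_160 : S8 := ⟨!![⟨5⟩, ⟨3⟩; ⟨0⟩, ⟨2⟩], by rw [Matrix.det_fin_two]; decide⟩
def m8_161 : S8 := ⟨!![⟨7⟩, ⟨3⟩; ⟨0⟩, ⟨4⟩], by rw [Matrix.det_fin_two]; decide⟩
def m8_162 : S8 := ⟨!![⟨1⟩, ⟨7⟩; ⟨1⟩, ⟨6⟩], by rw [Matrix.det_fin_two]; decide⟩
def m8_163 : S8 := ⟨!![⟨5⟩, ⟨4⟩; ⟨5⟩, ⟨6⟩], by rw [Matrix.det_fin_two]; decide⟩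
def m8_164 : S8 := ⟨!![⟨0⟩, ⟨7⟩; ⟨4⟩, ⟨1⟩], by rw [Matrix.det_fin_two]; decide⟩
def m8_165 : S8 := ⟨!![⟨0⟩, ⟨5⟩; ⟨2⟩, ⟨6⟩], by rw [Matrix.det_fin_two]; decide⟩
def m8_166 : S8 := ⟨!![⟨6⟩, ⟨2⟩; ⟨1⟩, ⟨5⟩], by rw [Matrix.det_fin_two]; decide⟩
def m8_167 : S8 := ⟨!![⟨3⟩, ⟨2⟩; ⟨5⟩, ⟨0⟩], by rw [Matrix.det_fin_two]; decide⟩
def m8_168 : S8 := ⟨!![⟨7⟩, ⟨1⟩; ⟨0⟩, ⟨4⟩], by rw [Matrix.det_fin_two]; decide⟩
def m8_169 : S8 := ⟨!![⟨5⟩, ⟨4⟩; ⟨2⟩, ⟨4⟩], by rw [Matrix.det_fin_two]; decide⟩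
def m8_170 : S8 := ⟨!![⟨7⟩, ⟨6⟩; ⟨1⟩, ⟨1⟩], by rw [Matrix.det_fin_two]; decide⟩
def m8_171 : S8 := ⟨!![⟨2⟩, ⟨5⟩; ⟨6⟩, ⟨1⟩], by rw [Matrix.det_fin_two]; decide⟩
def m8_172 : S8 := ⟨!![⟨7⟩, ⟨2⟩; ⟨1⟩, ⟨7⟩], by rw [Matrix.det_fin_two]; decide⟩
def m8_173 : S8 := ⟨!![⟨6⟩, ⟨3⟩; ⟨5⟩, ⟨4⟩], by rw [Matrix.det_fin_two]; decide⟩
def m8_174 : S8 := ⟨!![⟨1⟩, ⟨7⟩; ⟨5⟩, ⟨7⟩], by rw [Matrix.det_fin_two]; decide⟩
def m8_175 : S8 := ⟨!![⟨6⟩, ⟨5⟩; ⟨6⟩, ⟨6⟩], by rw [Matrix.det_fin_two]; decide⟩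
def m8_176 : S8 := ⟨!![⟨3⟩, ⟨7⟩; ⟨3⟩, ⟨1⟩], by rw [Matrix.det_fin_two]; decide⟩
def m8_177 : S8 := ⟨!![⟨4⟩, ⟨0⟩; ⟨6⟩, ⟨7⟩], by rw [Matrix.det_fin_two]; decide⟩
def m8_178 : S8 := ⟨!![⟨7⟩, ⟨2⟩; ⟨0⟩, ⟨4⟩], by rw [Matrix.det_fin_two]; decide⟩
def m8_179 : S8 := ⟨!![⟨2⟩, ⟨3⟩; ⟨7⟩, ⟨4⟩], by rw [Matrix.det_fin_two]; decide⟩
def m8_180 : S8 := ⟨!![⟨1⟩, ⟨2⟩; ⟨4⟩, ⟨2⟩], by rw [Matrix.det_fin_two]; decide⟩
def m8_181 : S8 := ⟨!![⟨4⟩, ⟨0⟩; ⟨3⟩, ⟨7⟩], by rw [Matrix.det_fin_two]; decide⟩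
def m8_182 : S8 := ⟨!![⟨3⟩, ⟨4⟩; ⟨6⟩, ⟨5⟩], by rw [Matrix.det_fin_two]; decide⟩
def m8_183 : S8 := ⟨!![⟨6⟩, ⟨5⟩; ⟨4⟩, ⟨5⟩], by rw [Matrix.det_fin_two]; decide⟩
def m8_184 : S8 := ⟨!![⟨5⟩, ⟨2⟩; ⟨6⟩, ⟨7⟩], by rw [Matrix.det_fin_two]; decide⟩
def m8_185 : S8 := ⟨!![⟨6⟩, ⟨2⟩; ⟨5⟩, ⟨0⟩], by rw [Matrix.det_fin_two]; decide⟩
def m8_186 : S8 := ⟨!![⟨7⟩, ⟨7⟩; ⟨1⟩, ⟨5⟩], by rw [Matrix.det_fin_two]; decide⟩
def m8_187 : S8 := ⟨!![⟨0⟩, ⟨5⟩; ⟨2⟩, ⟨3⟩], by rw [Matrix.det_fin_two]; decide⟩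
def m8_188 : S8 := ⟨!![⟨4⟩, ⟨0⟩; ⟨1⟩, ⟨7⟩], by rw [Matrix.det_fin_two]; decide⟩
def m8_189 : S8 := ⟨!![⟨1⟩, ⟨1⟩; ⟨6⟩, ⟨7⟩], by rw [Matrix.det_fin_two]; decide⟩
def m8_190 : S8 := ⟨!![⟨1⟩, ⟨6⟩; ⟨5⟩, ⟨2⟩], by rw [Matrix.det_fin_two]; decide⟩
def m8_191 : S8 := ⟨!![⟨5⟩, ⟨6⟩; ⟨7⟩, ⟨1⟩], by rw [Matrix.det_fin_two]; decide⟩
def m8_192 : S8 := ⟨!![⟨1⟩, ⟨7⟩; ⟨7⟩, ⟨2⟩], by rw [Matrix.det_fin_two]; decide⟩
def m8_193 : S8 := ⟨!![⟨5⟩, ⟨4⟩; ⟨6⟩, ⟨3⟩], by rw [Matrix.det_fin_two]; decide⟩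
def m8_194 : S8 := ⟨!![⟨5⟩, ⟨7⟩; ⟨1⟩, ⟨7⟩], by rw [Matrix.det_fin_two]; decide⟩
def m8_195 : S8 := ⟨!![⟨6⟩, ⟨6⟩; ⟨6⟩, ⟨5⟩], by rw [Matrix.det_fin_two]; decide⟩
def m8_196 : S8 := ⟨!![⟨3⟩, ⟨1⟩; ⟨3⟩, ⟨7⟩], by rw [Matrix.det_fin_two]; decide⟩
def m8_197 : S8 := ⟨!![⟨6⟩, ⟨7⟩; ⟨4⟩, ⟨0⟩], by rw [Matrix.det_fin_two]; decide⟩
def m8_198 : S8 := ⟨!![⟨0⟩, ⟨4⟩; ⟨7⟩, ⟨2⟩], by rw [Matrix.det_fin_two]; decide⟩
def m8_199 : S8 := ⟨!![⟨7⟩, ⟨4⟩; ⟨2⟩, ⟨3⟩], by rw [Matrix.det_fin_two]; decide⟩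
def m8_200 : S8 := ⟨!![⟨4⟩, ⟨2⟩; ⟨1⟩, ⟨2⟩], by rw [Matrix.det_fin_two]; decide⟩
def m8_201 : S8 := ⟨!![⟨3⟩, ⟨7⟩; ⟨4⟩, ⟨0⟩], by rw [Matrix.det_fin_two]; decide⟩
def m8_202 : S8 := ⟨!![⟨6⟩, ⟨5⟩; ⟨3⟩, ⟨4⟩], by rw [Matrix.det_fin_two]; decide⟩
def m8_203 : S8 := ⟨!![⟨4⟩, ⟨5⟩; ⟨6⟩, ⟨5⟩], by rw [Matrix.det_fin_two]; decide⟩
def m8_204 : S8 := ⟨!![⟨6⟩, ⟨7⟩; ⟨5⟩, ⟨2⟩], by rw [Matrix.det_fin_two]; decide⟩
def m8_205 : S8 := ⟨!![⟨5⟩, ⟨0⟩; ⟨6⟩, ⟨2⟩], by rw [Matrix.det_fin_two]; decide⟩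
def m8_206 : S8 := ⟨!![⟨1⟩, ⟨5⟩; ⟨7⟩, ⟨7⟩], by rw [Matrix.det_fin_two]; decide⟩
def m8_207 : S8 := ⟨!![⟨2⟩, ⟨3⟩; ⟨0⟩, ⟨5⟩], by rw [Matrix.det_fin_two]; decide⟩
def m8_208 : S8 := ⟨!![⟨1⟩, ⟨7⟩; ⟨4⟩, ⟨0⟩], by rw [Matrix.det_fin_two]; decide⟩
def m8_209 : S8 := ⟨!![⟨6⟩, ⟨7⟩; ⟨1⟩, ⟨1⟩], by rw [Matrix.det_fin_two]; decide⟩
def m8_210 : S8 := ⟨!![⟨5⟩, ⟨2⟩; ⟨1⟩, ⟨6⟩], by rw [Matrix.det_fin_two]; decide⟩
def m8_211 : S8 := ⟨!![⟨7⟩, ⟨1⟩; ⟨5⟩, ⟨6⟩], by rw [Matrix.det_fin_two]; decide⟩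
def m8_212 : S8 := ⟨!![⟨1⟩, ⟨7⟩; ⟨6⟩, ⟨5⟩], by rw [Matrix.det_fin_two]; decide⟩
def m8_213 : S8 := ⟨!![⟨3⟩, ⟨6⟩; ⟨4⟩, ⟨5⟩], by rw [Matrix.det_fin_two]; decide⟩
def m8_214 : S8 := ⟨!![⟨7⟩, ⟨1⟩; ⟨7⟩, ⟨5⟩], by rw [Matrix.det_fin_two]; decide⟩
def m8_215 : S8 := ⟨!![⟨7⟩, ⟨3⟩; ⟨1⟩, ⟨3⟩], by rw [Matrix.det_fin_two]; decide⟩
def m8_216 : S8 := ⟨!![⟨0⟩, ⟨4⟩; ⟨7⟩, ⟨6⟩], by rw [Matrix.det_fin_two]; decide⟩
def m8_217 : S8 := ⟨!![⟨0⟩, ⟨3⟩; ⟨6⟩, ⟨0⟩], by rw [Matrix.det_fin_two]; decide⟩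
def m8_218 : S8 := ⟨!![⟨2⟩, ⟨7⟩; ⟨4⟩, ⟨0⟩], by rw [Matrix.det_fin_two]; decide⟩
def m8_219 : S8 := ⟨!![⟨1⟩, ⟨7⟩; ⟨2⟩, ⟨4⟩], by rw [Matrix.det_fin_two]; decide⟩
def m8_220 : S8 := ⟨!![⟨3⟩, ⟨2⟩; ⟨4⟩, ⟨7⟩], by rw [Matrix.det_fin_two]; decide⟩
def m8_221 : S8 := ⟨!![⟨4⟩, ⟨7⟩; ⟨2⟩, ⟨1⟩], by rw [Matrix.det_fin_two]; decide⟩
def m8_222 : S8 := ⟨!![⟨2⟩, ⟨1⟩; ⟨2⟩, ⟨4⟩], by rw [Matrix.det_fin_two]; decide⟩
def m8_223 : S8 := ⟨!![⟨1⟩, ⟨0⟩; ⟨1⟩, ⟨1⟩], by rw [Matrix.det_fin_two]; decide⟩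
def m8_224 : S8 := ⟨!![⟨0⟩, ⟨3⟩; ⟨6⟩, ⟨1⟩], by rw [Matrix.det_fin_two]; decide⟩
def m8_225 : S8 := ⟨!![⟨4⟩, ⟨3⟩; ⟨5⟩, ⟨6⟩], by rw [Matrix.det_fin_two]; decide⟩
def m8_226 : S8 := ⟨!![⟨2⟩, ⟨2⟩; ⟨7⟩, ⟨2⟩], by rw [Matrix.det_fin_two]; decide⟩
def m8_227 : S8 := ⟨!![⟨7⟩, ⟨2⟩; ⟨7⟩, ⟨6⟩], by rw [Matrix.det_fin_two]; decide⟩
def m8_228 : S8 := ⟨!![⟨2⟩, ⟨5⟩; ⟨7⟩, ⟨6⟩], by rw [Matrix.det_fin_two]; decide⟩
def m8_229 : S8 := ⟨!![⟨1⟩, ⟨3⟩; ⟨6⟩, ⟨0⟩], by rw [Matrix.det_fin_two]; decide⟩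
def m8_230 : S8 := ⟨!![⟨1⟩, ⟨5⟩; ⟨0⟩, ⟨1⟩], by rw [Matrix.det_fin_two]; decide⟩
def m8_231 : S8 := ⟨!![⟨7⟩, ⟨7⟩; ⟨5⟩, ⟨1⟩], by rw [Matrix.det_fin_two]; decide⟩
def m8_232 : S8 := ⟨!![⟨6⟩, ⟨2⟩; ⟨7⟩, ⟨7⟩], by rw [Matrix.det_fin_two]; decide⟩
def m8_233 : S8 := ⟨!![⟨7⟩, ⟨5⟩; ⟨4⟩, ⟨7⟩], by rw [Matrix.det_fin_two]; decide⟩
def m8_234 : S8 := ⟨!![⟨0⟩, ⟨3⟩; ⟨6⟩, ⟨5⟩], by rw [Matrix.det_fin_two]; decide⟩
def m8_235 : S8 := ⟨!![⟨5⟩, ⟨3⟩; ⟨6⟩, ⟨0⟩], by rw [Matrix.det_fin_two]; decide⟩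
def m8_236 : S8 := ⟨!![⟨3⟩, ⟨4⟩; ⟨1⟩, ⟨3⟩], by rw [Matrix.det_fin_two]; decide⟩
def m8_237 : S8 := ⟨!![⟨6⟩, ⟨5⟩; ⟨1⟩, ⟨7⟩], by rw [Matrix.det_fin_two]; decide⟩
def m8_238 : S8 := ⟨!![⟨4⟩, ⟨5⟩; ⟨3⟩, ⟨6⟩], by rw [Matrix.det_fin_two]; decide⟩
def m8_239 : S8 := ⟨!![⟨7⟩, ⟨5⟩; ⟨7⟩, ⟨1⟩], by rw [Matrix.det_fin_two]; decide⟩
def m8_240 : S8 := ⟨!![⟨1⟩, ⟨3⟩; ⟨7⟩, ⟨3⟩], by rw [Matrix.det_fin_two]; decide⟩
def m8_241 : S8 := ⟨!![⟨7⟩, ⟨6⟩; ⟨0⟩, ⟨4⟩], by rw [Matrix.det_fin_two]; decide⟩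
def m8_242 : S8 := ⟨!![⟨6⟩, ⟨0⟩; ⟨0⟩, ⟨3⟩], by rw [Matrix.det_fin_two]; decide⟩
def m8_243 : S8 := ⟨!![⟨4⟩, ⟨0⟩; ⟨2⟩, ⟨7⟩], by rw [Matrix.det_fin_two]; decide⟩
def m8_244 : S8 := ⟨!![⟨2⟩, ⟨4⟩; ⟨1⟩, ⟨7⟩], by rw [Matrix.det_fin_two]; decide⟩
def m8_245 : S8 := ⟨!![⟨4⟩, ⟨7⟩; ⟨3⟩, ⟨2⟩], by rw [Matrix.det_fin_two]; decide⟩
def m8_246 : S8 := ⟨!![⟨2⟩, ⟨1⟩; ⟨4⟩, ⟨7⟩], by rw [Matrix.det_fin_two]; decide⟩
def m8_247 : S8 := ⟨!![⟨2⟩, ⟨4⟩; ⟨2⟩, ⟨1⟩], by rw [Matrix.det_fin_two]; decide⟩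
def m8_248 : S8 := ⟨!![⟨1⟩, ⟨1⟩; ⟨1⟩, ⟨0⟩], by rw [Matrix.det_fin_two]; decide⟩
def m8_249 : S8 := ⟨!![⟨6⟩, ⟨1⟩; ⟨0⟩, ⟨3⟩], by rw [Matrix.det_fin_two]; decide⟩
def m8_250 : S8 := ⟨!![⟨5⟩, ⟨6⟩; ⟨4⟩, ⟨3⟩], by rw [Matrix.det_fin_two]; decide⟩
def m8_251 : S8 := ⟨!![⟨7⟩, ⟨2⟩; ⟨2⟩, ⟨2⟩], by rw [Matrix.det_fin_two]; decide⟩
def m8_252 : S8 := ⟨!![⟨7⟩, ⟨6⟩; ⟨7⟩, ⟨2⟩], by rw [Matrix.det_fin_two]; decide⟩
def m8_253 : S8 := ⟨!![⟨7⟩, ⟨6⟩; ⟨2⟩, ⟨5⟩], by rw [Matrix.det_fin_two]; decide⟩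
def m8_254 : S8 := ⟨!![⟨6⟩, ⟨0⟩; ⟨1⟩, ⟨3⟩], by rw [Matrix.det_fin_two]; decide⟩
def m8_255 : S8 := ⟨!![⟨0⟩, ⟨1⟩; ⟨1⟩, ⟨5⟩], by rw [Matrix.det_fin_two]; decide⟩
def m8_256 : S8 := ⟨!![⟨5⟩, ⟨1⟩; ⟨7⟩, ⟨7⟩], by rw [Matrix.det_fin_two]; decide⟩
def m8_257 : S8 := ⟨!![⟨7⟩, ⟨7⟩; ⟨6⟩, ⟨2⟩], by rw [Matrix.det_fin_two]; decide⟩
def m8_258 : S8 := ⟨!![⟨4⟩, ⟨7⟩; ⟨7⟩, ⟨5⟩], by rw [Matrix.det_fin_two]; decide⟩
def m8_259 : S8 := ⟨!![⟨6⟩, ⟨5⟩; ⟨0⟩, ⟨3⟩], by rw [Matrix.det_fin_two]; decide⟩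
def m8_260 : S8 := ⟨!![⟨6⟩, ⟨0⟩; ⟨5⟩, ⟨3⟩], by rw [Matrix.det_fin_two]; decide⟩
def m8_261 : S8 := ⟨!![⟨1⟩, ⟨3⟩; ⟨3⟩, ⟨4⟩], by rw [Matrix.det_fin_two]; decide⟩
def m8_262 : S8 := ⟨!![⟨6⟩, ⟨5⟩; ⟨7⟩, ⟨2⟩], by rw [Matrix.det_fin_two]; decide⟩
def m8_263 : S8 := ⟨!![⟨3⟩, ⟨0⟩; ⟨7⟩, ⟨6⟩], by rw [Matrix.det_fin_two]; decide⟩
def m8_264 : S8 := ⟨!![⟨5⟩, ⟨4⟩; ⟨7⟩, ⟨0⟩], by rw [Matrix.det_fin_two]; decide⟩
def m8_265 : S8 := ⟨!![⟨4⟩, ⟨6⟩; ⟨4⟩, ⟨1⟩], by rw [Matrix.det_fin_two]; decide⟩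
def m8_266 : S8 := ⟨!![⟨2⟩, ⟨4⟩; ⟨3⟩, ⟨3⟩], by rw [Matrix.det_fin_two]; decide⟩
def m8_267 : S8 := ⟨!![⟨3⟩, ⟨0⟩; ⟨0⟩, ⟨6⟩], by rw [Matrix.det_fin_two]; decide⟩
def m8_268 : S8 := ⟨!![⟨6⟩, ⟨3⟩; ⟨0⟩, ⟨3⟩], by rw [Matrix.det_fin_two]; decide⟩
def m8_269 : S8 := ⟨!![⟨7⟩, ⟨1⟩; ⟨4⟩, ⟨2⟩], by rw [Matrix.det_fin_two]; decide⟩
def m8_270 : S8 := ⟨!![⟨1⟩, ⟨4⟩; ⟨6⟩, ⟨4⟩], by rw [Matrix.det_fin_two]; decide⟩
def m8_271 : S8 := ⟨!![⟨7⟩, ⟨4⟩; ⟨1⟩, ⟨2⟩], by rw [Matrix.det_fin_two]; decide⟩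
def m8_272 : S8 := ⟨!![⟨5⟩, ⟨5⟩; ⟨2⟩, ⟨0⟩], by rw [Matrix.det_fin_two]; decide⟩
def m8_273 : S8 := ⟨!![⟨0⟩, ⟨1⟩; ⟨1⟩, ⟨1⟩], by rw [Matrix.det_fin_two]; decide⟩
def m8_274 : S8 := ⟨!![⟨3⟩, ⟨0⟩; ⟨1⟩, ⟨6⟩], by rw [Matrix.det_fin_two]; decide⟩
def m8_275 : S8 := ⟨!![⟨2⟩, ⟨2⟩; ⟨2⟩, ⟨7⟩], by rw [Matrix.det_fin_two]; decide⟩
def m8_276 : S8 := ⟨!![⟨2⟩, ⟨7⟩; ⟨6⟩, ⟨7⟩], by rw [Matrix.det_fin_two]; decide⟩
def m8_277 : S8 := ⟨!![⟨1⟩, ⟨7⟩; ⟨3⟩, ⟨3⟩], by rw [Matrix.det_fin_two]; decide⟩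
def m8_278 : S8 := ⟨!![⟨7⟩, ⟨1⟩; ⟨3⟩, ⟨3⟩], by rw [Matrix.det_fin_two]; decide⟩
def m8_279 : S8 := ⟨!![⟨3⟩, ⟨1⟩; ⟨0⟩, ⟨6⟩], by rw [Matrix.det_fin_two]; decide⟩
def m8_280 : S8 := ⟨!![⟨5⟩, ⟨1⟩; ⟨1⟩, ⟨0⟩], by rw [Matrix.det_fin_two]; decide⟩
def m8_281 : S8 := ⟨!![⟨2⟩, ⟨6⟩; ⟨7⟩, ⟨7⟩], by rw [Matrix.det_fin_two]; decide⟩
def m8_282 : S8 := ⟨!![⟨5⟩, ⟨7⟩; ⟨7⟩, ⟨4⟩], by rw [Matrix.det_fin_two]; decide⟩
def m8_283 : S8 := ⟨!![⟨7⟩, ⟨0⟩; ⟨6⟩, ⟨4⟩], by rw [Matrix.det_fin_two]; decide⟩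
def m8_284 : S8 := ⟨!![⟨3⟩, ⟨0⟩; ⟨5⟩, ⟨6⟩], by rw [Matrix.det_fin_two]; decide⟩
def m8_285 : S8 := ⟨!![⟨4⟩, ⟨3⟩; ⟨7⟩, ⟨2⟩], by rw [Matrix.det_fin_two]; decide⟩
def m8_286 : S8 := ⟨!![⟨3⟩, ⟨5⟩; ⟨0⟩, ⟨6⟩], by rw [Matrix.det_fin_two]; decide⟩
def m8_287 : S8 := ⟨!![⟨4⟩, ⟨2⟩; ⟨0⟩, ⟨7⟩], by rw [Matrix.det_fin_two]; decide⟩
def m8_288 : S8 := ⟨!![⟨4⟩, ⟨3⟩; ⟨3⟩, ⟨1⟩], by rw [Matrix.det_fin_two]; decide⟩
def m8_289 : S8 := ⟨!![⟨2⟩, ⟨2⟩; ⟨4⟩, ⟨1⟩], by rw [Matrix.det_fin_two]; decide⟩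
def m8_290 : S8 := ⟨!![⟨7⟩, ⟨2⟩; ⟨6⟩, ⟨5⟩], by rw [Matrix.det_fin_two]; decide⟩
def m8_291 : S8 := ⟨!![⟨7⟩, ⟨6⟩; ⟨3⟩, ⟨0⟩], by rw [Matrix.det_fin_two]; decide⟩
def m8_292 : S8 := ⟨!![⟨7⟩, ⟨0⟩; ⟨5⟩, ⟨4⟩], by rw [Matrix.det_fin_two]; decide⟩
def m8_293 : S8 := ⟨!![⟨4⟩, ⟨1⟩; ⟨4⟩, ⟨6⟩], by rw [Matrix.det_fin_two]; decide⟩
def m8_294 : S8 := ⟨!![⟨3⟩, ⟨3⟩; ⟨2⟩, ⟨4⟩], by rw [Matrix.det_fin_two]; decide⟩
def m8_295 : S8 := ⟨!![⟨0⟩, ⟨6⟩; ⟨3⟩, ⟨0⟩], by rw [Matrix.det_fin_two]; decide⟩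
def m8_296 : S8 := ⟨!![⟨0⟩, ⟨3⟩; ⟨6⟩, ⟨3⟩], by rw [Matrix.det_fin_two]; decide⟩
def m8_297 : S8 := ⟨!![⟨4⟩, ⟨2⟩; ⟨7⟩, ⟨1⟩], by rw [Matrix.det_fin_two]; decide⟩
def m8_298 : S8 := ⟨!![⟨6⟩, ⟨4⟩; ⟨1⟩, ⟨4⟩], by rw [Matrix.det_fin_two]; decide⟩
def m8_299 : S8 := ⟨!![⟨1⟩, ⟨2⟩; ⟨7⟩, ⟨4⟩], by rw [Matrix.det_fin_two]; decide⟩
def m8_300 : S8 := ⟨!![⟨2⟩, ⟨0⟩; ⟨5⟩, ⟨5⟩], by rw [Matrix.det_fin_two]; decide⟩
def m8_301 : S8 := ⟨!![⟨1⟩, ⟨1⟩; ⟨0⟩, ⟨1⟩], by rw [Matrix.det_fin_two]; decide⟩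
def m8_302 : S8 := ⟨!![⟨1⟩, ⟨6⟩; ⟨3⟩, ⟨0⟩], by rw [Matrix.det_fin_two]; decide⟩
def m8_303 : S8 := ⟨!![⟨2⟩, ⟨7⟩; ⟨2⟩, ⟨2⟩], by rw [Matrix.det_fin_two]; decide⟩
def m8_304 : S8 := ⟨!![⟨6⟩, ⟨7⟩; ⟨2⟩, ⟨7⟩], by rw [Matrix.det_fin_two]; decide⟩
def m8_305 : S8 := ⟨!![⟨3⟩, ⟨3⟩; ⟨1⟩, ⟨7⟩], by rw [Matrix.det_fin_two]; decide⟩
def m8_306 : S8 := ⟨!![⟨3⟩, ⟨3⟩; ⟨7⟩, ⟨1⟩], by rw [Matrix.det_fin_two]; decide⟩
def m8_307 : S8 := ⟨!![⟨0⟩, ⟨6⟩; ⟨3⟩, ⟨1⟩], by rw [Matrix.det_fin_two]; decide⟩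
def m8_308 : S8 := ⟨!![⟨1⟩, ⟨0⟩; ⟨5⟩, ⟨1⟩], by rw [Matrix.det_fin_two]; decide⟩
def m8_309 : S8 := ⟨!![⟨7⟩, ⟨7⟩; ⟨2⟩, ⟨6⟩], by rw [Matrix.det_fin_two]; decide⟩
def m8_310 : S8 := ⟨!![⟨7⟩, ⟨4⟩; ⟨5⟩, ⟨7⟩], by rw [Matrix.det_fin_two]; decide⟩
def m8_311 : S8 := ⟨!![⟨6⟩, ⟨4⟩; ⟨7⟩, ⟨0⟩], by rw [Matrix.det_fin_two]; decide⟩
def m8_312 : S8 := ⟨!![⟨5⟩, ⟨6⟩; ⟨3⟩, ⟨0⟩], by rw [Matrix.det_fin_two]; decide⟩
def m8_313 : S8 := ⟨!![⟨7⟩, ⟨2⟩; ⟨4⟩, ⟨3⟩], by rw [Matrix.det_fin_two]; decide⟩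
def m8_314 : S8 := ⟨!![⟨0⟩, ⟨6⟩; ⟨3⟩, ⟨5⟩], by rw [Matrix.det_fin_two]; decide⟩
def m8_315 : S8 := ⟨!![⟨0⟩, ⟨7⟩; ⟨4⟩, ⟨2⟩], by rw [Matrix.det_fin_two]; decide⟩
def m8_316 : S8 := ⟨!![⟨3⟩, ⟨1⟩; ⟨4⟩, ⟨3⟩], by rw [Matrix.det_fin_two]; decide⟩
def m8_317 : S8 := ⟨!![⟨4⟩, ⟨1⟩; ⟨2⟩, ⟨2⟩], by rw [Matrix.det_fin_two]; decide⟩
def m8_318 : S8 := ⟨!![⟨5⟩, ⟨6⟩; ⟨2⟩, ⟨7⟩], by rw [Matrix.det_fin_two]; decide⟩
def m8_319 : S8 := ⟨!![⟨0⟩, ⟨3⟩; ⟨6⟩, ⟨7⟩], by rw [Matrix.det_fin_two]; decide⟩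
def m8_320 : S8 := ⟨!![⟨0⟩, ⟨6⟩; ⟨3⟩, ⟨3⟩], by rw [Matrix.det_fin_two]; decide⟩
def m8_321 : S8 := ⟨!![⟨4⟩, ⟨5⟩; ⟨0⟩, ⟨7⟩], by rw [Matrix.det_fin_two]; decide⟩
def m8_322 : S8 := ⟨!![⟨2⟩, ⟨5⟩; ⟨0⟩, ⟨5⟩], by rw [Matrix.det_fin_two]; decide⟩
def m8_323 : S8 := ⟨!![⟨3⟩, ⟨5⟩; ⟨5⟩, ⟨2⟩], by rw [Matrix.det_fin_two]; decide⟩
def m8_324 : S8 := ⟨!![⟨4⟩, ⟨2⟩; ⟨3⟩, ⟨3⟩], by rw [Matrix.det_fin_two]; decide⟩
def m8_325 : S8 := ⟨!![⟨2⟩, ⟨0⟩; ⟨4⟩, ⟨5⟩], by rw [Matrix.det_fin_two]; decide⟩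
def m8_326 : S8 := ⟨!![⟨0⟩, ⟨6⟩; ⟨3⟩, ⟨6⟩], by rw [Matrix.det_fin_two]; decide⟩
def m8_327 : S8 := ⟨!![⟨3⟩, ⟨6⟩; ⟨3⟩, ⟨0⟩], by rw [Matrix.det_fin_two]; decide⟩
def m8_328 : S8 := ⟨!![⟨4⟩, ⟨4⟩; ⟨4⟩, ⟨3⟩], by rw [Matrix.det_fin_two]; decide⟩
def m8_329 : S8 := ⟨!![⟨5⟩, ⟨4⟩; ⟨1⟩, ⟨1⟩], by rw [Matrix.det_fin_two]; decide⟩
def m8_330 : S8 := ⟨!![⟨2⟩, ⟨6⟩; ⟨2⟩, ⟨3⟩], by rw [Matrix.det_fin_two]; decide⟩
def m8_331 : S8 := ⟨!![⟨2⟩, ⟨1⟩; ⟨1⟩, ⟨0⟩], by rw [Matrix.det_fin_two]; decide⟩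
def m8_332 : S8 := ⟨!![⟨5⟩, ⟨5⟩; ⟨0⟩, ⟨2⟩], by rw [Matrix.det_fin_two]; decide⟩
def m8_333 : S8 := ⟨!![⟨7⟩, ⟨4⟩; ⟨0⟩, ⟨4⟩], by rw [Matrix.det_fin_two]; decide⟩
def m8_334 : S8 := ⟨!![⟨5⟩, ⟨1⟩; ⟨5⟩, ⟨3⟩], by rw [Matrix.det_fin_two]; decide⟩
def m8_335 : S8 := ⟨!![⟨0⟩, ⟨6⟩; ⟨3⟩, ⟨4⟩], by rw [Matrix.det_fin_two]; decide⟩
def m8_336 : S8 := ⟨!![⟨1⟩, ⟨6⟩; ⟨6⟩, ⟨3⟩], by rw [Matrix.det_fin_two]; decide⟩
def m8_337 : S8 := ⟨!![⟨6⟩, ⟨3⟩; ⟨6⟩, ⟨0⟩], by rw [Matrix.det_fin_two]; decide⟩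
def m8_338 : S8 := ⟨!![⟨5⟩, ⟨4⟩; ⟨4⟩, ⟨5⟩], by rw [Matrix.det_fin_two]; decide⟩
def m8_339 : S8 := ⟨!![⟨5⟩, ⟨7⟩; ⟨3⟩, ⟨6⟩], by rw [Matrix.det_fin_two]; decide⟩
def m8_340 : S8 := ⟨!![⟨5⟩, ⟨0⟩; ⟨0⟩, ⟨2⟩], by rw [Matrix.det_fin_two]; decide⟩
def m8_341 : S8 := ⟨!![⟨3⟩, ⟨2⟩; ⟨6⟩, ⟨2⟩], by rw [Matrix.det_fin_two]; decide⟩
def m8_342 : S8 := ⟨!![⟨6⟩, ⟨6⟩; ⟨2⟩, ⟨1⟩], by rw [Matrix.det_fin_two]; decide⟩
def m8_343 : S8 := ⟨!![⟨0⟩, ⟨7⟩; ⟨4⟩, ⟨6⟩], by rw [Matrix.det_fin_two]; decide⟩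
def m8_344 : S8 := ⟨!![⟨0⟩, ⟨6⟩; ⟨3⟩, ⟨7⟩], by rw [Matrix.det_fin_two]; decide⟩
def m8_345 : S8 := ⟨!![⟨3⟩, ⟨4⟩; ⟨2⟩, ⟨7⟩], by rw [Matrix.det_fin_two]; decide⟩
def m8_346 : S8 := ⟨!![⟨7⟩, ⟨3⟩; ⟨3⟩, ⟨6⟩], by rw [Matrix.det_fin_two]; decide⟩
def m8_347 : S8 := ⟨!![⟨2⟩, ⟨4⟩; ⟨7⟩, ⟨0⟩], by rw [Matrix.det_fin_two]; decide⟩
def m8_348 : S8 := ⟨!![⟨4⟩, ⟨0⟩; ⟨5⟩, ⟨7⟩], by rw [Matrix.det_fin_two]; decide⟩
def m8_349 : S8 := ⟨!![⟨2⟩, ⟨2⟩; ⟨1⟩, ⟨4⟩], by rw [Matrix.det_fin_two]; decide⟩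
def m8_350 : S8 := ⟨!![⟨2⟩, ⟨7⟩; ⟨5⟩, ⟨6⟩], by rw [Matrix.det_fin_two]; decide⟩
def m8_351 : S8 := ⟨!![⟨6⟩, ⟨7⟩; ⟨0⟩, ⟨3⟩], by rw [Matrix.det_fin_two]; decide⟩
def m8_352 : S8 := ⟨!![⟨3⟩, ⟨3⟩; ⟨0⟩, ⟨6⟩], by rw [Matrix.det_fin_two]; decide⟩
def m8_353 : S8 := ⟨!![⟨0⟩, ⟨7⟩; ⟨4⟩, ⟨5⟩], by rw [Matrix.det_fin_two]; decide⟩
def m8_354 : S8 := ⟨!![⟨0⟩, ⟨5⟩; ⟨2⟩, ⟨5⟩], by rw [Matrix.det_fin_two]; decide⟩
def m8_355 : S8 := ⟨!![⟨5⟩, ⟨2⟩; ⟨3⟩, ⟨5⟩], by rw [Matrix.det_fin_two]; decide⟩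
def m8_356 : S8 := ⟨!![⟨3⟩, ⟨3⟩; ⟨4⟩, ⟨2⟩], by rw [Matrix.det_fin_two]; decide⟩
def m8_357 : S8 := ⟨!![⟨4⟩, ⟨5⟩; ⟨2⟩, ⟨0⟩], by rw [Matrix.det_fin_two]; decide⟩
def m8_358 : S8 := ⟨!![⟨3⟩, ⟨6⟩; ⟨0⟩, ⟨6⟩], by rw [Matrix.det_fin_two]; decide⟩
def m8_359 : S8 := ⟨!![⟨3⟩, ⟨0⟩; ⟨3⟩, ⟨6⟩], by rw [Matrix.det_fin_two]; decide⟩
def m8_360 : S8 := ⟨!![⟨4⟩, ⟨3⟩; ⟨4⟩, ⟨4⟩], by rw [Matrix.det_fin_two]; decide⟩
def m8_361 : S8 := ⟨!![⟨1⟩, ⟨1⟩; ⟨5⟩, ⟨4⟩], by rw [Matrix.det_fin_two]; decide⟩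
def m8_362 : S8 := ⟨!![⟨2⟩, ⟨3⟩; ⟨2⟩, ⟨6⟩], by rw [Matrix.det_fin_two]; decide⟩
def m8_363 : S8 := ⟨!![⟨1⟩, ⟨0⟩; ⟨2⟩, ⟨1⟩], by rw [Matrix.det_fin_two]; decide⟩
def m8_364 : S8 := ⟨!![⟨0⟩, ⟨2⟩; ⟨5⟩, ⟨5⟩], by rw [Matrix.det_fin_two]; decide⟩
def m8_365 : S8 := ⟨!![⟨0⟩, ⟨4⟩; ⟨7⟩, ⟨4⟩], by rw [Matrix.det_fin_two]; decide⟩
def m8_366 : S8 := ⟨!![⟨5⟩, ⟨3⟩; ⟨5⟩, ⟨1⟩], by rw [Matrix.det_fin_two]; decide⟩
def m8_367 : S8 := ⟨!![⟨3⟩, ⟨4⟩; ⟨0⟩, ⟨6⟩], by rw [Matrix.det_fin_two]; decide⟩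
def m8_368 : S8 := ⟨!![⟨6⟩, ⟨3⟩; ⟨1⟩, ⟨6⟩], by rw [Matrix.det_fin_two]; decide⟩
def m8_369 : S8 := ⟨!![⟨6⟩, ⟨0⟩; ⟨6⟩, ⟨3⟩], by rw [Matrix.det_fin_two]; decide⟩
def m8_370 : S8 := ⟨!![⟨4⟩, ⟨5⟩; ⟨5⟩, ⟨4⟩], by rw [Matrix.det_fin_two]; decide⟩
def m8_371 : S8 := ⟨!![⟨3⟩, ⟨6⟩; ⟨5⟩, ⟨7⟩], by rw [Matrix.det_fin_two]; decide⟩
def m8_372 : S8 := ⟨!![⟨0⟩, ⟨2⟩; ⟨5⟩, ⟨0⟩], by rw [Matrix.det_fin_two]; decide⟩
def m8_373 : S8 := ⟨!![⟨6⟩, ⟨2⟩; ⟨3⟩, ⟨2⟩], by rw [Matrix.det_fin_two]; decide⟩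
def m8_374 : S8 := ⟨!![⟨2⟩, ⟨1⟩; ⟨6⟩, ⟨6⟩], by rw [Matrix.det_fin_two]; decide⟩
def m8_375 : S8 := ⟨!![⟨4⟩, ⟨6⟩; ⟨0⟩, ⟨7⟩], by rw [Matrix.det_fin_two]; decide⟩
def m8_376 : S8 := ⟨!![⟨3⟩, ⟨7⟩; ⟨0⟩, ⟨6⟩], by rw [Matrix.det_fin_two]; decide⟩
def m8_377 : S8 := ⟨!![⟨2⟩, ⟨7⟩; ⟨3⟩, ⟨4⟩], by rw [Matrix.det_fin_two]; decide⟩
def m8_378 : S8 := ⟨!![⟨3⟩, ⟨6⟩; ⟨7⟩, ⟨3⟩], by rw [Matrix.det_fin_two]; decide⟩
def m8_379 : S8 := ⟨!![⟨7⟩, ⟨0⟩; ⟨2⟩, ⟨4⟩], by rw [Matrix.det_fin_two]; decide⟩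
def m8_380 : S8 := ⟨!![⟨5⟩, ⟨7⟩; ⟨4⟩, ⟨0⟩], by rw [Matrix.det_fin_two]; decide⟩
def m8_381 : S8 := ⟨!![⟨1⟩, ⟨4⟩; ⟨2⟩, ⟨2⟩], by rw [Matrix.det_fin_two]; decide⟩
def m8_382 : S8 := ⟨!![⟨3⟩, ⟨7⟩; ⟨6⟩, ⟨3⟩], by rw [Matrix.det_fin_two]; decide⟩
def m8_383 : S8 := ⟨!![⟨4⟩, ⟨3⟩; ⟨6⟩, ⟨0⟩], by rw [Matrix.det_fin_two]; decide⟩
def m8_384 : S8 := ⟨!![⟨6⟩, ⟨0⟩; ⟨3⟩, ⟨3⟩], by rw [Matrix.det_fin_two]; decide⟩
def m8_385 : S8 := ⟨!![⟨7⟩, ⟨6⟩; ⟨6⟩, ⟨7⟩], by rw [Matrix.det_fin_two]; decide⟩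
def m8_386 : S8 := ⟨!![⟨5⟩, ⟨2⟩; ⟨5⟩, ⟨0⟩], by rw [Matrix.det_fin_two]; decide⟩
def m8_387 : S8 := ⟨!![⟨5⟩, ⟨3⟩; ⟨2⟩, ⟨5⟩], by rw [Matrix.det_fin_two]; decide⟩
def m8_388 : S8 := ⟨!![⟨1⟩, ⟨1⟩; ⟨4⟩, ⟨5⟩], by rw [Matrix.det_fin_two]; decide⟩
def m8_389 : S8 := ⟨!![⟨0⟩, ⟨2⟩; ⟨5⟩, ⟨4⟩], by rw [Matrix.det_fin_two]; decide⟩
def m8_390 : S8 := ⟨!![⟨4⟩, ⟨4⟩; ⟨3⟩, ⟨4⟩], by rw [Matrix.det_fin_two]; decide⟩
def m8_391 : S8 := ⟨!![⟨4⟩, ⟨5⟩; ⟨1⟩, ⟨1⟩], by rw [Matrix.det_fin_two]; decide⟩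
def m8_392 : S8 := ⟨!![⟨2⟩, ⟨5⟩; ⟨5⟩, ⟨3⟩], by rw [Matrix.det_fin_two]; decide⟩
def m8_393 : S8 := ⟨!![⟨1⟩, ⟨2⟩; ⟨0⟩, ⟨1⟩], by rw [Matrix.det_fin_two]; decide⟩
def m8_394 : S8 := ⟨!![⟨4⟩, ⟨7⟩; ⟨4⟩, ⟨0⟩], by rw [Matrix.det_fin_two]; decide⟩
def m8_395 : S8 := ⟨!![⟨1⟩, ⟨5⟩; ⟨3⟩, ⟨5⟩], by rw [Matrix.det_fin_two]; decide⟩
def m8_396 : S8 := ⟨!![⟨5⟩, ⟨0⟩; ⟨4⟩, ⟨2⟩], by rw [Matrix.det_fin_two]; decide⟩
def m8_397 : S8 := ⟨!![⟨6⟩, ⟨0⟩; ⟨4⟩, ⟨3⟩], by rw [Matrix.det_fin_two]; decide⟩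
def m8_398 : S8 := ⟨!![⟨3⟩, ⟨6⟩; ⟨2⟩, ⟨2⟩], by rw [Matrix.det_fin_two]; decide⟩
def m8_399 : S8 := ⟨!![⟨6⟩, ⟨1⟩; ⟨3⟩, ⟨6⟩], by rw [Matrix.det_fin_two]; decide⟩
def m8_400 : S8 := ⟨!![⟨3⟩, ⟨4⟩; ⟨4⟩, ⟨4⟩], by rw [Matrix.det_fin_two]; decide⟩
def m8_401 : S8 := ⟨!![⟨4⟩, ⟨4⟩; ⟨0⟩, ⟨7⟩], by rw [Matrix.det_fin_two]; decide⟩
def m8_402 : S8 := ⟨!![⟨7⟩, ⟨5⟩; ⟨6⟩, ⟨3⟩], by rw [Matrix.det_fin_two]; decide⟩
def m8_403 : S8 := ⟨!![⟨6⟩, ⟨6⟩; ⟨3⟩, ⟨0⟩], by rw [Matrix.det_fin_two]; decide⟩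
def m8_404 : S8 := ⟨!![⟨0⟩, ⟨5⟩; ⟨2⟩, ⟨0⟩], by rw [Matrix.det_fin_two]; decide⟩
def m8_405 : S8 := ⟨!![⟨0⟩, ⟨1⟩; ⟨1⟩, ⟨2⟩], by rw [Matrix.det_fin_two]; decide⟩
def m8_406 : S8 := ⟨!![⟨1⟩, ⟨4⟩; ⟨1⟩, ⟨5⟩], by rw [Matrix.det_fin_two]; decide⟩
def m8_407 : S8 := ⟨!![⟨6⟩, ⟨6⟩; ⟨1⟩, ⟨2⟩], by rw [Matrix.det_fin_two]; decide⟩
def m8_408 : S8 := ⟨!![⟨3⟩, ⟨1⟩; ⟨5⟩, ⟨5⟩], by rw [Matrix.det_fin_two]; decide⟩
def m8_409 : S8 := ⟨!![⟨6⟩, ⟨7⟩; ⟨3⟩, ⟨5⟩], by rw [Matrix.det_fin_two]; decide⟩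
def m8_410 : S8 := ⟨!![⟨6⟩, ⟨0⟩; ⟨7⟩, ⟨3⟩], by rw [Matrix.det_fin_two]; decide⟩
def m8_411 : S8 := ⟨!![⟨3⟩, ⟨6⟩; ⟨6⟩, ⟨1⟩], by rw [Matrix.det_fin_two]; decide⟩
def m8_412 : S8 := ⟨!![⟨2⟩, ⟨2⟩; ⟨6⟩, ⟨3⟩], by rw [Matrix.det_fin_two]; decide⟩
def m8_413 : S8 := ⟨!![⟨4⟩, ⟨6⟩; ⟨3⟩, ⟨0⟩], by rw [Matrix.det_fin_two]; decide⟩
def m8_414 : S8 := ⟨!![⟨2⟩, ⟨0⟩; ⟨0⟩, ⟨5⟩], by rw [Matrix.det_fin_two]; decide⟩
def m8_415 : S8 := ⟨!![⟨0⟩, ⟨4⟩; ⟨7⟩, ⟨5⟩], by rw [Matrix.det_fin_two]; decide⟩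
def m8_416 : S8 := ⟨!![⟨0⟩, ⟨3⟩; ⟨6⟩, ⟨6⟩], by rw [Matrix.det_fin_two]; decide⟩
def m8_417 : S8 := ⟨!![⟨1⟩, ⟨6⟩; ⟨2⟩, ⟨6⟩], by rw [Matrix.det_fin_two]; decide⟩
def m8_418 : S8 := ⟨!![⟨6⟩, ⟨3⟩; ⟨3⟩, ⟨7⟩], by rw [Matrix.det_fin_two]; decide⟩
def m8_419 : S8 := ⟨!![⟨3⟩, ⟨3⟩; ⟨6⟩, ⟨0⟩], by rw [Matrix.det_fin_two]; decide⟩
def m8_420 : S8 := ⟨!![⟨6⟩, ⟨7⟩; ⟨7⟩, ⟨6⟩], by rw [Matrix.det_fin_two]; decide⟩
def m8_421 : S8 := ⟨!![⟨5⟩, ⟨0⟩; ⟨5⟩, ⟨2⟩], by rw [Matrix.det_fin_two]; decide⟩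
def m8_422 : S8 := ⟨!![⟨5⟩, ⟨4⟩; ⟨0⟩, ⟨2⟩], by rw [Matrix.det_fin_two]; decide⟩
def m8_423 : S8 := ⟨!![⟨4⟩, ⟨0⟩; ⟨4⟩, ⟨7⟩], by rw [Matrix.det_fin_two]; decide⟩
def m8_424 : S8 := ⟨!![⟨3⟩, ⟨5⟩; ⟨1⟩, ⟨5⟩], by rw [Matrix.det_fin_two]; decide⟩
def m8_425 : S8 := ⟨!![⟨4⟩, ⟨2⟩; ⟨5⟩, ⟨0⟩], by rw [Matrix.det_fin_two]; decide⟩
def m8_426 : S8 := ⟨!![⟨2⟩, ⟨2⟩; ⟨3⟩, ⟨6⟩], by rw [Matrix.det_fin_two]; decide⟩
def m8_427 : S8 := ⟨!![⟨0⟩, ⟨7⟩; ⟨4⟩, ⟨4⟩], by rw [Matrix.det_fin_two]; decide⟩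
def m8_428 : S8 := ⟨!![⟨6⟩, ⟨3⟩; ⟨7⟩, ⟨5⟩], by rw [Matrix.det_fin_two]; decide⟩
def m8_429 : S8 := ⟨!![⟨3⟩, ⟨0⟩; ⟨6⟩, ⟨6⟩], by rw [Matrix.det_fin_two]; decide⟩
def m8_430 : S8 := ⟨!![⟨1⟩, ⟨5⟩; ⟨1⟩, ⟨4⟩], by rw [Matrix.det_fin_two]; decide⟩
def m8_431 : S8 := ⟨!![⟨1⟩, ⟨2⟩; ⟨6⟩, ⟨6⟩], by rw [Matrix.det_fin_two]; decide⟩
def m8_432 : S8 := ⟨!![⟨5⟩, ⟨5⟩; ⟨3⟩, ⟨1⟩], by rw [Matrix.det_fin_two]; decide⟩
def m8_433 : S8 := ⟨!![⟨3⟩, ⟨5⟩; ⟨6⟩, ⟨7⟩], by rw [Matrix.det_fin_two]; decide⟩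
def m8_434 : S8 := ⟨!![⟨7⟩, ⟨3⟩; ⟨6⟩, ⟨0⟩], by rw [Matrix.det_fin_two]; decide⟩
def m8_435 : S8 := ⟨!![⟨6⟩, ⟨3⟩; ⟨2⟩, ⟨2⟩], by rw [Matrix.det_fin_two]; decide⟩
def m8_436 : S8 := ⟨!![⟨3⟩, ⟨0⟩; ⟨4⟩, ⟨6⟩], by rw [Matrix.det_fin_two]; decide⟩
def m8_437 : S8 := ⟨!![⟨7⟩, ⟨5⟩; ⟨0⟩, ⟨4⟩], by rw [Matrix.det_fin_two]; decide⟩
def m8_438 : S8 := ⟨!![⟨6⟩, ⟨6⟩; ⟨0⟩, ⟨3⟩], by rw [Matrix.det_fin_two]; decide⟩
def m8_439 : S8 := ⟨!![⟨2⟩, ⟨6⟩; ⟨1⟩, ⟨6⟩], by rw [Matrix.det_fin_two]; decide⟩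
def m8_440 : S8 := ⟨!![⟨6⟩, ⟨1⟩; ⟨4⟩, ⟨4⟩], by rw [Matrix.det_fin_two]; decide⟩
def m8_441 : S8 := ⟨!![⟨4⟩, ⟨0⟩; ⟨0⟩, ⟨7⟩], by rw [Matrix.det_fin_two]; decide⟩
def m8_442 : S8 := ⟨!![⟨1⟩, ⟨3⟩; ⟨0⟩, ⟨1⟩], by rw [Matrix.det_fin_two]; decide⟩
def m8_443 : S8 := ⟨!![⟨5⟩, ⟨3⟩; ⟨7⟩, ⟨6⟩], by rw [Matrix.det_fin_two]; decide⟩
def m8_444 : S8 := ⟨!![⟨1⟩, ⟨2⟩; ⟨2⟩, ⟨5⟩], by rw [Matrix.det_fin_two]; decide⟩
def m8_445 : S8 := ⟨!![⟨7⟩, ⟨6⟩; ⟨5⟩, ⟨3⟩], by rw [Matrix.det_fin_two]; decide⟩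
def m8_446 : S8 := ⟨!![⟨6⟩, ⟨4⟩; ⟨0⟩, ⟨3⟩], by rw [Matrix.det_fin_two]; decide⟩
def m8_447 : S8 := ⟨!![⟨7⟩, ⟨7⟩; ⟨7⟩, ⟨3⟩], by rw [Matrix.det_fin_two]; decide⟩
def m8_448 : S8 := ⟨!![⟨0⟩, ⟨5⟩; ⟨2⟩, ⟨4⟩], by rw [Matrix.det_fin_two]; decide⟩
def m8_449 : S8 := ⟨!![⟨0⟩, ⟨7⟩; ⟨4⟩, ⟨0⟩], by rw [Matrix.det_fin_two]; decide⟩
def m8_450 : S8 := ⟨!![⟨4⟩, ⟨4⟩; ⟨7⟩, ⟨0⟩], by rw [Matrix.det_fin_two]; decide⟩
def m8_451 : S8 := ⟨!![⟨7⟩, ⟨0⟩; ⟨4⟩, ⟨4⟩], by rw [Matrix.det_fin_two]; decide⟩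
def m8_452 : S8 := ⟨!![⟨4⟩, ⟨1⟩; ⟨5⟩, ⟨1⟩], by rw [Matrix.det_fin_two]; decide⟩
def m8_453 : S8 := ⟨!![⟨3⟩, ⟨1⟩; ⟨1⟩, ⟨0⟩], by rw [Matrix.det_fin_two]; decide⟩
def m8_454 : S8 := ⟨!![⟨1⟩, ⟨3⟩; ⟨5⟩, ⟨5⟩], by rw [Matrix.det_fin_two]; decide⟩
def m8_455 : S8 := ⟨!![⟨1⟩, ⟨6⟩; ⟨4⟩, ⟨4⟩], by rw [Matrix.det_fin_two]; decide⟩
def m8_456 : S8 := ⟨!![⟨6⟩, ⟨1⟩; ⟨6⟩, ⟨2⟩], by rw [Matrix.det_fin_two]; decide⟩
def m8_457 : S8 := ⟨!![⟨3⟩, ⟨4⟩; ⟨3⟩, ⟨2⟩], by rw [Matrix.det_fin_two]; decide⟩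
def m8_458 : S8 := ⟨!![⟨4⟩, ⟨4⟩; ⟨6⟩, ⟨1⟩], by rw [Matrix.det_fin_two]; decide⟩
def m8_459 : S8 := ⟨!![⟨0⟩, ⟨1⟩; ⟨1⟩, ⟨3⟩], by rw [Matrix.det_fin_two]; decide⟩
def m8_460 : S8 := ⟨!![⟨2⟩, ⟨5⟩; ⟨1⟩, ⟨2⟩], by rw [Matrix.det_fin_two]; decide⟩
def m8_461 : S8 := ⟨!![⟨0⟩, ⟨3⟩; ⟨6⟩, ⟨4⟩], by rw [Matrix.det_fin_two]; decide⟩
def m8_462 : S8 := ⟨!![⟨7⟩, ⟨3⟩; ⟨7⟩, ⟨7⟩], by rw [Matrix.det_fin_two]; decide⟩
def m8_463 : S8 := ⟨!![⟨2⟩, ⟨4⟩; ⟨0⟩, ⟨5⟩], by rw [Matrix.det_fin_two]; decide⟩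
def m8_464 : S8 := ⟨!![⟨5⟩, ⟨1⟩; ⟨4⟩, ⟨1⟩], by rw [Matrix.det_fin_two]; decide⟩
def m8_465 : S8 := ⟨!![⟨1⟩, ⟨0⟩; ⟨3⟩, ⟨1⟩], by rw [Matrix.det_fin_two]; decide⟩
def m8_466 : S8 := ⟨!![⟨5⟩, ⟨5⟩; ⟨1⟩, ⟨3⟩], by rw [Matrix.det_fin_two]; decide⟩
def m8_467 : S8 := ⟨!![⟨4⟩, ⟨4⟩; ⟨1⟩, ⟨6⟩], by rw [Matrix.det_fin_two]; decide⟩
def m8_468 : S8 := ⟨!![⟨6⟩, ⟨2⟩; ⟨6⟩, ⟨1⟩], by rw [Matrix.det_fin_two]; decide⟩
def m8_469 : S8 := ⟨!![⟨3⟩, ⟨2⟩; ⟨3⟩, ⟨4⟩], by rw [Matrix.det_fin_two]; decide⟩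
def m8_470 : S8 := ⟨!![⟨0⟩, ⟨4⟩; ⟨7⟩, ⟨0⟩], by rw [Matrix.det_fin_two]; decide⟩
def m8_471 : S8 := ⟨!![⟨2⟩, ⟨1⟩; ⟨5⟩, ⟨2⟩], by rw [Matrix.det_fin_two]; decide⟩
def m8_472 : S8 := ⟨!![⟨1⟩, ⟨0⟩; ⟨7⟩, ⟨1⟩], by rw [Matrix.det_fin_two]; decide⟩
def m8_473 : S8 := ⟨!![⟨2⟩, ⟨3⟩; ⟨4⟩, ⟨3⟩], by rw [Matrix.det_fin_two]; decide⟩
def m8_474 : S8 := ⟨!![⟨7⟩, ⟨7⟩; ⟨3⟩, ⟨7⟩], by rw [Matrix.det_fin_two]; decide⟩
def m8_475 : S8 := ⟨!![⟨6⟩, ⟨2⟩; ⟨4⟩, ⟨6⟩], by rw [Matrix.det_fin_two]; decide⟩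
def m8_476 : S8 := ⟨!![⟨7⟩, ⟨5⟩; ⟨2⟩, ⟨0⟩], by rw [Matrix.det_fin_two]; decide⟩
def m8_477 : S8 := ⟨!![⟨7⟩, ⟨0⟩; ⟨0⟩, ⟨4⟩], by rw [Matrix.det_fin_two]; decide⟩
def m8_478 : S8 := ⟨!![⟨2⟩, ⟨7⟩; ⟨0⟩, ⟨5⟩], by rw [Matrix.det_fin_two]; decide⟩
def m8_479 : S8 := ⟨!![⟨0⟩, ⟨5⟩; ⟨2⟩, ⟨7⟩], by rw [Matrix.det_fin_two]; decide⟩
def m8_480 : S8 := ⟨!![⟨5⟩, ⟨7⟩; ⟨0⟩, ⟨2⟩], by rw [Matrix.det_fin_two]; decide⟩
def m8_481 : S8 := ⟨!![⟨4⟩, ⟨1⟩; ⟨7⟩, ⟨4⟩], by rw [Matrix.det_fin_two]; decide⟩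
def m8_482 : S8 := ⟨!![⟨5⟩, ⟨6⟩; ⟨1⟩, ⟨5⟩], by rw [Matrix.det_fin_two]; decide⟩
def m8_483 : S8 := ⟨!![⟨4⟩, ⟨3⟩; ⟨2⟩, ⟨3⟩], by rw [Matrix.det_fin_two]; decide⟩
def m8_484 : S8 := ⟨!![⟨5⟩, ⟨2⟩; ⟨2⟩, ⟨1⟩], by rw [Matrix.det_fin_two]; decide⟩
def m8_485 : S8 := ⟨!![⟨7⟩, ⟨1⟩; ⟨1⟩, ⟨0⟩], by rw [Matrix.det_fin_two]; decide⟩
def m8_486 : S8 := ⟨!![⟨3⟩, ⟨7⟩; ⟨7⟩, ⟨7⟩], by rw [Matrix.det_fin_two]; decide⟩
def m8_487 : S8 := ⟨!![⟨4⟩, ⟨6⟩; ⟨6⟩, ⟨2⟩], by rw [Matrix.det_fin_two]; decide⟩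
def m8_488 : S8 := ⟨!![⟨2⟩, ⟨0⟩; ⟨7⟩, ⟨5⟩], by rw [Matrix.det_fin_two]; decide⟩
def m8_489 : S8 := ⟨!![⟨0⟩, ⟨2⟩; ⟨5⟩, ⟨7⟩], by rw [Matrix.det_fin_two]; decide⟩
def m8_490 : S8 := ⟨!![⟨7⟩, ⟨4⟩; ⟨4⟩, ⟨1⟩], by rw [Matrix.det_fin_two]; decide⟩
def m8_491 : S8 := ⟨!![⟨1⟩, ⟨5⟩; ⟨5⟩, ⟨6⟩], by rw [Matrix.det_fin_two]; decide⟩
def m8_492 : S8 := ⟨!![⟨0⟩, ⟨1⟩; ⟨1⟩, ⟨7⟩], by rw [Matrix.det_fin_two]; decide⟩
def m8_493 : S8 := ⟨!![⟨2⟩, ⟨6⟩; ⟨6⟩, ⟨4⟩], by rw [Matrix.det_fin_two]; decide⟩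
def m8_494 : S8 := ⟨!![⟨7⟩, ⟨2⟩; ⟨5⟩, ⟨0⟩], by rw [Matrix.det_fin_two]; decide⟩
def m8_495 : S8 := ⟨!![⟨5⟩, ⟨0⟩; ⟨7⟩, ⟨2⟩], by rw [Matrix.det_fin_two]; decide⟩
def m8_496 : S8 := ⟨!![⟨1⟩, ⟨4⟩; ⟨4⟩, ⟨7⟩], by rw [Matrix.det_fin_two]; decide⟩
def m8_497 : S8 := ⟨!![⟨6⟩, ⟨5⟩; ⟨5⟩, ⟨1⟩], by rw [Matrix.det_fin_two]; decide⟩
def m8_498 : S8 := ⟨!![⟨1⟩, ⟨7⟩; ⟨0⟩, ⟨1⟩], by rw [Matrix.det_fin_two]; decide⟩
def m8_499 : S8 := ⟨!![⟨6⟩, ⟨4⟩; ⟨2⟩, ⟨6⟩], by rw [Matrix.det_fin_two]; decide⟩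
def m8_500 : S8 := ⟨!![⟨4⟩, ⟨7⟩; ⟨1⟩, ⟨4⟩], by rw [Matrix.det_fin_two]; decide⟩
def m8_501 : S8 := ⟨!![⟨5⟩, ⟨1⟩; ⟨6⟩, ⟨5⟩], by rw [Matrix.det_fin_two]; decide⟩
def m8_502 : S8 := ⟨!![⟨3⟩, ⟨2⟩; ⟨2⟩, ⟨3⟩], by rw [Matrix.det_fin_two]; decide⟩
def m8_503 : S8 := ⟨!![⟨2⟩, ⟨3⟩; ⟨3⟩, ⟨2⟩], by rw [Matrix.det_fin_two]; decide⟩
theorem m8_0_eq : m8_0 = 1 := by decide
theorem tm_1 : m8_0 * gA = m8_1 := by decide
theorem tm_2 : m8_0 * gB = m8_2 := by decide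
theorem tm_3 : m8_1 * gB = m8_3 := by decide
theorem tm_4 : m8_2 * gA = m8_4 := by decide
theorem tm_5 : m8_2 * gB = m8_5 := by decide
theorem tm_6 : m8_3 * gA = m8_6 := by decide
theorem tm_7 : m8_3 * gB = m8_7 := by decide
theorem tm_8 : m8_4 * gB = m8_8 := by decide
theorem tm_9 : m8_5 * gA = m8_9 := by decide
theorem tm_10 : m8_6 * gB = m8_10 := by decide
theorem tm_11 : m8_7 * gA = m8_11 := by decide
theorem tm_12 : m8_8 * gA = m8_12 := by decide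
theorem tm_13 : m8_8 * gB = m8_13 := by decide
theorem tm_14 : m8_9 * gB = m8_14 := by decide
theorem tm_15 : m8_10 * gA = m8_15 := by decide
theorem tm_16 : m8_10 * gB = m8_16 := by decide
theorem tm_17 : m8_11 * gB = m8_17 := by decide
theorem tm_18 : m8_12 * gB = m8_18 := by decide
theorem tm_19 : m8_13 * gA = m8_19 := by decide
theorem tm_20 : m8_14 * gA = m8_20 := by decide
theorem tm_21 : m8_14 * gB = m8_21 := by decide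
theorem tm_22 : m8_15 * gB = m8_22 := by decide
theorem tm_23 : m8_16 * gA = m8_23 := by decide
theorem tm_24 : m8_17 * gA = m8_24 := by decide
theorem tm_25 : m8_17 * gB = m8_25 := by decide
theorem tm_26 : m8_18 * gA = m8_26 := by decide
theorem tm_27 : m8_18 * gB = m8_27 := by decide
theorem tm_28 : m8_19 * gB = m8_28 := by decide
theorem tm_29 : m8_20 * gB = m8_29 := by decide
theorem tm_30 : m8_21 * gA = m8_30 := by decide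
theorem tm_31 : m8_22 * gA = m8_31 := by decide
theorem tm_32 : m8_22 * gB = m8_32 := by decide
theorem tm_33 : m8_23 * gB = m8_33 := by decide
theorem tm_34 : m8_24 * gB = m8_34 := by decide
theorem tm_35 : m8_25 * gA = m8_35 := by decide
theorem tm_36 : m8_26 * gB = m8_36 := by decide
theorem tm_37 : m8_27 * gA = m8_37 := by decide
theorem tm_38 : m8_28 * gA = m8_38 := by decide
theorem tm_39 : m8_28 * gB = m8_39 := by decide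
theorem tm_40 : m8_29 * gA = m8_40 := by decide
theorem tm_41 : m8_29 * gB = m8_41 := by decide
theorem tm_42 : m8_30 * gB = m8_42 := by decide
theorem tm_43 : m8_31 * gB = m8_43 := by decide
theorem tm_44 : m8_32 * gA = m8_44 := by decide
theorem tm_45 : m8_33 * gA = m8_45 := by decide
theorem tm_46 : m8_33 * gB = m8_46 := by decide
theorem tm_47 : m8_34 * gA = m8_47 := by decide
theorem tm_48 : m8_34 * gB = m8_48 := by decide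
theorem tm_49 : m8_35 * gB = m8_49 := by decide
theorem tm_50 : m8_36 * gA = m8_50 := by decide
theorem tm_51 : m8_36 * gB = m8_51 := by decide
theorem tm_52 : m8_37 * gB = m8_52 := by decide
theorem tm_53 : m8_38 * gB = m8_53 := by decide
theorem tm_54 : m8_39 * gA = m8_54 := by decide
theorem tm_55 : m8_40 * gB = m8_55 := by decide
theorem tm_56 : m8_41 * gA = m8_56 := by decide
theorem tm_57 : m8_42 * gA = m8_57 := by decide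
theorem tm_58 : m8_42 * gB = m8_58 := by decide
theorem tm_59 : m8_43 * gB = m8_59 := by decide
theorem tm_60 : m8_44 * gB = m8_60 := by decide
theorem tm_61 : m8_45 * gB = m8_61 := by decide
theorem tm_62 : m8_46 * gA = m8_62 := by decide
theorem tm_63 : m8_47 * gB = m8_63 := by decide
theorem tm_64 : m8_48 * gA = m8_64 := by decide
theorem tm_65 : m8_49 * gA = m8_65 := by decide
theorem tm_66 : m8_51 * gA = m8_66 := by decide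
theorem tm_67 : m8_52 * gA = m8_67 := by decide
theorem tm_68 : m8_52 * gB = m8_68 := by decide
theorem tm_69 : m8_53 * gA = m8_69 := by decide
theorem tm_70 : m8_53 * gB = m8_70 := by decide
theorem tm_71 : m8_54 * gB = m8_71 := by decide
theorem tm_72 : m8_55 * gA = m8_72 := by decide
theorem tm_73 : m8_55 * gB = m8_73 := by decide
theorem tm_74 : m8_56 * gB = m8_74 := by decide
theorem tm_75 : m8_57 * gB = m8_75 := by decide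
theorem tm_76 : m8_59 * gA = m8_76 := by decide
theorem tm_77 : m8_60 * gA = m8_77 := by decide
theorem tm_78 : m8_60 * gB = m8_78 := by decide
theorem tm_79 : m8_61 * gA = m8_79 := by decide
theorem tm_80 : m8_61 * gB = m8_80 := by decide
theorem tm_81 : m8_62 * gB = m8_81 := by decide
theorem tm_82 : m8_63 * gA = m8_82 := by decide
theorem tm_83 : m8_63 * gB = m8_83 := by decide
theorem tm_84 : m8_64 * gB = m8_84 := by decide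
theorem tm_85 : m8_65 * gB = m8_85 := by decide
theorem tm_86 : m8_66 * gB = m8_86 := by decide
theorem tm_87 : m8_67 * gB = m8_87 := by decide
theorem tm_88 : m8_68 * gA = m8_88 := by decide
theorem tm_89 : m8_69 * gB = m8_89 := by decide
theorem tm_90 : m8_70 * gA = m8_90 := by decide
theorem tm_91 : m8_71 * gA = m8_91 := by decide
theorem tm_92 : m8_73 * gA = m8_92 := by decide
theorem tm_93 : m8_74 * gA = m8_93 := by decide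
theorem tm_94 : m8_74 * gB = m8_94 := by decide
theorem tm_95 : m8_75 * gA = m8_95 := by decide
theorem tm_96 : m8_75 * gB = m8_96 := by decide
theorem tm_97 : m8_76 * gB = m8_97 := by decide
theorem tm_98 : m8_77 * gB = m8_98 := by decide
theorem tm_99 : m8_78 * gA = m8_99 := by decide
theorem tm_100 : m8_79 * gB = m8_100 := by decide
theorem tm_101 : m8_80 * gA = m8_101 := by decide
theorem tm_102 : m8_81 * gA = m8_102 := by decide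
theorem tm_103 : m8_83 * gA = m8_103 := by decide
theorem tm_104 : m8_84 * gA = m8_104 := by decide
theorem tm_105 : m8_84 * gB = m8_105 := by decide
theorem tm_106 : m8_85 * gA = m8_106 := by decide
theorem tm_107 : m8_85 * gB = m8_107 := by decide
theorem tm_108 : m8_86 * gA = m8_108 := by decide
theorem tm_109 : m8_86 * gB = m8_109 := by decide
theorem tm_110 : m8_87 * gA = m8_110 := by decide
theorem tm_111 : m8_87 * gB = m8_111 := by decide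
theorem tm_112 : m8_88 * gB = m8_112 := by decide
theorem tm_113 : m8_89 * gA = m8_113 := by decide
theorem tm_114 : m8_89 * gB = m8_114 := by decide
theorem tm_115 : m8_90 * gB = m8_115 := by decide
theorem tm_116 : m8_91 * gB = m8_116 := by decide
theorem tm_117 : m8_92 * gB = m8_117 := by decide
theorem tm_118 : m8_93 * gB = m8_118 := by decide
theorem tm_119 : m8_94 * gA = m8_119 := by decide
theorem tm_120 : m8_95 * gB = m8_120 := by decide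
theorem tm_121 : m8_96 * gA = m8_121 := by decide
theorem tm_122 : m8_97 * gA = m8_122 := by decide
theorem tm_123 : m8_97 * gB = m8_123 := by decide
theorem tm_124 : m8_98 * gA = m8_124 := by decide
theorem tm_125 : m8_98 * gB = m8_125 := by decide
theorem tm_126 : m8_99 * gB = m8_126 := by decide
theorem tm_127 : m8_100 * gA = m8_127 := by decide
theorem tm_128 : m8_100 * gB = m8_128 := by decide
theorem tm_129 : m8_101 * gB = m8_129 := by decide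
theorem tm_130 : m8_102 * gB = m8_130 := by decide
theorem tm_131 : m8_103 * gB = m8_131 := by decide
theorem tm_132 : m8_104 * gB = m8_132 := by decide
theorem tm_133 : m8_105 * gA = m8_133 := by decide
theorem tm_134 : m8_106 * gB = m8_134 := by decide
theorem tm_135 : m8_107 * gA = m8_135 := by decide
theorem tm_136 : m8_108 * gB = m8_136 := by decide
theorem tm_137 : m8_109 * gA = m8_137 := by decide
theorem tm_138 : m8_110 * gB = m8_138 := by decide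
theorem tm_139 : m8_111 * gA = m8_139 := by decide
theorem tm_140 : m8_112 * gA = m8_140 := by decide
theorem tm_141 : m8_114 * gA = m8_141 := by decide
theorem tm_142 : m8_115 * gA = m8_142 := by decide
theorem tm_143 : m8_115 * gB = m8_143 := by decide
theorem tm_144 : m8_116 * gA = m8_144 := by decide
theorem tm_145 : m8_116 * gB = m8_145 := by decide
theorem tm_146 : m8_117 * gA = m8_146 := by decide
theorem tm_147 : m8_117 * gB = m8_147 := by decide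
theorem tm_148 : m8_118 * gA = m8_148 := by decide
theorem tm_149 : m8_118 * gB = m8_149 := by decide
theorem tm_150 : m8_119 * gB = m8_150 := by decide
theorem tm_151 : m8_120 * gA = m8_151 := by decide
theorem tm_152 : m8_120 * gB = m8_152 := by decide
theorem tm_153 : m8_121 * gB = m8_153 := by decide
theorem tm_154 : m8_122 * gB = m8_154 := by decide
theorem tm_155 : m8_123 * gA = m8_155 := by decide
theorem tm_156 : m8_124 * gB = m8_156 := by decide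
theorem tm_157 : m8_125 * gA = m8_157 := by decide
theorem tm_158 : m8_126 * gA = m8_158 := by decide
theorem tm_159 : m8_128 * gA = m8_159 := by decide
theorem tm_160 : m8_129 * gA = m8_160 := by decide
theorem tm_161 : m8_129 * gB = m8_161 := by decide
theorem tm_162 : m8_130 * gA = m8_162 := by decide
theorem tm_163 : m8_130 * gB = m8_163 := by decide
theorem tm_164 : m8_131 * gA = m8_164 := by decide
theorem tm_165 : m8_131 * gB = m8_165 := by decide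
theorem tm_166 : m8_132 * gA = m8_166 := by decide
theorem tm_167 : m8_132 * gB = m8_167 := by decide
theorem tm_168 : m8_133 * gB = m8_168 := by decide
theorem tm_169 : m8_134 * gA = m8_169 := by decide
theorem tm_170 : m8_134 * gB = m8_170 := by decide
theorem tm_171 : m8_135 * gB = m8_171 := by decide
theorem tm_172 : m8_136 * gA = m8_172 := by decide
theorem tm_173 : m8_136 * gB = m8_173 := by decide
theorem tm_174 : m8_137 * gB = m8_174 := by decide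
theorem tm_175 : m8_138 * gA = m8_175 := by decide
theorem tm_176 : m8_138 * gB = m8_176 := by decide
theorem tm_177 : m8_139 * gB = m8_177 := by decide
theorem tm_178 : m8_140 * gB = m8_178 := by decide
theorem tm_179 : m8_141 * gB = m8_179 := by decide
theorem tm_180 : m8_142 * gB = m8_180 := by decide
theorem tm_181 : m8_143 * gA = m8_181 := by decide
theorem tm_182 : m8_144 * gB = m8_182 := by decide
theorem tm_183 : m8_145 * gA = m8_183 := by decide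
theorem tm_184 : m8_146 * gB = m8_184 := by decide
theorem tm_185 : m8_147 * gA = m8_185 := by decide
theorem tm_186 : m8_148 * gB = m8_186 := by decide
theorem tm_187 : m8_149 * gA = m8_187 := by decide
theorem tm_188 : m8_150 * gA = m8_188 := by decide
theorem tm_189 : m8_152 * gA = m8_189 := by decide
theorem tm_190 : m8_153 * gA = m8_190 := by decide
theorem tm_191 : m8_153 * gB = m8_191 := by decide
theorem tm_192 : m8_154 * gA = m8_192 := by decide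
theorem tm_193 : m8_154 * gB = m8_193 := by decide
theorem tm_194 : m8_155 * gB = m8_194 := by decide
theorem tm_195 : m8_156 * gA = m8_195 := by decide
theorem tm_196 : m8_156 * gB = m8_196 := by decide
theorem tm_197 : m8_157 * gB = m8_197 := by decide
theorem tm_198 : m8_158 * gB = m8_198 := by decide
theorem tm_199 : m8_159 * gB = m8_199 := by decide
theorem tm_200 : m8_160 * gB = m8_200 := by decide
theorem tm_201 : m8_161 * gA = m8_201 := by decide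
theorem tm_202 : m8_162 * gB = m8_202 := by decide
theorem tm_203 : m8_163 * gA = m8_203 := by decide
theorem tm_204 : m8_164 * gB = m8_204 := by decide
theorem tm_205 : m8_165 * gA = m8_205 := by decide
theorem tm_206 : m8_166 * gB = m8_206 := by decide
theorem tm_207 : m8_167 * gA = m8_207 := by decide
theorem tm_208 : m8_168 * gA = m8_208 := by decide
theorem tm_209 : m8_170 * gA = m8_209 := by decide
theorem tm_210 : m8_171 * gA = m8_210 := by decide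
theorem tm_211 : m8_171 * gB = m8_211 := by decide
theorem tm_212 : m8_172 * gB = m8_212 := by decide
theorem tm_213 : m8_173 * gA = m8_213 := by decide
theorem tm_214 : m8_174 * gA = m8_214 := by decide
theorem tm_215 : m8_176 * gA = m8_215 := by decide
theorem tm_216 : m8_177 * gA = m8_216 := by decide
theorem tm_217 : m8_177 * gB = m8_217 := by decide
theorem tm_218 : m8_178 * gA = m8_218 := by decide
theorem tm_219 : m8_178 * gB = m8_219 := by decide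
theorem tm_220 : m8_179 * gA = m8_220 := by decide
theorem tm_221 : m8_179 * gB = m8_221 := by decide
theorem tm_222 : m8_180 * gA = m8_222 := by decide
theorem tm_223 : m8_180 * gB = m8_223 := by decide
theorem tm_224 : m8_181 * gB = m8_224 := by decide
theorem tm_225 : m8_182 * gA = m8_225 := by decide
theorem tm_226 : m8_182 * gB = m8_226 := by decide
theorem tm_227 : m8_183 * gB = m8_227 := by decide
theorem tm_228 : m8_184 * gA = m8_228 := by decide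
theorem tm_229 : m8_184 * gB = m8_229 := by decide
theorem tm_230 : m8_185 * gB = m8_230 := by decide
theorem tm_231 : m8_186 * gA = m8_231 := by decide
theorem tm_232 : m8_186 * gB = m8_232 := by decide
theorem tm_233 : m8_187 * gB = m8_233 := by decide
theorem tm_234 : m8_188 * gB = m8_234 := by decide
theorem tm_235 : m8_189 * gB = m8_235 := by decide
theorem tm_236 : m8_190 * gB = m8_236 := by decide
theorem tm_237 : m8_191 * gA = m8_237 := by decide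
theorem tm_238 : m8_193 * gA = m8_238 := by decide
theorem tm_239 : m8_194 * gA = m8_239 := by decide
theorem tm_240 : m8_196 * gA = m8_240 := by decide
theorem tm_241 : m8_197 * gA = m8_241 := by decide
theorem tm_242 : m8_197 * gB = m8_242 := by decide
theorem tm_243 : m8_198 * gA = m8_243 := by decide
theorem tm_244 : m8_198 * gB = m8_244 := by decide
theorem tm_245 : m8_199 * gA = m8_245 := by decide
theorem tm_246 : m8_199 * gB = m8_246 := by decide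
theorem tm_247 : m8_200 * gA = m8_247 := by decide
theorem tm_248 : m8_200 * gB = m8_248 := by decide
theorem tm_249 : m8_201 * gB = m8_249 := by decide
theorem tm_250 : m8_202 * gA = m8_250 := by decide
theorem tm_251 : m8_202 * gB = m8_251 := by decide
theorem tm_252 : m8_203 * gB = m8_252 := by decide
theorem tm_253 : m8_204 * gA = m8_253 := by decide
theorem tm_254 : m8_204 * gB = m8_254 := by decide
theorem tm_255 : m8_205 * gB = m8_255 := by decide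
theorem tm_256 : m8_206 * gA = m8_256 := by decide
theorem tm_257 : m8_206 * gB = m8_257 := by decide
theorem tm_258 : m8_207 * gB = m8_258 := by decide
theorem tm_259 : m8_208 * gB = m8_259 := by decide
theorem tm_260 : m8_209 * gB = m8_260 := by decide
theorem tm_261 : m8_210 * gB = m8_261 := by decide
theorem tm_262 : m8_212 * gB = m8_262 := by decide
theorem tm_263 : m8_213 * gB = m8_263 := by decide
theorem tm_264 : m8_214 * gB = m8_264 := by decide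
theorem tm_265 : m8_215 * gB = m8_265 := by decide
theorem tm_266 : m8_216 * gB = m8_266 := by decide
theorem tm_267 : m8_217 * gA = m8_267 := by decide
theorem tm_268 : m8_218 * gB = m8_268 := by decide
theorem tm_269 : m8_219 * gA = m8_269 := by decide
theorem tm_270 : m8_220 * gB = m8_270 := by decide
theorem tm_271 : m8_221 * gA = m8_271 := by decide
theorem tm_272 : m8_222 * gB = m8_272 := by decide
theorem tm_273 : m8_223 * gA = m8_273 := by decide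
theorem tm_274 : m8_224 * gA = m8_274 := by decide
theorem tm_275 : m8_226 * gA = m8_275 := by decide
theorem tm_276 : m8_227 * gA = m8_276 := by decide
theorem tm_277 : m8_227 * gB = m8_277 := by decide
theorem tm_278 : m8_228 * gB = m8_278 := by decide
theorem tm_279 : m8_229 * gA = m8_279 := by decide
theorem tm_280 : m8_230 * gA = m8_280 := by decide
theorem tm_281 : m8_232 * gA = m8_281 := by decide
theorem tm_282 : m8_233 * gA = m8_282 := by decide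
theorem tm_283 : m8_233 * gB = m8_283 := by decide
theorem tm_284 : m8_234 * gA = m8_284 := by decide
theorem tm_285 : m8_234 * gB = m8_285 := by decide
theorem tm_286 : m8_235 * gA = m8_286 := by decide
theorem tm_287 : m8_235 * gB = m8_287 := by decide
theorem tm_288 : m8_236 * gA = m8_288 := by decide
theorem tm_289 : m8_236 * gB = m8_289 := by decide
theorem tm_290 : m8_237 * gB = m8_290 := by decide
theorem tm_291 : m8_238 * gB = m8_291 := by decide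
theorem tm_292 : m8_239 * gB = m8_292 := by decide
theorem tm_293 : m8_240 * gB = m8_293 := by decide
theorem tm_294 : m8_241 * gB = m8_294 := by decide
theorem tm_295 : m8_242 * gA = m8_295 := by decide
theorem tm_296 : m8_243 * gB = m8_296 := by decide
theorem tm_297 : m8_244 * gA = m8_297 := by decide
theorem tm_298 : m8_245 * gB = m8_298 := by decide
theorem tm_299 : m8_246 * gA = m8_299 := by decide
theorem tm_300 : m8_247 * gB = m8_300 := by decide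
theorem tm_301 : m8_248 * gA = m8_301 := by decide
theorem tm_302 : m8_249 * gA = m8_302 := by decide
theorem tm_303 : m8_251 * gA = m8_303 := by decide
theorem tm_304 : m8_252 * gA = m8_304 := by decide
theorem tm_305 : m8_252 * gB = m8_305 := by decide
theorem tm_306 : m8_253 * gB = m8_306 := by decide
theorem tm_307 : m8_254 * gA = m8_307 := by decide
theorem tm_308 : m8_255 * gA = m8_308 := by decide
theorem tm_309 : m8_257 * gA = m8_309 := by decide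
theorem tm_310 : m8_258 * gA = m8_310 := by decide
theorem tm_311 : m8_258 * gB = m8_311 := by decide
theorem tm_312 : m8_259 * gA = m8_312 := by decide
theorem tm_313 : m8_259 * gB = m8_313 := by decide
theorem tm_314 : m8_260 * gA = m8_314 := by decide
theorem tm_315 : m8_260 * gB = m8_315 := by decide
theorem tm_316 : m8_261 * gA = m8_316 := by decide
theorem tm_317 : m8_261 * gB = m8_317 := by decide
theorem tm_318 : m8_262 * gA = m8_318 := by decide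
theorem tm_319 : m8_263 * gA = m8_319 := by decide
theorem tm_320 : m8_263 * gB = m8_320 := by decide
theorem tm_321 : m8_264 * gA = m8_321 := by decide
theorem tm_322 : m8_264 * gB = m8_322 := by decide
theorem tm_323 : m8_265 * gB = m8_323 := by decide
theorem tm_324 : m8_266 * gA = m8_324 := by decide
theorem tm_325 : m8_266 * gB = m8_325 := by decide
theorem tm_326 : m8_267 * gB = m8_326 := by decide
theorem tm_327 : m8_268 * gA = m8_327 := by decide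
theorem tm_328 : m8_268 * gB = m8_328 := by decide
theorem tm_329 : m8_269 * gB = m8_329 := by decide
theorem tm_330 : m8_270 * gB = m8_330 := by decide
theorem tm_331 : m8_271 * gB = m8_331 := by decide
theorem tm_332 : m8_272 * gA = m8_332 := by decide
theorem tm_333 : m8_272 * gB = m8_333 := by decide
theorem tm_334 : m8_273 * gB = m8_334 := by decide
theorem tm_335 : m8_274 * gB = m8_335 := by decide
theorem tm_336 : m8_275 * gB = m8_336 := by decide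
theorem tm_337 : m8_276 * gB = m8_337 := by decide
theorem tm_338 : m8_278 * gB = m8_338 := by decide
theorem tm_339 : m8_279 * gB = m8_339 := by decide
theorem tm_340 : m8_280 * gB = m8_340 := by decide
theorem tm_341 : m8_281 * gB = m8_341 := by decide
theorem tm_342 : m8_282 * gB = m8_342 := by decide
theorem tm_343 : m8_283 * gA = m8_343 := by decide
theorem tm_344 : m8_284 * gB = m8_344 := by decide
theorem tm_345 : m8_285 * gA = m8_345 := by decide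
theorem tm_346 : m8_286 * gB = m8_346 := by decide
theorem tm_347 : m8_287 * gA = m8_347 := by decide
theorem tm_348 : m8_288 * gB = m8_348 := by decide
theorem tm_349 : m8_289 * gA = m8_349 := by decide
theorem tm_350 : m8_290 * gA = m8_350 := by decide
theorem tm_351 : m8_291 * gA = m8_351 := by decide
theorem tm_352 : m8_291 * gB = m8_352 := by decide
theorem tm_353 : m8_292 * gA = m8_353 := by decide
theorem tm_354 : m8_292 * gB = m8_354 := by decide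
theorem tm_355 : m8_293 * gB = m8_355 := by decide
theorem tm_356 : m8_294 * gA = m8_356 := by decide
theorem tm_357 : m8_294 * gB = m8_357 := by decide
theorem tm_358 : m8_295 * gB = m8_358 := by decide
theorem tm_359 : m8_296 * gA = m8_359 := by decide
theorem tm_360 : m8_296 * gB = m8_360 := by decide
theorem tm_361 : m8_297 * gB = m8_361 := by decide
theorem tm_362 : m8_298 * gB = m8_362 := by decide
theorem tm_363 : m8_299 * gB = m8_363 := by decide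
theorem tm_364 : m8_300 * gA = m8_364 := by decide
theorem tm_365 : m8_300 * gB = m8_365 := by decide
theorem tm_366 : m8_301 * gB = m8_366 := by decide
theorem tm_367 : m8_302 * gB = m8_367 := by decide
theorem tm_368 : m8_303 * gB = m8_368 := by decide
theorem tm_369 : m8_304 * gB = m8_369 := by decide
theorem tm_370 : m8_306 * gB = m8_370 := by decide
theorem tm_371 : m8_307 * gB = m8_371 := by decide
theorem tm_372 : m8_308 * gB = m8_372 := by decide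
theorem tm_373 : m8_309 * gB = m8_373 := by decide
theorem tm_374 : m8_310 * gB = m8_374 := by decide
theorem tm_375 : m8_311 * gA = m8_375 := by decide
theorem tm_376 : m8_312 * gB = m8_376 := by decide
theorem tm_377 : m8_313 * gA = m8_377 := by decide
theorem tm_378 : m8_314 * gB = m8_378 := by decide
theorem tm_379 : m8_315 * gA = m8_379 := by decide
theorem tm_380 : m8_316 * gB = m8_380 := by decide
theorem tm_381 : m8_317 * gA = m8_381 := by decide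
theorem tm_382 : m8_318 * gB = m8_382 := by decide
theorem tm_383 : m8_319 * gB = m8_383 := by decide
theorem tm_384 : m8_320 * gA = m8_384 := by decide
theorem tm_385 : m8_321 * gB = m8_385 := by decide
theorem tm_386 : m8_322 * gA = m8_386 := by decide
theorem tm_387 : m8_323 * gA = m8_387 := by decide
theorem tm_388 : m8_324 * gB = m8_388 := by decide
theorem tm_389 : m8_325 * gA = m8_389 := by decide
theorem tm_390 : m8_328 * gA = m8_390 := by decide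
theorem tm_391 : m8_329 * gA = m8_391 := by decide
theorem tm_392 : m8_329 * gB = m8_392 := by decide
theorem tm_393 : m8_331 * gA = m8_393 := by decide
theorem tm_394 : m8_333 * gA = m8_394 := by decide
theorem tm_395 : m8_334 * gA = m8_395 := by decide
theorem tm_396 : m8_334 * gB = m8_396 := by decide
theorem tm_397 : m8_335 * gA = m8_397 := by decide
theorem tm_398 : m8_335 * gB = m8_398 := by decide
theorem tm_399 : m8_336 * gA = m8_399 := by decide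
theorem tm_400 : m8_336 * gB = m8_400 := by decide
theorem tm_401 : m8_337 * gB = m8_401 := by decide
theorem tm_402 : m8_339 * gA = m8_402 := by decide
theorem tm_403 : m8_339 * gB = m8_403 := by decide
theorem tm_404 : m8_340 * gA = m8_404 := by decide
theorem tm_405 : m8_340 * gB = m8_405 := by decide
theorem tm_406 : m8_341 * gB = m8_406 := by decide
theorem tm_407 : m8_342 * gA = m8_407 := by decide
theorem tm_408 : m8_342 * gB = m8_408 := by decide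
theorem tm_409 : m8_343 * gB = m8_409 := by decide
theorem tm_410 : m8_344 * gA = m8_410 := by decide
theorem tm_411 : m8_344 * gB = m8_411 := by decide
theorem tm_412 : m8_345 * gB = m8_412 := by decide
theorem tm_413 : m8_346 * gB = m8_413 := by decide
theorem tm_414 : m8_347 * gB = m8_414 := by decide
theorem tm_415 : m8_348 * gA = m8_415 := by decide
theorem tm_416 : m8_348 * gB = m8_416 := by decide
theorem tm_417 : m8_349 * gB = m8_417 := by decide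
theorem tm_418 : m8_350 * gB = m8_418 := by decide
theorem tm_419 : m8_352 * gA = m8_419 := by decide
theorem tm_420 : m8_353 * gB = m8_420 := by decide
theorem tm_421 : m8_354 * gA = m8_421 := by decide
theorem tm_422 : m8_357 * gA = m8_422 := by decide
theorem tm_423 : m8_365 * gA = m8_423 := by decide
theorem tm_424 : m8_366 * gA = m8_424 := by decide
theorem tm_425 : m8_366 * gB = m8_425 := by decide
theorem tm_426 : m8_367 * gB = m8_426 := by decide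
theorem tm_427 : m8_369 * gB = m8_427 := by decide
theorem tm_428 : m8_371 * gA = m8_428 := by decide
theorem tm_429 : m8_371 * gB = m8_429 := by decide
theorem tm_430 : m8_373 * gB = m8_430 := by decide
theorem tm_431 : m8_374 * gA = m8_431 := by decide
theorem tm_432 : m8_374 * gB = m8_432 := by decide
theorem tm_433 : m8_375 * gB = m8_433 := by decide
theorem tm_434 : m8_376 * gA = m8_434 := by decide
theorem tm_435 : m8_377 * gB = m8_435 := by decide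
theorem tm_436 : m8_378 * gB = m8_436 := by decide
theorem tm_437 : m8_380 * gA = m8_437 := by decide
theorem tm_438 : m8_380 * gB = m8_438 := by decide
theorem tm_439 : m8_381 * gB = m8_439 := by decide
theorem tm_440 : m8_382 * gB = m8_440 := by decide
theorem tm_441 : m8_383 * gB = m8_441 := by decide
theorem tm_442 : m8_386 * gB = m8_442 := by decide
theorem tm_443 : m8_388 * gB = m8_443 := by decide
theorem tm_444 : m8_389 * gB = m8_444 := by decide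
theorem tm_445 : m8_391 * gB = m8_445 := by decide
theorem tm_446 : m8_394 * gB = m8_446 := by decide
theorem tm_447 : m8_395 * gB = m8_447 := by decide
theorem tm_448 : m8_396 * gA = m8_448 := by decide
theorem tm_449 : m8_397 * gB = m8_449 := by decide
theorem tm_450 : m8_401 * gA = m8_450 := by decide
theorem tm_451 : m8_402 * gB = m8_451 := by decide
theorem tm_452 : m8_406 * gA = m8_452 := by decide
theorem tm_453 : m8_407 * gB = m8_453 := by decide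
theorem tm_454 : m8_408 * gA = m8_454 := by decide
theorem tm_455 : m8_412 * gB = m8_455 := by decide
theorem tm_456 : m8_417 * gA = m8_456 := by decide
theorem tm_457 : m8_417 * gB = m8_457 := by decide
theorem tm_458 : m8_418 * gB = m8_458 := by decide
theorem tm_459 : m8_421 * gB = m8_459 := by decide
theorem tm_460 : m8_422 * gB = m8_460 := by decide
theorem tm_461 : m8_423 * gB = m8_461 := by decide
theorem tm_462 : m8_424 * gB = m8_462 := by decide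
theorem tm_463 : m8_425 * gA = m8_463 := by decide
theorem tm_464 : m8_430 * gA = m8_464 := by decide
theorem tm_465 : m8_431 * gB = m8_465 := by decide
theorem tm_466 : m8_432 * gA = m8_466 := by decide
theorem tm_467 : m8_435 * gB = m8_467 := by decide
theorem tm_468 : m8_439 * gA = m8_468 := by decide
theorem tm_469 : m8_439 * gB = m8_469 := by decide
theorem tm_470 : m8_441 * gA = m8_470 := by decide
theorem tm_471 : m8_444 * gA = m8_471 := by decide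
theorem tm_472 : m8_444 * gB = m8_472 := by decide
theorem tm_473 : m8_446 * gB = m8_473 := by decide
theorem tm_474 : m8_447 * gA = m8_474 := by decide
theorem tm_475 : m8_447 * gB = m8_475 := by decide
theorem tm_476 : m8_448 * gB = m8_476 := by decide
theorem tm_477 : m8_449 * gA = m8_477 := by decide
theorem tm_478 : m8_450 * gB = m8_478 := by decide
theorem tm_479 : m8_451 * gB = m8_479 := by decide
theorem tm_480 : m8_453 * gB = m8_480 := by decide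
theorem tm_481 : m8_454 * gB = m8_481 := by decide
theorem tm_482 : m8_456 * gB = m8_482 := by decide
theorem tm_483 : m8_457 * gA = m8_483 := by decide
theorem tm_484 : m8_460 * gA = m8_484 := by decide
theorem tm_485 : m8_460 * gB = m8_485 := by decide
theorem tm_486 : m8_462 * gA = m8_486 := by decide
theorem tm_487 : m8_462 * gB = m8_487 := by decide
theorem tm_488 : m8_463 * gB = m8_488 := by decide
theorem tm_489 : m8_465 * gB = m8_489 := by decide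
theorem tm_490 : m8_466 * gB = m8_490 := by decide
theorem tm_491 : m8_468 * gB = m8_491 := by decide
theorem tm_492 : m8_472 * gA = m8_492 := by decide
theorem tm_493 : m8_475 * gA = m8_493 := by decide
theorem tm_494 : m8_478 * gA = m8_494 := by decide
theorem tm_495 : m8_479 * gA = m8_495 := by decide
theorem tm_496 : m8_481 * gA = m8_496 := by decide
theorem tm_497 : m8_482 * gA = m8_497 := by decide
theorem tm_498 : m8_485 * gA = m8_498 := by decide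
theorem tm_499 : m8_487 * gA = m8_499 := by decide
theorem tm_500 : m8_490 * gA = m8_500 := by decide
theorem tm_501 : m8_491 * gA = m8_501 := by decide
theorem tm_502 : m8_493 * gB = m8_502 := by decide
theorem tm_503 : m8_499 * gB = m8_503 := by decide
def M8_c0 : Fin 63 → S8
  | ⟨0, _⟩ => m8_0
  | ⟨1, _⟩ => m8_1
  | ⟨2, _⟩ => m8_2
  | ⟨3, _⟩ => m8_3
  | ⟨4, _⟩ => m8_4
  | ⟨5, _⟩ => m8_5
  | ⟨6, _⟩ => m8_6
  | ⟨7, _⟩ => m8_7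
  | ⟨8, _⟩ => m8_8
  | ⟨9, _⟩ => m8_9
  | ⟨10, _⟩ => m8_10
  | ⟨11, _⟩ => m8_11
  | ⟨12, _⟩ => m8_12
  | ⟨13, _⟩ => m8_13
  | ⟨14, _⟩ => m8_14
  | ⟨15, _⟩ => m8_15
  | ⟨16, _⟩ => m8_16
  | ⟨17, _⟩ => m8_17
  | ⟨18, _⟩ => m8_18
  | ⟨19, _⟩ => m8_19
  | ⟨20, _⟩ => m8_20
  | ⟨21, _⟩ => m8_21
  | ⟨22, _⟩ => m8_22
  | ⟨23, _⟩ => m8_23
  | ⟨24, _⟩ => m8_24
  | ⟨25, _⟩ => m8_25
  | ⟨26, _⟩ => m8_26
  | ⟨27, _⟩ => m8_27
  | ⟨28, _⟩ => m8_28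
  | ⟨29, _⟩ => m8_29
  | ⟨30, _⟩ => m8_30
  | ⟨31, _⟩ => m8_31
  | ⟨32, _⟩ => m8_32
  | ⟨33, _⟩ => m8_33
  | ⟨34, _⟩ => m8_34
  | ⟨35, _⟩ => m8_35
  | ⟨36, _⟩ => m8_36
  | ⟨37, _⟩ => m8_37
  | ⟨38, _⟩ => m8_38
  | ⟨39, _⟩ => m8_39
  | ⟨40, _⟩ => m8_40
  | ⟨41, _⟩ => m8_41
  | ⟨42, _⟩ => m8_42
  | ⟨43, _⟩ => m8_43
  | ⟨44, _⟩ => m8_44
  | ⟨45, _⟩ => m8_45
  | ⟨46, _⟩ => m8_46
  | ⟨47, _⟩ => m8_47
  | ⟨48, _⟩ => m8_48
  | ⟨49, _⟩ => m8_49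
  | ⟨50, _⟩ => m8_50
  | ⟨51, _⟩ => m8_51
  | ⟨52, _⟩ => m8_52
  | ⟨53, _⟩ => m8_53
  | ⟨54, _⟩ => m8_54
  | ⟨55, _⟩ => m8_55
  | ⟨56, _⟩ => m8_56
  | ⟨57, _⟩ => m8_57
  | ⟨58, _⟩ => m8_58
  | ⟨59, _⟩ => m8_59
  | ⟨60, _⟩ => m8_60
  | ⟨61, _⟩ => m8_61
  | ⟨62, _⟩ => m8_62
  | ⟨n+63, h⟩ => absurd h (by omega)
def M8_c1 : Fin 63 → S8
  | ⟨0, _⟩ => m8_63
  | ⟨1, _⟩ => m8_64
  | ⟨2, _⟩ => m8_65
  | ⟨3, _⟩ => m8_66
  | ⟨4, _⟩ => m8_67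
  | ⟨5, _⟩ => m8_68
  | ⟨6, _⟩ => m8_69
  | ⟨7, _⟩ => m8_70
  | ⟨8, _⟩ => m8_71
  | ⟨9, _⟩ => m8_72
  | ⟨10, _⟩ => m8_73
  | ⟨11, _⟩ => m8_74
  | ⟨12, _⟩ => m8_75
  | ⟨13, _⟩ => m8_76
  | ⟨14, _⟩ => m8_77
  | ⟨15, _⟩ => m8_78
  | ⟨16, _⟩ => m8_79
  | ⟨17, _⟩ => m8_80
  | ⟨18, _⟩ => m8_81
  | ⟨19, _⟩ => m8_82
  | ⟨20, _⟩ => m8_83
  | ⟨21, _⟩ => m8_84
  | ⟨22, _⟩ => m8_85
  | ⟨23, _⟩ => m8_86
  | ⟨24, _⟩ => m8_87
  | ⟨25, _⟩ => m8_88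
  | ⟨26, _⟩ => m8_89
  | ⟨27, _⟩ => m8_90
  | ⟨28, _⟩ => m8_91
  | ⟨29, _⟩ => m8_92
  | ⟨30, _⟩ => m8_93
  | ⟨31, _⟩ => m8_94
  | ⟨32, _⟩ => m8_95
  | ⟨33, _⟩ => m8_96
  | ⟨34, _⟩ => m8_97
  | ⟨35, _⟩ => m8_98
  | ⟨36, _⟩ => m8_99
  | ⟨37, _⟩ => m8_100
  | ⟨38, _⟩ => m8_101
  | ⟨39, _⟩ => m8_102
  | ⟨40, _⟩ => m8_103
  | ⟨41, _⟩ => m8_104
  | ⟨42, _⟩ => m8_105
  | ⟨43, _⟩ => m8_106
  | ⟨44, _⟩ => m8_107
  | ⟨45, _⟩ => m8_108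
  | ⟨46, _⟩ => m8_109
  | ⟨47, _⟩ => m8_110
  | ⟨48, _⟩ => m8_111
  | ⟨49, _⟩ => m8_112
  | ⟨50, _⟩ => m8_113
  | ⟨51, _⟩ => m8_114
  | ⟨52, _⟩ => m8_115
  | ⟨53, _⟩ => m8_116
  | ⟨54, _⟩ => m8_117
  | ⟨55, _⟩ => m8_118
  | ⟨56, _⟩ => m8_119
  | ⟨57, _⟩ => m8_120
  | ⟨58, _⟩ => m8_121
  | ⟨59, _⟩ => m8_122
  | ⟨60, _⟩ => m8_123
  | ⟨61, _⟩ => m8_124
  | ⟨62, _⟩ => m8_125
  | ⟨n+63, h⟩ => absurd h (by omega)
def M8_c2 : Fin 63 → S8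
  | ⟨0, _⟩ => m8_126
  | ⟨1, _⟩ => m8_127
  | ⟨2, _⟩ => m8_128
  | ⟨3, _⟩ => m8_129
  | ⟨4, _⟩ => m8_130
  | ⟨5, _⟩ => m8_131
  | ⟨6, _⟩ => m8_132
  | ⟨7, _⟩ => m8_133
  | ⟨8, _⟩ => m8_134
  | ⟨9, _⟩ => m8_135
  | ⟨10, _⟩ => m8_136
  | ⟨11, _⟩ => m8_137
  | ⟨12, _⟩ => m8_138
  | ⟨13, _⟩ => m8_139
  | ⟨14, _⟩ => m8_140
  | ⟨15, _⟩ => m8_141
  | ⟨16, _⟩ => m8_142
  | ⟨17, _⟩ => m8_143
  | ⟨18, _⟩ => m8_144
  | ⟨19, _⟩ => m8_145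
  | ⟨20, _⟩ => m8_146
  | ⟨21, _⟩ => m8_147
  | ⟨22, _⟩ => m8_148
  | ⟨23, _⟩ => m8_149
  | ⟨24, _⟩ => m8_150
  | ⟨25, _⟩ => m8_151
  | ⟨26, _⟩ => m8_152
  | ⟨27, _⟩ => m8_153
  | ⟨28, _⟩ => m8_154
  | ⟨29, _⟩ => m8_155
  | ⟨30, _⟩ => m8_156
  | ⟨31, _⟩ => m8_157
  | ⟨32, _⟩ => m8_158
  | ⟨33, _⟩ => m8_159
  | ⟨34, _⟩ => m8_160
  | ⟨35, _⟩ => m8_161
  | ⟨36, _⟩ => m8_162
  | ⟨37, _⟩ => m8_163
  | ⟨38, _⟩ => m8_164
  | ⟨39, _⟩ => m8_165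
  | ⟨40, _⟩ => m8_166
  | ⟨41, _⟩ => m8_167
  | ⟨42, _⟩ => m8_168
  | ⟨43, _⟩ => m8_169
  | ⟨44, _⟩ => m8_170
  | ⟨45, _⟩ => m8_171
  | ⟨46, _⟩ => m8_172
  | ⟨47, _⟩ => m8_173
  | ⟨48, _⟩ => m8_174
  | ⟨49, _⟩ => m8_175
  | ⟨50, _⟩ => m8_176
  | ⟨51, _⟩ => m8_177
  | ⟨52, _⟩ => m8_178
  | ⟨53, _⟩ => m8_179
  | ⟨54, _⟩ => m8_180
  | ⟨55, _⟩ => m8_181
  | ⟨56, _⟩ => m8_182
  | ⟨57, _⟩ => m8_183
  | ⟨58, _⟩ => m8_184
  | ⟨59, _⟩ => m8_185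
  | ⟨60, _⟩ => m8_186
  | ⟨61, _⟩ => m8_187
  | ⟨62, _⟩ => m8_188
  | ⟨n+63, h⟩ => absurd h (by omega)
def M8_c3 : Fin 63 → S8
  | ⟨0, _⟩ => m8_189
  | ⟨1, _⟩ => m8_190
  | ⟨2, _⟩ => m8_191
  | ⟨3, _⟩ => m8_192
  | ⟨4, _⟩ => m8_193
  | ⟨5, _⟩ => m8_194
  | ⟨6, _⟩ => m8_195
  | ⟨7, _⟩ => m8_196
  | ⟨8, _⟩ => m8_197
  | ⟨9, _⟩ => m8_198
  | ⟨10, _⟩ => m8_199
  | ⟨11, _⟩ => m8_200
  | ⟨12, _⟩ => m8_201
  | ⟨13, _⟩ => m8_202
  | ⟨14, _⟩ => m8_203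
  | ⟨15, _⟩ => m8_204
  | ⟨16, _⟩ => m8_205
  | ⟨17, _⟩ => m8_206
  | ⟨18, _⟩ => m8_207
  | ⟨19, _⟩ => m8_208
  | ⟨20, _⟩ => m8_209
  | ⟨21, _⟩ => m8_210
  | ⟨22, _⟩ => m8_211
  | ⟨23, _⟩ => m8_212
  | ⟨24, _⟩ => m8_213
  | ⟨25, _⟩ => m8_214
  | ⟨26, _⟩ => m8_215
  | ⟨27, _⟩ => m8_216
  | ⟨28, _⟩ => m8_217
  | ⟨29, _⟩ => m8_218
  | ⟨30, _⟩ => m8_219
  | ⟨31, _⟩ => m8_220
  | ⟨32, _⟩ => m8_221
  | ⟨33, _⟩ => m8_222
  | ⟨34, _⟩ => m8_223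
  | ⟨35, _⟩ => m8_224
  | ⟨36, _⟩ => m8_225
  | ⟨37, _⟩ => m8_226
  | ⟨38, _⟩ => m8_227
  | ⟨39, _⟩ => m8_228
  | ⟨40, _⟩ => m8_229
  | ⟨41, _⟩ => m8_230
  | ⟨42, _⟩ => m8_231
  | ⟨43, _⟩ => m8_232
  | ⟨44, _⟩ => m8_233
  | ⟨45, _⟩ => m8_234
  | ⟨46, _⟩ => m8_235
  | ⟨47, _⟩ => m8_236
  | ⟨48, _⟩ => m8_237
  | ⟨49, _⟩ => m8_238
  | ⟨50, _⟩ => m8_239
  | ⟨51, _⟩ => m8_240
  | ⟨52, _⟩ => m8_241
  | ⟨53, _⟩ => m8_242
  | ⟨54, _⟩ => m8_243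
  | ⟨55, _⟩ => m8_244
  | ⟨56, _⟩ => m8_245
  | ⟨57, _⟩ => m8_246
  | ⟨58, _⟩ => m8_247
  | ⟨59, _⟩ => m8_248
  | ⟨60, _⟩ => m8_249
  | ⟨61, _⟩ => m8_250
  | ⟨62, _⟩ => m8_251
  | ⟨n+63, h⟩ => absurd h (by omega)
def M8_c4 : Fin 63 → S8
  | ⟨0, _⟩ => m8_252
  | ⟨1, _⟩ => m8_253
  | ⟨2, _⟩ => m8_254
  | ⟨3, _⟩ => m8_255
  | ⟨4, _⟩ => m8_256
  | ⟨5, _⟩ => m8_257
  | ⟨6, _⟩ => m8_258
  | ⟨7, _⟩ => m8_259
  | ⟨8, _⟩ => m8_260
  | ⟨9, _⟩ => m8_261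
  | ⟨10, _⟩ => m8_262
  | ⟨11, _⟩ => m8_263
  | ⟨12, _⟩ => m8_264
  | ⟨13, _⟩ => m8_265
  | ⟨14, _⟩ => m8_266
  | ⟨15, _⟩ => m8_267
  | ⟨16, _⟩ => m8_268
  | ⟨17, _⟩ => m8_269
  | ⟨18, _⟩ => m8_270
  | ⟨19, _⟩ => m8_271
  | ⟨20, _⟩ => m8_272
  | ⟨21, _⟩ => m8_273
  | ⟨22, _⟩ => m8_274
  | ⟨23, _⟩ => m8_275
  | ⟨24, _⟩ => m8_276
  | ⟨25, _⟩ => m8_277
  | ⟨26, _⟩ => m8_278
  | ⟨27, _⟩ => m8_279
  | ⟨28, _⟩ => m8_280
  | ⟨29, _⟩ => m8_281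
  | ⟨30, _⟩ => m8_282
  | ⟨31, _⟩ => m8_283
  | ⟨32, _⟩ => m8_284
  | ⟨33, _⟩ => m8_285
  | ⟨34, _⟩ => m8_286
  | ⟨35, _⟩ => m8_287
  | ⟨36, _⟩ => m8_288
  | ⟨37, _⟩ => m8_289
  | ⟨38, _⟩ => m8_290
  | ⟨39, _⟩ => m8_291
  | ⟨40, _⟩ => m8_292
  | ⟨41, _⟩ => m8_293
  | ⟨42, _⟩ => m8_294
  | ⟨43, _⟩ => m8_295
  | ⟨44, _⟩ => m8_296
  | ⟨45, _⟩ => m8_297
  | ⟨46, _⟩ => m8_298
  | ⟨47, _⟩ => m8_299
  | ⟨48, _⟩ => m8_300
  | ⟨49, _⟩ => m8_301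
  | ⟨50, _⟩ => m8_302
  | ⟨51, _⟩ => m8_303
  | ⟨52, _⟩ => m8_304
  | ⟨53, _⟩ => m8_305
  | ⟨54, _⟩ => m8_306
  | ⟨55, _⟩ => m8_307
  | ⟨56, _⟩ => m8_308
  | ⟨57, _⟩ => m8_309
  | ⟨58, _⟩ => m8_310
  | ⟨59, _⟩ => m8_311
  | ⟨60, _⟩ => m8_312
  | ⟨61, _⟩ => m8_313
  | ⟨62, _⟩ => m8_314
  | ⟨n+63, h⟩ => absurd h (by omega)
def M8_c5 : Fin 63 → S8
  | ⟨0, _⟩ => m8_315
  | ⟨1, _⟩ => m8_316
  | ⟨2, _⟩ => m8_317
  | ⟨3, _⟩ => m8_318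
  | ⟨4, _⟩ => m8_319
  | ⟨5, _⟩ => m8_320
  | ⟨6, _⟩ => m8_321
  | ⟨7, _⟩ => m8_322
  | ⟨8, _⟩ => m8_323
  | ⟨9, _⟩ => m8_324
  | ⟨10, _⟩ => m8_325
  | ⟨11, _⟩ => m8_326
  | ⟨12, _⟩ => m8_327
  | ⟨13, _⟩ => m8_328
  | ⟨14, _⟩ => m8_329
  | ⟨15, _⟩ => m8_330
  | ⟨16, _⟩ => m8_331
  | ⟨17, _⟩ => m8_332
  | ⟨18, _⟩ => m8_333
  | ⟨19, _⟩ => m8_334
  | ⟨20, _⟩ => m8_335
  | ⟨21, _⟩ => m8_336
  | ⟨22, _⟩ => m8_337
  | ⟨23, _⟩ => m8_338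
  | ⟨24, _⟩ => m8_339
  | ⟨25, _⟩ => m8_340
  | ⟨26, _⟩ => m8_341
  | ⟨27, _⟩ => m8_342
  | ⟨28, _⟩ => m8_343
  | ⟨29, _⟩ => m8_344
  | ⟨30, _⟩ => m8_345
  | ⟨31, _⟩ => m8_346
  | ⟨32, _⟩ => m8_347
  | ⟨33, _⟩ => m8_348
  | ⟨34, _⟩ => m8_349
  | ⟨35, _⟩ => m8_350
  | ⟨36, _⟩ => m8_351
  | ⟨37, _⟩ => m8_352
  | ⟨38, _⟩ => m8_353
  | ⟨39, _⟩ => m8_354
  | ⟨40, _⟩ => m8_355
  | ⟨41, _⟩ => m8_356
  | ⟨42, _⟩ => m8_357
  | ⟨43, _⟩ => m8_358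
  | ⟨44, _⟩ => m8_359
  | ⟨45, _⟩ => m8_360
  | ⟨46, _⟩ => m8_361
  | ⟨47, _⟩ => m8_362
  | ⟨48, _⟩ => m8_363
  | ⟨49, _⟩ => m8_364
  | ⟨50, _⟩ => m8_365
  | ⟨51, _⟩ => m8_366
  | ⟨52, _⟩ => m8_367
  | ⟨53, _⟩ => m8_368
  | ⟨54, _⟩ => m8_369
  | ⟨55, _⟩ => m8_370
  | ⟨56, _⟩ => m8_371
  | ⟨57, _⟩ => m8_372
  | ⟨58, _⟩ => m8_373
  | ⟨59, _⟩ => m8_374
  | ⟨60, _⟩ => m8_375
  | ⟨61, _⟩ => m8_376
  | ⟨62, _⟩ => m8_377
  | ⟨n+63, h⟩ => absurd h (by omega)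
def M8_c6 : Fin 63 → S8
  | ⟨0, _⟩ => m8_378
  | ⟨1, _⟩ => m8_379
  | ⟨2, _⟩ => m8_380
  | ⟨3, _⟩ => m8_381
  | ⟨4, _⟩ => m8_382
  | ⟨5, _⟩ => m8_383
  | ⟨6, _⟩ => m8_384
  | ⟨7, _⟩ => m8_385
  | ⟨8, _⟩ => m8_386
  | ⟨9, _⟩ => m8_387
  | ⟨10, _⟩ => m8_388
  | ⟨11, _⟩ => m8_389
  | ⟨12, _⟩ => m8_390
  | ⟨13, _⟩ => m8_391
  | ⟨14, _⟩ => m8_392
  | ⟨15, _⟩ => m8_393
  | ⟨16, _⟩ => m8_394
  | ⟨17, _⟩ => m8_395
  | ⟨18, _⟩ => m8_396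
  | ⟨19, _⟩ => m8_397
  | ⟨20, _⟩ => m8_398
  | ⟨21, _⟩ => m8_399
  | ⟨22, _⟩ => m8_400
  | ⟨23, _⟩ => m8_401
  | ⟨24, _⟩ => m8_402
  | ⟨25, _⟩ => m8_403
  | ⟨26, _⟩ => m8_404
  | ⟨27, _⟩ => m8_405
  | ⟨28, _⟩ => m8_406
  | ⟨29, _⟩ => m8_407
  | ⟨30, _⟩ => m8_408
  | ⟨31, _⟩ => m8_409
  | ⟨32, _⟩ => m8_410
  | ⟨33, _⟩ => m8_411
  | ⟨34, _⟩ => m8_412
  | ⟨35, _⟩ => m8_413
  | ⟨36, _⟩ => m8_414
  | ⟨37, _⟩ => m8_415
  | ⟨38, _⟩ => m8_416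
  | ⟨39, _⟩ => m8_417
  | ⟨40, _⟩ => m8_418
  | ⟨41, _⟩ => m8_419
  | ⟨42, _⟩ => m8_420
  | ⟨43, _⟩ => m8_421
  | ⟨44, _⟩ => m8_422
  | ⟨45, _⟩ => m8_423
  | ⟨46, _⟩ => m8_424
  | ⟨47, _⟩ => m8_425
  | ⟨48, _⟩ => m8_426
  | ⟨49, _⟩ => m8_427
  | ⟨50, _⟩ => m8_428
  | ⟨51, _⟩ => m8_429
  | ⟨52, _⟩ => m8_430
  | ⟨53, _⟩ => m8_431
  | ⟨54, _⟩ => m8_432
  | ⟨55, _⟩ => m8_433
  | ⟨56, _⟩ => m8_434
  | ⟨57, _⟩ => m8_435
  | ⟨58, _⟩ => m8_436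
  | ⟨59, _⟩ => m8_437
  | ⟨60, _⟩ => m8_438
  | ⟨61, _⟩ => m8_439
  | ⟨62, _⟩ => m8_440
  | ⟨n+63, h⟩ => absurd h (by omega)
def M8_c7 : Fin 63 → S8
  | ⟨0, _⟩ => m8_441
  | ⟨1, _⟩ => m8_442
  | ⟨2, _⟩ => m8_443
  | ⟨3, _⟩ => m8_444
  | ⟨4, _⟩ => m8_445
  | ⟨5, _⟩ => m8_446
  | ⟨6, _⟩ => m8_447
  | ⟨7, _⟩ => m8_448
  | ⟨8, _⟩ => m8_449
  | ⟨9, _⟩ => m8_450
  | ⟨10, _⟩ => m8_451
  | ⟨11, _⟩ => m8_452
  | ⟨12, _⟩ => m8_453
  | ⟨13, _⟩ => m8_454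
  | ⟨14, _⟩ => m8_455
  | ⟨15, _⟩ => m8_456
  | ⟨16, _⟩ => m8_457
  | ⟨17, _⟩ => m8_458
  | ⟨18, _⟩ => m8_459
  | ⟨19, _⟩ => m8_460
  | ⟨20, _⟩ => m8_461
  | ⟨21, _⟩ => m8_462
  | ⟨22, _⟩ => m8_463
  | ⟨23, _⟩ => m8_464
  | ⟨24, _⟩ => m8_465
  | ⟨25, _⟩ => m8_466
  | ⟨26, _⟩ => m8_467
  | ⟨27, _⟩ => m8_468
  | ⟨28, _⟩ => m8_469
  | ⟨29, _⟩ => m8_470
  | ⟨30, _⟩ => m8_471
  | ⟨31, _⟩ => m8_472
  | ⟨32, _⟩ => m8_473
  | ⟨33, _⟩ => m8_474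
  | ⟨34, _⟩ => m8_475
  | ⟨35, _⟩ => m8_476
  | ⟨36, _⟩ => m8_477
  | ⟨37, _⟩ => m8_478
  | ⟨38, _⟩ => m8_479
  | ⟨39, _⟩ => m8_480
  | ⟨40, _⟩ => m8_481
  | ⟨41, _⟩ => m8_482
  | ⟨42, _⟩ => m8_483
  | ⟨43, _⟩ => m8_484
  | ⟨44, _⟩ => m8_485
  | ⟨45, _⟩ => m8_486
  | ⟨46, _⟩ => m8_487
  | ⟨47, _⟩ => m8_488
  | ⟨48, _⟩ => m8_489
  | ⟨49, _⟩ => m8_490
  | ⟨50, _⟩ => m8_491
  | ⟨51, _⟩ => m8_492
  | ⟨52, _⟩ => m8_493
  | ⟨53, _⟩ => m8_494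
  | ⟨54, _⟩ => m8_495
  | ⟨55, _⟩ => m8_496
  | ⟨56, _⟩ => m8_497
  | ⟨57, _⟩ => m8_498
  | ⟨58, _⟩ => m8_499
  | ⟨59, _⟩ => m8_500
  | ⟨60, _⟩ => m8_501
  | ⟨61, _⟩ => m8_502
  | ⟨62, _⟩ => m8_503
  | ⟨n+63, h⟩ => absurd h (by omega)
def M8_ch : Fin 8 → Fin 63 → S8
  | ⟨0, _⟩ => M8_c0
  | ⟨1, _⟩ => M8_c1
  | ⟨2, _⟩ => M8_c2
  | ⟨3, _⟩ => M8_c3
  | ⟨4, _⟩ => M8_c4
  | ⟨5, _⟩ => M8_c5
  | ⟨6, _⟩ => M8_c6
  | ⟨7, _⟩ => M8_c7
  | ⟨n+8, h⟩ => absurd h (by omega)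
def M8 (i : Idx) : S8 := M8_ch i.1 i.2
def codes8 : List ℕ := [513, 72, 848, 1037, 2626, 337, 169, 1093, 4064, 2570, 2111, 680, 4036, 1442, 3053, 319, 2198, 2927, 1432, 3220, 3949, 487, 1558, 1330, 2941, 2503, 3203, 2652, 1225, 3495, 3644, 242, 1833, 595, 2550, 3896, 1264, 867, 1673, 2141, 3516, 714, 4006, 3091, 2253, 602, 1889, 3894, 651, 2494, 1670, 2163, 338, 3869, 811, 742, 1617, 3572, 410, 3297, 1157, 1916, 2764, 2443, 1113, 3383, 798, 2578, 561, 2539, 2452, 1375, 1652, 3930, 769, 1771, 1932, 1192, 3144, 2791, 1318, 2005, 3353, 1725, 76, 2779, 1380, 3057, 78, 671, 3362, 2747, 3027, 2120, 1360, 1757, 2847, 2325, 3183, 897, 1994, 2228, 3818, 1263, 545, 1045, 1883, 2028, 2724, 1658, 3918, 483, 1077, 1147, 2932, 2754, 974, 481, 3213, 2690, 2836, 2427, 2346, 3737, 957, 2247, 3408, 3793, 3373, 171, 911, 2119, 882, 170, 1324, 3813, 1018, 727, 3509,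 3612, 174, 2918, 1872, 2016, 3697, 2421, 3596, 2610, 1449, 1221, 992, 2402, 3529, 2702, 3727, 1483, 3446, 1848, 2946, 2477, 1053, 2079, 3193, 3429, 824, 3240, 2646, 339, 2063, 2213, 631, 938, 3671, 2398, 3961, 3502, 763, 3972, 2071, 2522, 1297, 3780, 2979, 2862, 3989, 342, 2687, 1704, 3652, 3977, 1393, 1013, 1529, 1957, 3709, 2998, 3787, 318, 1504, 1703, 1108, 315, 2286, 2988, 1406, 1413, 4073, 2586, 313, 638, 3157, 3407, 3001, 2867, 3023, 1631, 3552, 408, 314, 2233, 3859, 700, 2186, 577, 920, 3420, 1490, 3543, 3562, 409, 553, 895, 4054, 3887, 2968, 413, 1635, 3694, 3308, 1007, 2009, 2103, 1542, 3716, 3682, 1276, 3850, 674, 73, 1550, 1845, 1175, 1527, 2743, 1606, 2632, 4045, 1471, 3068, 1582, 1862, 2265, 1518, 3523, 485, 820, 1762, 3075, 1566, 1295, 2465, 1127, 173, 584, 3139, 3730, 4026, 1785, 1743, 3083, 77, 4082, 2557, 2439, 3395, 1500, 3115,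 3604, 732, 786, 2967, 247, 2375, 3340, 2203, 240, 1944, 980, 2150, 2513, 2882, 521, 241, 1210, 3774, 3675, 987, 752, 833, 3263, 3943, 486, 245, 1815, 2800, 1336, 1803, 1164, 3765, 3992, 1776, 3628, 2602, 1387, 1748, 2818, 3312, 243, 1828, 613, 1714, 74, 1069, 2087, 1869, 2288, 1969, 414, 2853, 3325, 1029, 1427, 694, 3384, 3824, 3747, 3295, 482, 3908, 2130, 3450, 1598, 3099, 2872, 2728, 2773, 1307, 172, 3123, 3267, 2332, 2377, 3226, 641, 2896, 2528, 861, 3107, 3166, 1926, 2412, 3955, 336, 1238, 3466, 3636, 3131, 2298, 2035, 2183, 317, 1185, 1979, 412, 1734, 4023, 341, 2717, 2825, 2384, 2276, 620, 1898, 529, 316, 2793, 1285, 1798, 1203, 3278, 2339, 3620, 1967, 246, 168, 1096, 2657, 1142, 2891, 2814, 1990, 947, 1938, 244, 2562, 3040, 3480, 3249, 3806, 411, 3582, 1349, 1061, 3844, 2667, 340, 3282, 2360, 3038, 3459, 2153, 3473, 749, 4011, 415, 1182,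 3331, 2095, 1590, 3186, 2318, 3588, 537, 3549, 2705, 1911, 1574, 2047, 2216, 312, 484, 2311, 844, 75, 2905, 2353, 1422, 1251, 932, 1608, 1130, 2456, 4063, 2594, 781, 705, 1645, 3172, 918, 2259, 480, 1354, 961, 1818, 3839, 3350, 175, 2055, 2618, 3752, 1085, 2508, 2677, 1692, 661, 79, 4091, 1460, 3010, 3920, 807, 3433, 3656, 2482, 343, 1477, 3873, 878, 569, 3238, 2172, 2957, 1683, 1242]
theorem tx_1_A : m8_1 * gA = m8_0 := by decide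
theorem tx_5_B : m8_5 * gB = m8_0 := by decide
theorem tx_43_A : m8_43 * gA = m8_58 := by decide
theorem tx_58_B : m8_58 * gB = m8_30 := by decide
theorem tx_30_A : m8_30 * gA = m8_21 := by decide
theorem tx_21_B : m8_21 * gB = m8_9 := by decide
theorem tx_9_A : m8_9 * gA = m8_5 := by decide
theorem tx_355_A : m8_355 * gA = m8_392 := by decide
theorem tx_392_B : m8_392 * gB = m8_269 := by decide
theorem tx_269_A : m8_269 * gA = m8_219 := by decide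
theorem tx_219_B : m8_219 * gB = m8_140 := by decide
theorem tx_140_A : m8_140 * gA = m8_112 := by decide
theorem tx_112_B : m8_112 * gB = m8_113 := by decide
theorem tx_113_B : m8_113 * gB = m8_88 := by decide
theorem tx_88_A : m8_88 * gA = m8_68 := by decide
theorem tx_68_B : m8_68 * gB = m8_37 := by decide
theorem tx_37_A : m8_37 * gA = m8_27 := by decide
theorem tx_27_B : m8_27 * gB = m8_12 := by decide
theorem tx_12_A : m8_12 * gA = m8_8 := by decide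
theorem tx_13_B : m8_13 * gB = m8_4 := by decide
theorem tx_4_A : m8_4 * gA = m8_2 := by decide
theorem sR0 : gA * gA = 1 := by
  have h : m8_0 * gA * gA = m8_0 := by
    simp only [tm_1, tx_1_A]
  rw [m8_0_eq] at h
  simpa [mul_assoc] using h
theorem sR1 : gB * gB * gB = 1 := by
  have h : m8_0 * gB * gB * gB = m8_0 := by
    simp only [tm_2, tm_5, tx_5_B]
  rw [m8_0_eq] at h
  simpa [mul_assoc] using h
theorem sR2 : gA * gB * gA * gB * gA * gB * gA * gB * gA * gB * gA * gB * gA * gB = 1 := by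
  have h : m8_0 * gA * gB * gA * gB * gA * gB * gA * gB * gA * gB * gA * gB * gA * gB = m8_0 := by
    simp only [tm_1, tm_3, tm_6, tm_10, tm_15, tm_22, tm_31, tm_43, tx_43_A, tx_58_B, tx_30_A, tx_21_B, tx_9_A, tx_5_B]
  rw [m8_0_eq] at h
  simpa [mul_assoc] using h
theorem sR3 : gA * gB * gA * gB * gA * gB * gB * gA * gB * gA * gB * gA * gB * gB * gA * gB * gB * gA * gB * gA * gB * gA * gB * gB * gA * gB * gA * gB * gA * gB * gB * gA * gB * gB = 1 := by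
  have h : m8_0 * gA * gB * gA * gB * gA * gB * gB * gA * gB * gA * gB * gA * gB * gB * gA * gB * gB * gA * gB * gA * gB * gA * gB * gB * gA * gB * gA * gB * gA * gB * gB * gA * gB * gB = m8_0 := by
    simp only [tm_1, tm_3, tm_6, tm_10, tm_15, tm_22, tm_32, tm_44, tm_60, tm_77, tm_98, tm_124, tm_156, tm_196, tm_240, tm_293, tm_355, tx_355_A, tx_392_B, tx_269_A, tx_219_B, tx_140_A, tx_112_B, tx_113_B, tx_88_A, tx_68_B, tx_37_A, tx_27_B, tx_12_A, tm_13, tx_13_B, tx_4_A, tm_5, tx_5_B]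
  rw [m8_0_eq] at h
  simpa [mul_assoc] using h

def enc8 (m : S8) : ℕ :=
  (m.1 0 0).v.val + 8 * (m.1 0 1).v.val + 64 * (m.1 1 0).v.val + 512 * (m.1 1 1).v.val

set_option maxRecDepth 100000 in
theorem dec8_M8 : ∀ i : Idx, codes8.idxOf (enc8 (M8 i)) = i.1.val * 63 + i.2.val := by
  decide +kernel

set_option maxRecDepth 100000 in
theorem ker8 : ∀ i : Idx, (M8 i).1 0 1 = 0 → (M8 i).1 1 0 = 0 → (M8 i).1 0 0 = (M8 i).1 1 1 →
    i = (0, 0) := by decide +kernel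

theorem sq_one : ∀ a : F8, a * a = 1 → a = 1 := by decide

section target8

variable {L : Type*} [Field L] (f : F8 →+* L)

/-- `SL(2, F8) → PSL(2, L)`. -/
noncomputable def q : S8 →* Matrix.ProjectiveSpecialLinearGroup (Fin 2) L :=
  (QuotientGroup.mk' (Subgroup.center (Matrix.SpecialLinearGroup (Fin 2) L))).comp
    (Matrix.SpecialLinearGroup.map f)

theorem q_eq_one_iff (m : S8) :
    q f m = 1 ↔ Matrix.SpecialLinearGroup.map f m ∈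
      Subgroup.center (Matrix.SpecialLinearGroup (Fin 2) L) := by
  unfold q
  rw [MonoidHom.comp_apply, QuotientGroup.mk'_apply, QuotientGroup.eq_one_iff]

theorem q_scalar (m : S8) (h : q f m = 1) :
    m.1 0 1 = 0 ∧ m.1 1 0 = 0 ∧ m.1 0 0 = m.1 1 1 := by
  rw [q_eq_one_iff, Matrix.SpecialLinearGroup.mem_center_iff] at h
  obtain ⟨r, -, hr⟩ := h
  have hinj : Function.Injective f := RingHom.injective f
  have e : ∀ i j, Matrix.scalar (Fin 2) r i j = f (m.1 i j) := by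
    intro i j
    rw [hr]
    rfl
  refine ⟨?_, ?_, ?_⟩
  · apply hinj
    rw [← e 0 1, map_zero]
    simp [Matrix.scalar_apply]
  · apply hinj
    rw [← e 1 0, map_zero]
    simp [Matrix.scalar_apply]
  · apply hinj
    rw [← e 0 0, ← e 1 1]
    simp [Matrix.scalar_apply]

theorem q_inj : Function.Injective (q f) := by
  rw [injective_iff_map_eq_one]
  intro m hm
  obtain ⟨h1, h2, h3⟩ := q_scalar f m hm
  have hdet := m.2
  rw [Matrix.det_fin_two, h1, zero_mul, sub_zero, ← h3] at hdet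
  have h00 := sq_one _ hdet
  apply Subtype.ext
  ext i j
  fin_cases i <;> fin_cases j
  · exact h00
  · exact h1
  · exact h2
  · show m.1 1 1 = 1
    rw [← h3]; exact h00

theorem lift_rel8 : ∀ r ∈ rels, FreeGroup.lift ![q f gA, q f gB] r = 1 := by
  intro r hr
  simp only [rels, Set.mem_insert_iff, Set.mem_singleton_iff] at hr
  rcases hr with rfl | rfl | rfl | rfl
  · simp only [map_mul, FreeGroup.lift_apply_of]
    show q f gA * q f gA = 1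
    simp only [← map_mul]
    rw [sR0, map_one]
  · simp only [map_mul, FreeGroup.lift_apply_of]
    show q f gB * q f gB * q f gB = 1
    simp only [← map_mul]
    rw [sR1, map_one]
  · simp only [map_mul, FreeGroup.lift_apply_of]
    show q f gA * q f gB * q f gA * q f gB * q f gA * q f gB * q f gA * q f gB * q f gA * q f gB * q f gA * q f gB * q f gA * q f gB = 1
    simp only [← map_mul]
    rw [sR2, map_one]
  · simp only [map_mul, FreeGroup.lift_apply_of]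
    show q f gA * q f gB * q f gA * q f gB * q f gA * q f gB * q f gB * q f gA * q f gB * q f gA * q f gB * q f gA * q f gB * q f gB * q f gA * q f gB * q f gB * q f gA * q f gB * q f gA * q f gB * q f gA * q f gB * q f gB * q f gA * q f gB * q f gA * q f gB * q f gA * q f gB * q f gB * q f gA * q f gB * q f gB = 1
    simp only [← map_mul]
    rw [sR3, map_one]

/-- The map from the presented group to `PSL(2, L)`. -/
noncomputable def Φ : P →* Matrix.ProjectiveSpecialLinearGroup (Fin 2) L :=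
  PresentedGroup.toGroup (lift_rel8 f)

theorem Φ_x : Φ f x = q f gA := by simp [Φ, x]
theorem Φ_y : Φ f y = q f gB := by simp [Φ, y]

theorem t8_0 : Φ f r0 = q f m8_0 := by
  show Φ f 1 = q f m8_0
  rw [map_one, m8_0_eq, map_one]
theorem t8_1 : Φ f r1 = q f m8_1 := by
  show Φ f (r0 * x) = q f m8_1
  rw [map_mul, t8_0, Φ_x, ← map_mul, tm_1]
theorem t8_2 : Φ f r2 = q f m8_2 := by
  show Φ f (r0 * y) = q f m8_2
  rw [map_mul, t8_0, Φ_y, ← map_mul, tm_2]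
theorem t8_3 : Φ f r3 = q f m8_3 := by
  show Φ f (r1 * y) = q f m8_3
  rw [map_mul, t8_1, Φ_y, ← map_mul, tm_3]
theorem t8_4 : Φ f r4 = q f m8_4 := by
  show Φ f (r2 * x) = q f m8_4
  rw [map_mul, t8_2, Φ_x, ← map_mul, tm_4]
theorem t8_5 : Φ f r5 = q f m8_5 := by
  show Φ f (r2 * y) = q f m8_5
  rw [map_mul, t8_2, Φ_y, ← map_mul, tm_5]
theorem t8_6 : Φ f r6 = q f m8_6 := by
  show Φ f (r3 * x) = q f m8_6
  rw [map_mul, t8_3, Φ_x, ← map_mul, tm_6]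
theorem t8_7 : Φ f r7 = q f m8_7 := by
  show Φ f (r3 * y) = q f m8_7
  rw [map_mul, t8_3, Φ_y, ← map_mul, tm_7]
theorem t8_8 : Φ f r8 = q f m8_8 := by
  show Φ f (r4 * y) = q f m8_8
  rw [map_mul, t8_4, Φ_y, ← map_mul, tm_8]
theorem t8_9 : Φ f r9 = q f m8_9 := by
  show Φ f (r5 * x) = q f m8_9
  rw [map_mul, t8_5, Φ_x, ← map_mul, tm_9]
theorem t8_10 : Φ f r10 = q f m8_10 := by
  show Φ f (r6 * y) = q f m8_10
  rw [map_mul, t8_6, Φ_y, ← map_mul, tm_10]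
theorem t8_11 : Φ f r11 = q f m8_11 := by
  show Φ f (r7 * x) = q f m8_11
  rw [map_mul, t8_7, Φ_x, ← map_mul, tm_11]
theorem t8_12 : Φ f r12 = q f m8_12 := by
  show Φ f (r8 * x) = q f m8_12
  rw [map_mul, t8_8, Φ_x, ← map_mul, tm_12]
theorem t8_13 : Φ f r13 = q f m8_13 := by
  show Φ f (r8 * y) = q f m8_13
  rw [map_mul, t8_8, Φ_y, ← map_mul, tm_13]
theorem t8_14 : Φ f r14 = q f m8_14 := by
  show Φ f (r9 * y) = q f m8_14
  rw [map_mul, t8_9, Φ_y, ← map_mul, tm_14]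
theorem t8_15 : Φ f r15 = q f m8_15 := by
  show Φ f (r10 * x) = q f m8_15
  rw [map_mul, t8_10, Φ_x, ← map_mul, tm_15]
theorem t8_16 : Φ f r16 = q f m8_16 := by
  show Φ f (r10 * y) = q f m8_16
  rw [map_mul, t8_10, Φ_y, ← map_mul, tm_16]
theorem t8_17 : Φ f r17 = q f m8_17 := by
  show Φ f (r11 * y) = q f m8_17
  rw [map_mul, t8_11, Φ_y, ← map_mul, tm_17]
theorem t8_18 : Φ f r18 = q f m8_18 := by
  show Φ f (r12 * y) = q f m8_18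
  rw [map_mul, t8_12, Φ_y, ← map_mul, tm_18]
theorem t8_19 : Φ f r19 = q f m8_19 := by
  show Φ f (r13 * x) = q f m8_19
  rw [map_mul, t8_13, Φ_x, ← map_mul, tm_19]
theorem t8_20 : Φ f r20 = q f m8_20 := by
  show Φ f (r14 * x) = q f m8_20
  rw [map_mul, t8_14, Φ_x, ← map_mul, tm_20]
theorem t8_21 : Φ f r21 = q f m8_21 := by
  show Φ f (r14 * y) = q f m8_21
  rw [map_mul, t8_14, Φ_y, ← map_mul, tm_21]
theorem t8_22 : Φ f r22 = q f m8_22 := by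
  show Φ f (r15 * y) = q f m8_22
  rw [map_mul, t8_15, Φ_y, ← map_mul, tm_22]
theorem t8_23 : Φ f r23 = q f m8_23 := by
  show Φ f (r16 * x) = q f m8_23
  rw [map_mul, t8_16, Φ_x, ← map_mul, tm_23]
theorem t8_24 : Φ f r24 = q f m8_24 := by
  show Φ f (r17 * x) = q f m8_24
  rw [map_mul, t8_17, Φ_x, ← map_mul, tm_24]
theorem t8_25 : Φ f r25 = q f m8_25 := by
  show Φ f (r17 * y) = q f m8_25
  rw [map_mul, t8_17, Φ_y, ← map_mul, tm_25]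
theorem t8_26 : Φ f r26 = q f m8_26 := by
  show Φ f (r18 * x) = q f m8_26
  rw [map_mul, t8_18, Φ_x, ← map_mul, tm_26]
theorem t8_27 : Φ f r27 = q f m8_27 := by
  show Φ f (r18 * y) = q f m8_27
  rw [map_mul, t8_18, Φ_y, ← map_mul, tm_27]
theorem t8_28 : Φ f r28 = q f m8_28 := by
  show Φ f (r19 * y) = q f m8_28
  rw [map_mul, t8_19, Φ_y, ← map_mul, tm_28]
theorem t8_29 : Φ f r29 = q f m8_29 := by
  show Φ f (r20 * y) = q f m8_29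
  rw [map_mul, t8_20, Φ_y, ← map_mul, tm_29]
theorem t8_30 : Φ f r30 = q f m8_30 := by
  show Φ f (r21 * x) = q f m8_30
  rw [map_mul, t8_21, Φ_x, ← map_mul, tm_30]
theorem t8_31 : Φ f r31 = q f m8_31 := by
  show Φ f (r22 * x) = q f m8_31
  rw [map_mul, t8_22, Φ_x, ← map_mul, tm_31]
theorem t8_32 : Φ f r32 = q f m8_32 := by
  show Φ f (r22 * y) = q f m8_32
  rw [map_mul, t8_22, Φ_y, ← map_mul, tm_32]
theorem t8_33 : Φ f r33 = q f m8_33 := by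
  show Φ f (r23 * y) = q f m8_33
  rw [map_mul, t8_23, Φ_y, ← map_mul, tm_33]
theorem t8_34 : Φ f r34 = q f m8_34 := by
  show Φ f (r24 * y) = q f m8_34
  rw [map_mul, t8_24, Φ_y, ← map_mul, tm_34]
theorem t8_35 : Φ f r35 = q f m8_35 := by
  show Φ f (r25 * x) = q f m8_35
  rw [map_mul, t8_25, Φ_x, ← map_mul, tm_35]
theorem t8_36 : Φ f r36 = q f m8_36 := by
  show Φ f (r26 * y) = q f m8_36
  rw [map_mul, t8_26, Φ_y, ← map_mul, tm_36]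
theorem t8_37 : Φ f r37 = q f m8_37 := by
  show Φ f (r27 * x) = q f m8_37
  rw [map_mul, t8_27, Φ_x, ← map_mul, tm_37]
theorem t8_38 : Φ f r38 = q f m8_38 := by
  show Φ f (r28 * x) = q f m8_38
  rw [map_mul, t8_28, Φ_x, ← map_mul, tm_38]
theorem t8_39 : Φ f r39 = q f m8_39 := by
  show Φ f (r28 * y) = q f m8_39
  rw [map_mul, t8_28, Φ_y, ← map_mul, tm_39]
theorem t8_40 : Φ f r40 = q f m8_40 := by
  show Φ f (r29 * x) = q f m8_40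
  rw [map_mul, t8_29, Φ_x, ← map_mul, tm_40]
theorem t8_41 : Φ f r41 = q f m8_41 := by
  show Φ f (r29 * y) = q f m8_41
  rw [map_mul, t8_29, Φ_y, ← map_mul, tm_41]
theorem t8_42 : Φ f r42 = q f m8_42 := by
  show Φ f (r30 * y) = q f m8_42
  rw [map_mul, t8_30, Φ_y, ← map_mul, tm_42]
theorem t8_43 : Φ f r43 = q f m8_43 := by
  show Φ f (r31 * y) = q f m8_43
  rw [map_mul, t8_31, Φ_y, ← map_mul, tm_43]
theorem t8_44 : Φ f r44 = q f m8_44 := by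
  show Φ f (r32 * x) = q f m8_44
  rw [map_mul, t8_32, Φ_x, ← map_mul, tm_44]
theorem t8_45 : Φ f r45 = q f m8_45 := by
  show Φ f (r33 * x) = q f m8_45
  rw [map_mul, t8_33, Φ_x, ← map_mul, tm_45]
theorem t8_46 : Φ f r46 = q f m8_46 := by
  show Φ f (r33 * y) = q f m8_46
  rw [map_mul, t8_33, Φ_y, ← map_mul, tm_46]
theorem t8_47 : Φ f r47 = q f m8_47 := by
  show Φ f (r34 * x) = q f m8_47
  rw [map_mul, t8_34, Φ_x, ← map_mul, tm_47]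
theorem t8_48 : Φ f r48 = q f m8_48 := by
  show Φ f (r34 * y) = q f m8_48
  rw [map_mul, t8_34, Φ_y, ← map_mul, tm_48]
theorem t8_49 : Φ f r49 = q f m8_49 := by
  show Φ f (r35 * y) = q f m8_49
  rw [map_mul, t8_35, Φ_y, ← map_mul, tm_49]
theorem t8_50 : Φ f r50 = q f m8_50 := by
  show Φ f (r36 * x) = q f m8_50
  rw [map_mul, t8_36, Φ_x, ← map_mul, tm_50]
theorem t8_51 : Φ f r51 = q f m8_51 := by
  show Φ f (r36 * y) = q f m8_51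
  rw [map_mul, t8_36, Φ_y, ← map_mul, tm_51]
theorem t8_52 : Φ f r52 = q f m8_52 := by
  show Φ f (r37 * y) = q f m8_52
  rw [map_mul, t8_37, Φ_y, ← map_mul, tm_52]
theorem t8_53 : Φ f r53 = q f m8_53 := by
  show Φ f (r38 * y) = q f m8_53
  rw [map_mul, t8_38, Φ_y, ← map_mul, tm_53]
theorem t8_54 : Φ f r54 = q f m8_54 := by
  show Φ f (r39 * x) = q f m8_54
  rw [map_mul, t8_39, Φ_x, ← map_mul, tm_54]
theorem t8_55 : Φ f r55 = q f m8_55 := by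
  show Φ f (r40 * y) = q f m8_55
  rw [map_mul, t8_40, Φ_y, ← map_mul, tm_55]
theorem t8_56 : Φ f r56 = q f m8_56 := by
  show Φ f (r41 * x) = q f m8_56
  rw [map_mul, t8_41, Φ_x, ← map_mul, tm_56]
theorem t8_57 : Φ f r57 = q f m8_57 := by
  show Φ f (r42 * x) = q f m8_57
  rw [map_mul, t8_42, Φ_x, ← map_mul, tm_57]
theorem t8_58 : Φ f r58 = q f m8_58 := by
  show Φ f (r42 * y) = q f m8_58
  rw [map_mul, t8_42, Φ_y, ← map_mul, tm_58]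
theorem t8_59 : Φ f r59 = q f m8_59 := by
  show Φ f (r43 * y) = q f m8_59
  rw [map_mul, t8_43, Φ_y, ← map_mul, tm_59]
theorem t8_60 : Φ f r60 = q f m8_60 := by
  show Φ f (r44 * y) = q f m8_60
  rw [map_mul, t8_44, Φ_y, ← map_mul, tm_60]
theorem t8_61 : Φ f r61 = q f m8_61 := by
  show Φ f (r45 * y) = q f m8_61
  rw [map_mul, t8_45, Φ_y, ← map_mul, tm_61]
theorem t8_62 : Φ f r62 = q f m8_62 := by
  show Φ f (r46 * x) = q f m8_62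
  rw [map_mul, t8_46, Φ_x, ← map_mul, tm_62]
theorem t8_63 : Φ f r63 = q f m8_63 := by
  show Φ f (r47 * y) = q f m8_63
  rw [map_mul, t8_47, Φ_y, ← map_mul, tm_63]
theorem t8_64 : Φ f r64 = q f m8_64 := by
  show Φ f (r48 * x) = q f m8_64
  rw [map_mul, t8_48, Φ_x, ← map_mul, tm_64]
theorem t8_65 : Φ f r65 = q f m8_65 := by
  show Φ f (r49 * x) = q f m8_65
  rw [map_mul, t8_49, Φ_x, ← map_mul, tm_65]
theorem t8_66 : Φ f r66 = q f m8_66 := by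
  show Φ f (r51 * x) = q f m8_66
  rw [map_mul, t8_51, Φ_x, ← map_mul, tm_66]
theorem t8_67 : Φ f r67 = q f m8_67 := by
  show Φ f (r52 * x) = q f m8_67
  rw [map_mul, t8_52, Φ_x, ← map_mul, tm_67]
theorem t8_68 : Φ f r68 = q f m8_68 := by
  show Φ f (r52 * y) = q f m8_68
  rw [map_mul, t8_52, Φ_y, ← map_mul, tm_68]
theorem t8_69 : Φ f r69 = q f m8_69 := by
  show Φ f (r53 * x) = q f m8_69
  rw [map_mul, t8_53, Φ_x, ← map_mul, tm_69]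
theorem t8_70 : Φ f r70 = q f m8_70 := by
  show Φ f (r53 * y) = q f m8_70
  rw [map_mul, t8_53, Φ_y, ← map_mul, tm_70]
theorem t8_71 : Φ f r71 = q f m8_71 := by
  show Φ f (r54 * y) = q f m8_71
  rw [map_mul, t8_54, Φ_y, ← map_mul, tm_71]
theorem t8_72 : Φ f r72 = q f m8_72 := by
  show Φ f (r55 * x) = q f m8_72
  rw [map_mul, t8_55, Φ_x, ← map_mul, tm_72]
theorem t8_73 : Φ f r73 = q f m8_73 := by
  show Φ f (r55 * y) = q f m8_73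
  rw [map_mul, t8_55, Φ_y, ← map_mul, tm_73]
theorem t8_74 : Φ f r74 = q f m8_74 := by
  show Φ f (r56 * y) = q f m8_74
  rw [map_mul, t8_56, Φ_y, ← map_mul, tm_74]
theorem t8_75 : Φ f r75 = q f m8_75 := by
  show Φ f (r57 * y) = q f m8_75
  rw [map_mul, t8_57, Φ_y, ← map_mul, tm_75]
theorem t8_76 : Φ f r76 = q f m8_76 := by
  show Φ f (r59 * x) = q f m8_76
  rw [map_mul, t8_59, Φ_x, ← map_mul, tm_76]
theorem t8_77 : Φ f r77 = q f m8_77 := by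
  show Φ f (r60 * x) = q f m8_77
  rw [map_mul, t8_60, Φ_x, ← map_mul, tm_77]
theorem t8_78 : Φ f r78 = q f m8_78 := by
  show Φ f (r60 * y) = q f m8_78
  rw [map_mul, t8_60, Φ_y, ← map_mul, tm_78]
theorem t8_79 : Φ f r79 = q f m8_79 := by
  show Φ f (r61 * x) = q f m8_79
  rw [map_mul, t8_61, Φ_x, ← map_mul, tm_79]
theorem t8_80 : Φ f r80 = q f m8_80 := by
  show Φ f (r61 * y) = q f m8_80
  rw [map_mul, t8_61, Φ_y, ← map_mul, tm_80]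
theorem t8_81 : Φ f r81 = q f m8_81 := by
  show Φ f (r62 * y) = q f m8_81
  rw [map_mul, t8_62, Φ_y, ← map_mul, tm_81]
theorem t8_82 : Φ f r82 = q f m8_82 := by
  show Φ f (r63 * x) = q f m8_82
  rw [map_mul, t8_63, Φ_x, ← map_mul, tm_82]
theorem t8_83 : Φ f r83 = q f m8_83 := by
  show Φ f (r63 * y) = q f m8_83
  rw [map_mul, t8_63, Φ_y, ← map_mul, tm_83]
theorem t8_84 : Φ f r84 = q f m8_84 := by
  show Φ f (r64 * y) = q f m8_84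
  rw [map_mul, t8_64, Φ_y, ← map_mul, tm_84]
theorem t8_85 : Φ f r85 = q f m8_85 := by
  show Φ f (r65 * y) = q f m8_85
  rw [map_mul, t8_65, Φ_y, ← map_mul, tm_85]
theorem t8_86 : Φ f r86 = q f m8_86 := by
  show Φ f (r66 * y) = q f m8_86
  rw [map_mul, t8_66, Φ_y, ← map_mul, tm_86]
theorem t8_87 : Φ f r87 = q f m8_87 := by
  show Φ f (r67 * y) = q f m8_87
  rw [map_mul, t8_67, Φ_y, ← map_mul, tm_87]
theorem t8_88 : Φ f r88 = q f m8_88 := by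
  show Φ f (r68 * x) = q f m8_88
  rw [map_mul, t8_68, Φ_x, ← map_mul, tm_88]
theorem t8_89 : Φ f r89 = q f m8_89 := by
  show Φ f (r69 * y) = q f m8_89
  rw [map_mul, t8_69, Φ_y, ← map_mul, tm_89]
theorem t8_90 : Φ f r90 = q f m8_90 := by
  show Φ f (r70 * x) = q f m8_90
  rw [map_mul, t8_70, Φ_x, ← map_mul, tm_90]
theorem t8_91 : Φ f r91 = q f m8_91 := by
  show Φ f (r71 * x) = q f m8_91
  rw [map_mul, t8_71, Φ_x, ← map_mul, tm_91]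
theorem t8_92 : Φ f r92 = q f m8_92 := by
  show Φ f (r73 * x) = q f m8_92
  rw [map_mul, t8_73, Φ_x, ← map_mul, tm_92]
theorem t8_93 : Φ f r93 = q f m8_93 := by
  show Φ f (r74 * x) = q f m8_93
  rw [map_mul, t8_74, Φ_x, ← map_mul, tm_93]
theorem t8_94 : Φ f r94 = q f m8_94 := by
  show Φ f (r74 * y) = q f m8_94
  rw [map_mul, t8_74, Φ_y, ← map_mul, tm_94]
theorem t8_95 : Φ f r95 = q f m8_95 := by
  show Φ f (r75 * x) = q f m8_95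
  rw [map_mul, t8_75, Φ_x, ← map_mul, tm_95]
theorem t8_96 : Φ f r96 = q f m8_96 := by
  show Φ f (r75 * y) = q f m8_96
  rw [map_mul, t8_75, Φ_y, ← map_mul, tm_96]
theorem t8_97 : Φ f r97 = q f m8_97 := by
  show Φ f (r76 * y) = q f m8_97
  rw [map_mul, t8_76, Φ_y, ← map_mul, tm_97]
theorem t8_98 : Φ f r98 = q f m8_98 := by
  show Φ f (r77 * y) = q f m8_98
  rw [map_mul, t8_77, Φ_y, ← map_mul, tm_98]
theorem t8_99 : Φ f r99 = q f m8_99 := by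
  show Φ f (r78 * x) = q f m8_99
  rw [map_mul, t8_78, Φ_x, ← map_mul, tm_99]
theorem t8_100 : Φ f r100 = q f m8_100 := by
  show Φ f (r79 * y) = q f m8_100
  rw [map_mul, t8_79, Φ_y, ← map_mul, tm_100]
theorem t8_101 : Φ f r101 = q f m8_101 := by
  show Φ f (r80 * x) = q f m8_101
  rw [map_mul, t8_80, Φ_x, ← map_mul, tm_101]
theorem t8_102 : Φ f r102 = q f m8_102 := by
  show Φ f (r81 * x) = q f m8_102
  rw [map_mul, t8_81, Φ_x, ← map_mul, tm_102]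
theorem t8_103 : Φ f r103 = q f m8_103 := by
  show Φ f (r83 * x) = q f m8_103
  rw [map_mul, t8_83, Φ_x, ← map_mul, tm_103]
theorem t8_104 : Φ f r104 = q f m8_104 := by
  show Φ f (r84 * x) = q f m8_104
  rw [map_mul, t8_84, Φ_x, ← map_mul, tm_104]
theorem t8_105 : Φ f r105 = q f m8_105 := by
  show Φ f (r84 * y) = q f m8_105
  rw [map_mul, t8_84, Φ_y, ← map_mul, tm_105]
theorem t8_106 : Φ f r106 = q f m8_106 := by
  show Φ f (r85 * x) = q f m8_106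
  rw [map_mul, t8_85, Φ_x, ← map_mul, tm_106]
theorem t8_107 : Φ f r107 = q f m8_107 := by
  show Φ f (r85 * y) = q f m8_107
  rw [map_mul, t8_85, Φ_y, ← map_mul, tm_107]
theorem t8_108 : Φ f r108 = q f m8_108 := by
  show Φ f (r86 * x) = q f m8_108
  rw [map_mul, t8_86, Φ_x, ← map_mul, tm_108]
theorem t8_109 : Φ f r109 = q f m8_109 := by
  show Φ f (r86 * y) = q f m8_109
  rw [map_mul, t8_86, Φ_y, ← map_mul, tm_109]
theorem t8_110 : Φ f r110 = q f m8_110 := by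
  show Φ f (r87 * x) = q f m8_110
  rw [map_mul, t8_87, Φ_x, ← map_mul, tm_110]
theorem t8_111 : Φ f r111 = q f m8_111 := by
  show Φ f (r87 * y) = q f m8_111
  rw [map_mul, t8_87, Φ_y, ← map_mul, tm_111]
theorem t8_112 : Φ f r112 = q f m8_112 := by
  show Φ f (r88 * y) = q f m8_112
  rw [map_mul, t8_88, Φ_y, ← map_mul, tm_112]
theorem t8_113 : Φ f r113 = q f m8_113 := by
  show Φ f (r89 * x) = q f m8_113
  rw [map_mul, t8_89, Φ_x, ← map_mul, tm_113]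
theorem t8_114 : Φ f r114 = q f m8_114 := by
  show Φ f (r89 * y) = q f m8_114
  rw [map_mul, t8_89, Φ_y, ← map_mul, tm_114]
theorem t8_115 : Φ f r115 = q f m8_115 := by
  show Φ f (r90 * y) = q f m8_115
  rw [map_mul, t8_90, Φ_y, ← map_mul, tm_115]
theorem t8_116 : Φ f r116 = q f m8_116 := by
  show Φ f (r91 * y) = q f m8_116
  rw [map_mul, t8_91, Φ_y, ← map_mul, tm_116]
theorem t8_117 : Φ f r117 = q f m8_117 := by
  show Φ f (r92 * y) = q f m8_117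
  rw [map_mul, t8_92, Φ_y, ← map_mul, tm_117]
theorem t8_118 : Φ f r118 = q f m8_118 := by
  show Φ f (r93 * y) = q f m8_118
  rw [map_mul, t8_93, Φ_y, ← map_mul, tm_118]
theorem t8_119 : Φ f r119 = q f m8_119 := by
  show Φ f (r94 * x) = q f m8_119
  rw [map_mul, t8_94, Φ_x, ← map_mul, tm_119]
theorem t8_120 : Φ f r120 = q f m8_120 := by
  show Φ f (r95 * y) = q f m8_120
  rw [map_mul, t8_95, Φ_y, ← map_mul, tm_120]
theorem t8_121 : Φ f r121 = q f m8_121 := by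
  show Φ f (r96 * x) = q f m8_121
  rw [map_mul, t8_96, Φ_x, ← map_mul, tm_121]
theorem t8_122 : Φ f r122 = q f m8_122 := by
  show Φ f (r97 * x) = q f m8_122
  rw [map_mul, t8_97, Φ_x, ← map_mul, tm_122]
theorem t8_123 : Φ f r123 = q f m8_123 := by
  show Φ f (r97 * y) = q f m8_123
  rw [map_mul, t8_97, Φ_y, ← map_mul, tm_123]
theorem t8_124 : Φ f r124 = q f m8_124 := by
  show Φ f (r98 * x) = q f m8_124
  rw [map_mul, t8_98, Φ_x, ← map_mul, tm_124]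
theorem t8_125 : Φ f r125 = q f m8_125 := by
  show Φ f (r98 * y) = q f m8_125
  rw [map_mul, t8_98, Φ_y, ← map_mul, tm_125]
theorem t8_126 : Φ f r126 = q f m8_126 := by
  show Φ f (r99 * y) = q f m8_126
  rw [map_mul, t8_99, Φ_y, ← map_mul, tm_126]
theorem t8_127 : Φ f r127 = q f m8_127 := by
  show Φ f (r100 * x) = q f m8_127
  rw [map_mul, t8_100, Φ_x, ← map_mul, tm_127]
theorem t8_128 : Φ f r128 = q f m8_128 := by
  show Φ f (r100 * y) = q f m8_128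
  rw [map_mul, t8_100, Φ_y, ← map_mul, tm_128]
theorem t8_129 : Φ f r129 = q f m8_129 := by
  show Φ f (r101 * y) = q f m8_129
  rw [map_mul, t8_101, Φ_y, ← map_mul, tm_129]
theorem t8_130 : Φ f r130 = q f m8_130 := by
  show Φ f (r102 * y) = q f m8_130
  rw [map_mul, t8_102, Φ_y, ← map_mul, tm_130]
theorem t8_131 : Φ f r131 = q f m8_131 := by
  show Φ f (r103 * y) = q f m8_131
  rw [map_mul, t8_103, Φ_y, ← map_mul, tm_131]
theorem t8_132 : Φ f r132 = q f m8_132 := by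
  show Φ f (r104 * y) = q f m8_132
  rw [map_mul, t8_104, Φ_y, ← map_mul, tm_132]
theorem t8_133 : Φ f r133 = q f m8_133 := by
  show Φ f (r105 * x) = q f m8_133
  rw [map_mul, t8_105, Φ_x, ← map_mul, tm_133]
theorem t8_134 : Φ f r134 = q f m8_134 := by
  show Φ f (r106 * y) = q f m8_134
  rw [map_mul, t8_106, Φ_y, ← map_mul, tm_134]
theorem t8_135 : Φ f r135 = q f m8_135 := by
  show Φ f (r107 * x) = q f m8_135
  rw [map_mul, t8_107, Φ_x, ← map_mul, tm_135]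
theorem t8_136 : Φ f r136 = q f m8_136 := by
  show Φ f (r108 * y) = q f m8_136
  rw [map_mul, t8_108, Φ_y, ← map_mul, tm_136]
theorem t8_137 : Φ f r137 = q f m8_137 := by
  show Φ f (r109 * x) = q f m8_137
  rw [map_mul, t8_109, Φ_x, ← map_mul, tm_137]
theorem t8_138 : Φ f r138 = q f m8_138 := by
  show Φ f (r110 * y) = q f m8_138
  rw [map_mul, t8_110, Φ_y, ← map_mul, tm_138]
theorem t8_139 : Φ f r139 = q f m8_139 := by
  show Φ f (r111 * x) = q f m8_139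
  rw [map_mul, t8_111, Φ_x, ← map_mul, tm_139]
theorem t8_140 : Φ f r140 = q f m8_140 := by
  show Φ f (r112 * x) = q f m8_140
  rw [map_mul, t8_112, Φ_x, ← map_mul, tm_140]
theorem t8_141 : Φ f r141 = q f m8_141 := by
  show Φ f (r114 * x) = q f m8_141
  rw [map_mul, t8_114, Φ_x, ← map_mul, tm_141]
theorem t8_142 : Φ f r142 = q f m8_142 := by
  show Φ f (r115 * x) = q f m8_142
  rw [map_mul, t8_115, Φ_x, ← map_mul, tm_142]
theorem t8_143 : Φ f r143 = q f m8_143 := by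
  show Φ f (r115 * y) = q f m8_143
  rw [map_mul, t8_115, Φ_y, ← map_mul, tm_143]
theorem t8_144 : Φ f r144 = q f m8_144 := by
  show Φ f (r116 * x) = q f m8_144
  rw [map_mul, t8_116, Φ_x, ← map_mul, tm_144]
theorem t8_145 : Φ f r145 = q f m8_145 := by
  show Φ f (r116 * y) = q f m8_145
  rw [map_mul, t8_116, Φ_y, ← map_mul, tm_145]
theorem t8_146 : Φ f r146 = q f m8_146 := by
  show Φ f (r117 * x) = q f m8_146
  rw [map_mul, t8_117, Φ_x, ← map_mul, tm_146]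
theorem t8_147 : Φ f r147 = q f m8_147 := by
  show Φ f (r117 * y) = q f m8_147
  rw [map_mul, t8_117, Φ_y, ← map_mul, tm_147]
theorem t8_148 : Φ f r148 = q f m8_148 := by
  show Φ f (r118 * x) = q f m8_148
  rw [map_mul, t8_118, Φ_x, ← map_mul, tm_148]
theorem t8_149 : Φ f r149 = q f m8_149 := by
  show Φ f (r118 * y) = q f m8_149
  rw [map_mul, t8_118, Φ_y, ← map_mul, tm_149]
theorem t8_150 : Φ f r150 = q f m8_150 := by
  show Φ f (r119 * y) = q f m8_150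
  rw [map_mul, t8_119, Φ_y, ← map_mul, tm_150]
theorem t8_151 : Φ f r151 = q f m8_151 := by
  show Φ f (r120 * x) = q f m8_151
  rw [map_mul, t8_120, Φ_x, ← map_mul, tm_151]
theorem t8_152 : Φ f r152 = q f m8_152 := by
  show Φ f (r120 * y) = q f m8_152
  rw [map_mul, t8_120, Φ_y, ← map_mul, tm_152]
theorem t8_153 : Φ f r153 = q f m8_153 := by
  show Φ f (r121 * y) = q f m8_153
  rw [map_mul, t8_121, Φ_y, ← map_mul, tm_153]
theorem t8_154 : Φ f r154 = q f m8_154 := by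
  show Φ f (r122 * y) = q f m8_154
  rw [map_mul, t8_122, Φ_y, ← map_mul, tm_154]
theorem t8_155 : Φ f r155 = q f m8_155 := by
  show Φ f (r123 * x) = q f m8_155
  rw [map_mul, t8_123, Φ_x, ← map_mul, tm_155]
theorem t8_156 : Φ f r156 = q f m8_156 := by
  show Φ f (r124 * y) = q f m8_156
  rw [map_mul, t8_124, Φ_y, ← map_mul, tm_156]
theorem t8_157 : Φ f r157 = q f m8_157 := by
  show Φ f (r125 * x) = q f m8_157
  rw [map_mul, t8_125, Φ_x, ← map_mul, tm_157]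
theorem t8_158 : Φ f r158 = q f m8_158 := by
  show Φ f (r126 * x) = q f m8_158
  rw [map_mul, t8_126, Φ_x, ← map_mul, tm_158]
theorem t8_159 : Φ f r159 = q f m8_159 := by
  show Φ f (r128 * x) = q f m8_159
  rw [map_mul, t8_128, Φ_x, ← map_mul, tm_159]
theorem t8_160 : Φ f r160 = q f m8_160 := by
  show Φ f (r129 * x) = q f m8_160
  rw [map_mul, t8_129, Φ_x, ← map_mul, tm_160]
theorem t8_161 : Φ f r161 = q f m8_161 := by
  show Φ f (r129 * y) = q f m8_161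
  rw [map_mul, t8_129, Φ_y, ← map_mul, tm_161]
theorem t8_162 : Φ f r162 = q f m8_162 := by
  show Φ f (r130 * x) = q f m8_162
  rw [map_mul, t8_130, Φ_x, ← map_mul, tm_162]
theorem t8_163 : Φ f r163 = q f m8_163 := by
  show Φ f (r130 * y) = q f m8_163
  rw [map_mul, t8_130, Φ_y, ← map_mul, tm_163]
theorem t8_164 : Φ f r164 = q f m8_164 := by
  show Φ f (r131 * x) = q f m8_164
  rw [map_mul, t8_131, Φ_x, ← map_mul, tm_164]
theorem t8_165 : Φ f r165 = q f m8_165 := by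
  show Φ f (r131 * y) = q f m8_165
  rw [map_mul, t8_131, Φ_y, ← map_mul, tm_165]
theorem t8_166 : Φ f r166 = q f m8_166 := by
  show Φ f (r132 * x) = q f m8_166
  rw [map_mul, t8_132, Φ_x, ← map_mul, tm_166]
theorem t8_167 : Φ f r167 = q f m8_167 := by
  show Φ f (r132 * y) = q f m8_167
  rw [map_mul, t8_132, Φ_y, ← map_mul, tm_167]
theorem t8_168 : Φ f r168 = q f m8_168 := by
  show Φ f (r133 * y) = q f m8_168
  rw [map_mul, t8_133, Φ_y, ← map_mul, tm_168]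
theorem t8_169 : Φ f r169 = q f m8_169 := by
  show Φ f (r134 * x) = q f m8_169
  rw [map_mul, t8_134, Φ_x, ← map_mul, tm_169]
theorem t8_170 : Φ f r170 = q f m8_170 := by
  show Φ f (r134 * y) = q f m8_170
  rw [map_mul, t8_134, Φ_y, ← map_mul, tm_170]
theorem t8_171 : Φ f r171 = q f m8_171 := by
  show Φ f (r135 * y) = q f m8_171
  rw [map_mul, t8_135, Φ_y, ← map_mul, tm_171]
theorem t8_172 : Φ f r172 = q f m8_172 := by
  show Φ f (r136 * x) = q f m8_172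
  rw [map_mul, t8_136, Φ_x, ← map_mul, tm_172]
theorem t8_173 : Φ f r173 = q f m8_173 := by
  show Φ f (r136 * y) = q f m8_173
  rw [map_mul, t8_136, Φ_y, ← map_mul, tm_173]
theorem t8_174 : Φ f r174 = q f m8_174 := by
  show Φ f (r137 * y) = q f m8_174
  rw [map_mul, t8_137, Φ_y, ← map_mul, tm_174]
theorem t8_175 : Φ f r175 = q f m8_175 := by
  show Φ f (r138 * x) = q f m8_175
  rw [map_mul, t8_138, Φ_x, ← map_mul, tm_175]
theorem t8_176 : Φ f r176 = q f m8_176 := by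
  show Φ f (r138 * y) = q f m8_176
  rw [map_mul, t8_138, Φ_y, ← map_mul, tm_176]
theorem t8_177 : Φ f r177 = q f m8_177 := by
  show Φ f (r139 * y) = q f m8_177
  rw [map_mul, t8_139, Φ_y, ← map_mul, tm_177]
theorem t8_178 : Φ f r178 = q f m8_178 := by
  show Φ f (r140 * y) = q f m8_178
  rw [map_mul, t8_140, Φ_y, ← map_mul, tm_178]
theorem t8_179 : Φ f r179 = q f m8_179 := by
  show Φ f (r141 * y) = q f m8_179
  rw [map_mul, t8_141, Φ_y, ← map_mul, tm_179]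
theorem t8_180 : Φ f r180 = q f m8_180 := by
  show Φ f (r142 * y) = q f m8_180
  rw [map_mul, t8_142, Φ_y, ← map_mul, tm_180]
theorem t8_181 : Φ f r181 = q f m8_181 := by
  show Φ f (r143 * x) = q f m8_181
  rw [map_mul, t8_143, Φ_x, ← map_mul, tm_181]
theorem t8_182 : Φ f r182 = q f m8_182 := by
  show Φ f (r144 * y) = q f m8_182
  rw [map_mul, t8_144, Φ_y, ← map_mul, tm_182]
theorem t8_183 : Φ f r183 = q f m8_183 := by
  show Φ f (r145 * x) = q f m8_183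
  rw [map_mul, t8_145, Φ_x, ← map_mul, tm_183]
theorem t8_184 : Φ f r184 = q f m8_184 := by
  show Φ f (r146 * y) = q f m8_184
  rw [map_mul, t8_146, Φ_y, ← map_mul, tm_184]
theorem t8_185 : Φ f r185 = q f m8_185 := by
  show Φ f (r147 * x) = q f m8_185
  rw [map_mul, t8_147, Φ_x, ← map_mul, tm_185]
theorem t8_186 : Φ f r186 = q f m8_186 := by
  show Φ f (r148 * y) = q f m8_186
  rw [map_mul, t8_148, Φ_y, ← map_mul, tm_186]
theorem t8_187 : Φ f r187 = q f m8_187 := by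
  show Φ f (r149 * x) = q f m8_187
  rw [map_mul, t8_149, Φ_x, ← map_mul, tm_187]
theorem t8_188 : Φ f r188 = q f m8_188 := by
  show Φ f (r150 * x) = q f m8_188
  rw [map_mul, t8_150, Φ_x, ← map_mul, tm_188]
theorem t8_189 : Φ f r189 = q f m8_189 := by
  show Φ f (r152 * x) = q f m8_189
  rw [map_mul, t8_152, Φ_x, ← map_mul, tm_189]
theorem t8_190 : Φ f r190 = q f m8_190 := by
  show Φ f (r153 * x) = q f m8_190
  rw [map_mul, t8_153, Φ_x, ← map_mul, tm_190]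
theorem t8_191 : Φ f r191 = q f m8_191 := by
  show Φ f (r153 * y) = q f m8_191
  rw [map_mul, t8_153, Φ_y, ← map_mul, tm_191]
theorem t8_192 : Φ f r192 = q f m8_192 := by
  show Φ f (r154 * x) = q f m8_192
  rw [map_mul, t8_154, Φ_x, ← map_mul, tm_192]
theorem t8_193 : Φ f r193 = q f m8_193 := by
  show Φ f (r154 * y) = q f m8_193
  rw [map_mul, t8_154, Φ_y, ← map_mul, tm_193]
theorem t8_194 : Φ f r194 = q f m8_194 := by
  show Φ f (r155 * y) = q f m8_194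
  rw [map_mul, t8_155, Φ_y, ← map_mul, tm_194]
theorem t8_195 : Φ f r195 = q f m8_195 := by
  show Φ f (r156 * x) = q f m8_195
  rw [map_mul, t8_156, Φ_x, ← map_mul, tm_195]
theorem t8_196 : Φ f r196 = q f m8_196 := by
  show Φ f (r156 * y) = q f m8_196
  rw [map_mul, t8_156, Φ_y, ← map_mul, tm_196]
theorem t8_197 : Φ f r197 = q f m8_197 := by
  show Φ f (r157 * y) = q f m8_197
  rw [map_mul, t8_157, Φ_y, ← map_mul, tm_197]
theorem t8_198 : Φ f r198 = q f m8_198 := by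
  show Φ f (r158 * y) = q f m8_198
  rw [map_mul, t8_158, Φ_y, ← map_mul, tm_198]
theorem t8_199 : Φ f r199 = q f m8_199 := by
  show Φ f (r159 * y) = q f m8_199
  rw [map_mul, t8_159, Φ_y, ← map_mul, tm_199]
theorem t8_200 : Φ f r200 = q f m8_200 := by
  show Φ f (r160 * y) = q f m8_200
  rw [map_mul, t8_160, Φ_y, ← map_mul, tm_200]
theorem t8_201 : Φ f r201 = q f m8_201 := by
  show Φ f (r161 * x) = q f m8_201
  rw [map_mul, t8_161, Φ_x, ← map_mul, tm_201]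
theorem t8_202 : Φ f r202 = q f m8_202 := by
  show Φ f (r162 * y) = q f m8_202
  rw [map_mul, t8_162, Φ_y, ← map_mul, tm_202]
theorem t8_203 : Φ f r203 = q f m8_203 := by
  show Φ f (r163 * x) = q f m8_203
  rw [map_mul, t8_163, Φ_x, ← map_mul, tm_203]
theorem t8_204 : Φ f r204 = q f m8_204 := by
  show Φ f (r164 * y) = q f m8_204
  rw [map_mul, t8_164, Φ_y, ← map_mul, tm_204]
theorem t8_205 : Φ f r205 = q f m8_205 := by
  show Φ f (r165 * x) = q f m8_205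
  rw [map_mul, t8_165, Φ_x, ← map_mul, tm_205]
theorem t8_206 : Φ f r206 = q f m8_206 := by
  show Φ f (r166 * y) = q f m8_206
  rw [map_mul, t8_166, Φ_y, ← map_mul, tm_206]
theorem t8_207 : Φ f r207 = q f m8_207 := by
  show Φ f (r167 * x) = q f m8_207
  rw [map_mul, t8_167, Φ_x, ← map_mul, tm_207]
theorem t8_208 : Φ f r208 = q f m8_208 := by
  show Φ f (r168 * x) = q f m8_208
  rw [map_mul, t8_168, Φ_x, ← map_mul, tm_208]
theorem t8_209 : Φ f r209 = q f m8_209 := by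
  show Φ f (r170 * x) = q f m8_209
  rw [map_mul, t8_170, Φ_x, ← map_mul, tm_209]
theorem t8_210 : Φ f r210 = q f m8_210 := by
  show Φ f (r171 * x) = q f m8_210
  rw [map_mul, t8_171, Φ_x, ← map_mul, tm_210]
theorem t8_211 : Φ f r211 = q f m8_211 := by
  show Φ f (r171 * y) = q f m8_211
  rw [map_mul, t8_171, Φ_y, ← map_mul, tm_211]
theorem t8_212 : Φ f r212 = q f m8_212 := by
  show Φ f (r172 * y) = q f m8_212
  rw [map_mul, t8_172, Φ_y, ← map_mul, tm_212]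
theorem t8_213 : Φ f r213 = q f m8_213 := by
  show Φ f (r173 * x) = q f m8_213
  rw [map_mul, t8_173, Φ_x, ← map_mul, tm_213]
theorem t8_214 : Φ f r214 = q f m8_214 := by
  show Φ f (r174 * x) = q f m8_214
  rw [map_mul, t8_174, Φ_x, ← map_mul, tm_214]
theorem t8_215 : Φ f r215 = q f m8_215 := by
  show Φ f (r176 * x) = q f m8_215
  rw [map_mul, t8_176, Φ_x, ← map_mul, tm_215]
theorem t8_216 : Φ f r216 = q f m8_216 := by
  show Φ f (r177 * x) = q f m8_216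
  rw [map_mul, t8_177, Φ_x, ← map_mul, tm_216]
theorem t8_217 : Φ f r217 = q f m8_217 := by
  show Φ f (r177 * y) = q f m8_217
  rw [map_mul, t8_177, Φ_y, ← map_mul, tm_217]
theorem t8_218 : Φ f r218 = q f m8_218 := by
  show Φ f (r178 * x) = q f m8_218
  rw [map_mul, t8_178, Φ_x, ← map_mul, tm_218]
theorem t8_219 : Φ f r219 = q f m8_219 := by
  show Φ f (r178 * y) = q f m8_219
  rw [map_mul, t8_178, Φ_y, ← map_mul, tm_219]
theorem t8_220 : Φ f r220 = q f m8_220 := by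
  show Φ f (r179 * x) = q f m8_220
  rw [map_mul, t8_179, Φ_x, ← map_mul, tm_220]
theorem t8_221 : Φ f r221 = q f m8_221 := by
  show Φ f (r179 * y) = q f m8_221
  rw [map_mul, t8_179, Φ_y, ← map_mul, tm_221]
theorem t8_222 : Φ f r222 = q f m8_222 := by
  show Φ f (r180 * x) = q f m8_222
  rw [map_mul, t8_180, Φ_x, ← map_mul, tm_222]
theorem t8_223 : Φ f r223 = q f m8_223 := by
  show Φ f (r180 * y) = q f m8_223
  rw [map_mul, t8_180, Φ_y, ← map_mul, tm_223]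
theorem t8_224 : Φ f r224 = q f m8_224 := by
  show Φ f (r181 * y) = q f m8_224
  rw [map_mul, t8_181, Φ_y, ← map_mul, tm_224]
theorem t8_225 : Φ f r225 = q f m8_225 := by
  show Φ f (r182 * x) = q f m8_225
  rw [map_mul, t8_182, Φ_x, ← map_mul, tm_225]
theorem t8_226 : Φ f r226 = q f m8_226 := by
  show Φ f (r182 * y) = q f m8_226
  rw [map_mul, t8_182, Φ_y, ← map_mul, tm_226]
theorem t8_227 : Φ f r227 = q f m8_227 := by
  show Φ f (r183 * y) = q f m8_227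
  rw [map_mul, t8_183, Φ_y, ← map_mul, tm_227]
theorem t8_228 : Φ f r228 = q f m8_228 := by
  show Φ f (r184 * x) = q f m8_228
  rw [map_mul, t8_184, Φ_x, ← map_mul, tm_228]
theorem t8_229 : Φ f r229 = q f m8_229 := by
  show Φ f (r184 * y) = q f m8_229
  rw [map_mul, t8_184, Φ_y, ← map_mul, tm_229]
theorem t8_230 : Φ f r230 = q f m8_230 := by
  show Φ f (r185 * y) = q f m8_230
  rw [map_mul, t8_185, Φ_y, ← map_mul, tm_230]
theorem t8_231 : Φ f r231 = q f m8_231 := by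
  show Φ f (r186 * x) = q f m8_231
  rw [map_mul, t8_186, Φ_x, ← map_mul, tm_231]
theorem t8_232 : Φ f r232 = q f m8_232 := by
  show Φ f (r186 * y) = q f m8_232
  rw [map_mul, t8_186, Φ_y, ← map_mul, tm_232]
theorem t8_233 : Φ f r233 = q f m8_233 := by
  show Φ f (r187 * y) = q f m8_233
  rw [map_mul, t8_187, Φ_y, ← map_mul, tm_233]
theorem t8_234 : Φ f r234 = q f m8_234 := by
  show Φ f (r188 * y) = q f m8_234
  rw [map_mul, t8_188, Φ_y, ← map_mul, tm_234]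
theorem t8_235 : Φ f r235 = q f m8_235 := by
  show Φ f (r189 * y) = q f m8_235
  rw [map_mul, t8_189, Φ_y, ← map_mul, tm_235]
theorem t8_236 : Φ f r236 = q f m8_236 := by
  show Φ f (r190 * y) = q f m8_236
  rw [map_mul, t8_190, Φ_y, ← map_mul, tm_236]
theorem t8_237 : Φ f r237 = q f m8_237 := by
  show Φ f (r191 * x) = q f m8_237
  rw [map_mul, t8_191, Φ_x, ← map_mul, tm_237]
theorem t8_238 : Φ f r238 = q f m8_238 := by
  show Φ f (r193 * x) = q f m8_238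
  rw [map_mul, t8_193, Φ_x, ← map_mul, tm_238]
theorem t8_239 : Φ f r239 = q f m8_239 := by
  show Φ f (r194 * x) = q f m8_239
  rw [map_mul, t8_194, Φ_x, ← map_mul, tm_239]
theorem t8_240 : Φ f r240 = q f m8_240 := by
  show Φ f (r196 * x) = q f m8_240
  rw [map_mul, t8_196, Φ_x, ← map_mul, tm_240]
theorem t8_241 : Φ f r241 = q f m8_241 := by
  show Φ f (r197 * x) = q f m8_241
  rw [map_mul, t8_197, Φ_x, ← map_mul, tm_241]
theorem t8_242 : Φ f r242 = q f m8_242 := by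
  show Φ f (r197 * y) = q f m8_242
  rw [map_mul, t8_197, Φ_y, ← map_mul, tm_242]
theorem t8_243 : Φ f r243 = q f m8_243 := by
  show Φ f (r198 * x) = q f m8_243
  rw [map_mul, t8_198, Φ_x, ← map_mul, tm_243]
theorem t8_244 : Φ f r244 = q f m8_244 := by
  show Φ f (r198 * y) = q f m8_244
  rw [map_mul, t8_198, Φ_y, ← map_mul, tm_244]
theorem t8_245 : Φ f r245 = q f m8_245 := by
  show Φ f (r199 * x) = q f m8_245
  rw [map_mul, t8_199, Φ_x, ← map_mul, tm_245]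
theorem t8_246 : Φ f r246 = q f m8_246 := by
  show Φ f (r199 * y) = q f m8_246
  rw [map_mul, t8_199, Φ_y, ← map_mul, tm_246]
theorem t8_247 : Φ f r247 = q f m8_247 := by
  show Φ f (r200 * x) = q f m8_247
  rw [map_mul, t8_200, Φ_x, ← map_mul, tm_247]
theorem t8_248 : Φ f r248 = q f m8_248 := by
  show Φ f (r200 * y) = q f m8_248
  rw [map_mul, t8_200, Φ_y, ← map_mul, tm_248]
theorem t8_249 : Φ f r249 = q f m8_249 := by
  show Φ f (r201 * y) = q f m8_249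
  rw [map_mul, t8_201, Φ_y, ← map_mul, tm_249]
theorem t8_250 : Φ f r250 = q f m8_250 := by
  show Φ f (r202 * x) = q f m8_250
  rw [map_mul, t8_202, Φ_x, ← map_mul, tm_250]
theorem t8_251 : Φ f r251 = q f m8_251 := by
  show Φ f (r202 * y) = q f m8_251
  rw [map_mul, t8_202, Φ_y, ← map_mul, tm_251]
theorem t8_252 : Φ f r252 = q f m8_252 := by
  show Φ f (r203 * y) = q f m8_252
  rw [map_mul, t8_203, Φ_y, ← map_mul, tm_252]
theorem t8_253 : Φ f r253 = q f m8_253 := by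
  show Φ f (r204 * x) = q f m8_253
  rw [map_mul, t8_204, Φ_x, ← map_mul, tm_253]
theorem t8_254 : Φ f r254 = q f m8_254 := by
  show Φ f (r204 * y) = q f m8_254
  rw [map_mul, t8_204, Φ_y, ← map_mul, tm_254]
theorem t8_255 : Φ f r255 = q f m8_255 := by
  show Φ f (r205 * y) = q f m8_255
  rw [map_mul, t8_205, Φ_y, ← map_mul, tm_255]
theorem t8_256 : Φ f r256 = q f m8_256 := by
  show Φ f (r206 * x) = q f m8_256
  rw [map_mul, t8_206, Φ_x, ← map_mul, tm_256]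
theorem t8_257 : Φ f r257 = q f m8_257 := by
  show Φ f (r206 * y) = q f m8_257
  rw [map_mul, t8_206, Φ_y, ← map_mul, tm_257]
theorem t8_258 : Φ f r258 = q f m8_258 := by
  show Φ f (r207 * y) = q f m8_258
  rw [map_mul, t8_207, Φ_y, ← map_mul, tm_258]
theorem t8_259 : Φ f r259 = q f m8_259 := by
  show Φ f (r208 * y) = q f m8_259
  rw [map_mul, t8_208, Φ_y, ← map_mul, tm_259]
theorem t8_260 : Φ f r260 = q f m8_260 := by
  show Φ f (r209 * y) = q f m8_260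
  rw [map_mul, t8_209, Φ_y, ← map_mul, tm_260]
theorem t8_261 : Φ f r261 = q f m8_261 := by
  show Φ f (r210 * y) = q f m8_261
  rw [map_mul, t8_210, Φ_y, ← map_mul, tm_261]
theorem t8_262 : Φ f r262 = q f m8_262 := by
  show Φ f (r212 * y) = q f m8_262
  rw [map_mul, t8_212, Φ_y, ← map_mul, tm_262]
theorem t8_263 : Φ f r263 = q f m8_263 := by
  show Φ f (r213 * y) = q f m8_263
  rw [map_mul, t8_213, Φ_y, ← map_mul, tm_263]
theorem t8_264 : Φ f r264 = q f m8_264 := by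
  show Φ f (r214 * y) = q f m8_264
  rw [map_mul, t8_214, Φ_y, ← map_mul, tm_264]
theorem t8_265 : Φ f r265 = q f m8_265 := by
  show Φ f (r215 * y) = q f m8_265
  rw [map_mul, t8_215, Φ_y, ← map_mul, tm_265]
theorem t8_266 : Φ f r266 = q f m8_266 := by
  show Φ f (r216 * y) = q f m8_266
  rw [map_mul, t8_216, Φ_y, ← map_mul, tm_266]
theorem t8_267 : Φ f r267 = q f m8_267 := by
  show Φ f (r217 * x) = q f m8_267
  rw [map_mul, t8_217, Φ_x, ← map_mul, tm_267]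
theorem t8_268 : Φ f r268 = q f m8_268 := by
  show Φ f (r218 * y) = q f m8_268
  rw [map_mul, t8_218, Φ_y, ← map_mul, tm_268]
theorem t8_269 : Φ f r269 = q f m8_269 := by
  show Φ f (r219 * x) = q f m8_269
  rw [map_mul, t8_219, Φ_x, ← map_mul, tm_269]
theorem t8_270 : Φ f r270 = q f m8_270 := by
  show Φ f (r220 * y) = q f m8_270
  rw [map_mul, t8_220, Φ_y, ← map_mul, tm_270]
theorem t8_271 : Φ f r271 = q f m8_271 := by
  show Φ f (r221 * x) = q f m8_271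
  rw [map_mul, t8_221, Φ_x, ← map_mul, tm_271]
theorem t8_272 : Φ f r272 = q f m8_272 := by
  show Φ f (r222 * y) = q f m8_272
  rw [map_mul, t8_222, Φ_y, ← map_mul, tm_272]
theorem t8_273 : Φ f r273 = q f m8_273 := by
  show Φ f (r223 * x) = q f m8_273
  rw [map_mul, t8_223, Φ_x, ← map_mul, tm_273]
theorem t8_274 : Φ f r274 = q f m8_274 := by
  show Φ f (r224 * x) = q f m8_274
  rw [map_mul, t8_224, Φ_x, ← map_mul, tm_274]
theorem t8_275 : Φ f r275 = q f m8_275 := by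
  show Φ f (r226 * x) = q f m8_275
  rw [map_mul, t8_226, Φ_x, ← map_mul, tm_275]
theorem t8_276 : Φ f r276 = q f m8_276 := by
  show Φ f (r227 * x) = q f m8_276
  rw [map_mul, t8_227, Φ_x, ← map_mul, tm_276]
theorem t8_277 : Φ f r277 = q f m8_277 := by
  show Φ f (r227 * y) = q f m8_277
  rw [map_mul, t8_227, Φ_y, ← map_mul, tm_277]
theorem t8_278 : Φ f r278 = q f m8_278 := by
  show Φ f (r228 * y) = q f m8_278
  rw [map_mul, t8_228, Φ_y, ← map_mul, tm_278]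
theorem t8_279 : Φ f r279 = q f m8_279 := by
  show Φ f (r229 * x) = q f m8_279
  rw [map_mul, t8_229, Φ_x, ← map_mul, tm_279]
theorem t8_280 : Φ f r280 = q f m8_280 := by
  show Φ f (r230 * x) = q f m8_280
  rw [map_mul, t8_230, Φ_x, ← map_mul, tm_280]
theorem t8_281 : Φ f r281 = q f m8_281 := by
  show Φ f (r232 * x) = q f m8_281
  rw [map_mul, t8_232, Φ_x, ← map_mul, tm_281]
theorem t8_282 : Φ f r282 = q f m8_282 := by
  show Φ f (r233 * x) = q f m8_282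
  rw [map_mul, t8_233, Φ_x, ← map_mul, tm_282]
theorem t8_283 : Φ f r283 = q f m8_283 := by
  show Φ f (r233 * y) = q f m8_283
  rw [map_mul, t8_233, Φ_y, ← map_mul, tm_283]
theorem t8_284 : Φ f r284 = q f m8_284 := by
  show Φ f (r234 * x) = q f m8_284
  rw [map_mul, t8_234, Φ_x, ← map_mul, tm_284]
theorem t8_285 : Φ f r285 = q f m8_285 := by
  show Φ f (r234 * y) = q f m8_285
  rw [map_mul, t8_234, Φ_y, ← map_mul, tm_285]
theorem t8_286 : Φ f r286 = q f m8_286 := by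
  show Φ f (r235 * x) = q f m8_286
  rw [map_mul, t8_235, Φ_x, ← map_mul, tm_286]
theorem t8_287 : Φ f r287 = q f m8_287 := by
  show Φ f (r235 * y) = q f m8_287
  rw [map_mul, t8_235, Φ_y, ← map_mul, tm_287]
theorem t8_288 : Φ f r288 = q f m8_288 := by
  show Φ f (r236 * x) = q f m8_288
  rw [map_mul, t8_236, Φ_x, ← map_mul, tm_288]
theorem t8_289 : Φ f r289 = q f m8_289 := by
  show Φ f (r236 * y) = q f m8_289
  rw [map_mul, t8_236, Φ_y, ← map_mul, tm_289]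
theorem t8_290 : Φ f r290 = q f m8_290 := by
  show Φ f (r237 * y) = q f m8_290
  rw [map_mul, t8_237, Φ_y, ← map_mul, tm_290]
theorem t8_291 : Φ f r291 = q f m8_291 := by
  show Φ f (r238 * y) = q f m8_291
  rw [map_mul, t8_238, Φ_y, ← map_mul, tm_291]
theorem t8_292 : Φ f r292 = q f m8_292 := by
  show Φ f (r239 * y) = q f m8_292
  rw [map_mul, t8_239, Φ_y, ← map_mul, tm_292]
theorem t8_293 : Φ f r293 = q f m8_293 := by
  show Φ f (r240 * y) = q f m8_293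
  rw [map_mul, t8_240, Φ_y, ← map_mul, tm_293]
theorem t8_294 : Φ f r294 = q f m8_294 := by
  show Φ f (r241 * y) = q f m8_294
  rw [map_mul, t8_241, Φ_y, ← map_mul, tm_294]
theorem t8_295 : Φ f r295 = q f m8_295 := by
  show Φ f (r242 * x) = q f m8_295
  rw [map_mul, t8_242, Φ_x, ← map_mul, tm_295]
theorem t8_296 : Φ f r296 = q f m8_296 := by
  show Φ f (r243 * y) = q f m8_296
  rw [map_mul, t8_243, Φ_y, ← map_mul, tm_296]
theorem t8_297 : Φ f r297 = q f m8_297 := by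
  show Φ f (r244 * x) = q f m8_297
  rw [map_mul, t8_244, Φ_x, ← map_mul, tm_297]
theorem t8_298 : Φ f r298 = q f m8_298 := by
  show Φ f (r245 * y) = q f m8_298
  rw [map_mul, t8_245, Φ_y, ← map_mul, tm_298]
theorem t8_299 : Φ f r299 = q f m8_299 := by
  show Φ f (r246 * x) = q f m8_299
  rw [map_mul, t8_246, Φ_x, ← map_mul, tm_299]
theorem t8_300 : Φ f r300 = q f m8_300 := by
  show Φ f (r247 * y) = q f m8_300
  rw [map_mul, t8_247, Φ_y, ← map_mul, tm_300]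
theorem t8_301 : Φ f r301 = q f m8_301 := by
  show Φ f (r248 * x) = q f m8_301
  rw [map_mul, t8_248, Φ_x, ← map_mul, tm_301]
theorem t8_302 : Φ f r302 = q f m8_302 := by
  show Φ f (r249 * x) = q f m8_302
  rw [map_mul, t8_249, Φ_x, ← map_mul, tm_302]
theorem t8_303 : Φ f r303 = q f m8_303 := by
  show Φ f (r251 * x) = q f m8_303
  rw [map_mul, t8_251, Φ_x, ← map_mul, tm_303]
theorem t8_304 : Φ f r304 = q f m8_304 := by
  show Φ f (r252 * x) = q f m8_304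
  rw [map_mul, t8_252, Φ_x, ← map_mul, tm_304]
theorem t8_305 : Φ f r305 = q f m8_305 := by
  show Φ f (r252 * y) = q f m8_305
  rw [map_mul, t8_252, Φ_y, ← map_mul, tm_305]
theorem t8_306 : Φ f r306 = q f m8_306 := by
  show Φ f (r253 * y) = q f m8_306
  rw [map_mul, t8_253, Φ_y, ← map_mul, tm_306]
theorem t8_307 : Φ f r307 = q f m8_307 := by
  show Φ f (r254 * x) = q f m8_307
  rw [map_mul, t8_254, Φ_x, ← map_mul, tm_307]
theorem t8_308 : Φ f r308 = q f m8_308 := by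
  show Φ f (r255 * x) = q f m8_308
  rw [map_mul, t8_255, Φ_x, ← map_mul, tm_308]
theorem t8_309 : Φ f r309 = q f m8_309 := by
  show Φ f (r257 * x) = q f m8_309
  rw [map_mul, t8_257, Φ_x, ← map_mul, tm_309]
theorem t8_310 : Φ f r310 = q f m8_310 := by
  show Φ f (r258 * x) = q f m8_310
  rw [map_mul, t8_258, Φ_x, ← map_mul, tm_310]
theorem t8_311 : Φ f r311 = q f m8_311 := by
  show Φ f (r258 * y) = q f m8_311
  rw [map_mul, t8_258, Φ_y, ← map_mul, tm_311]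
theorem t8_312 : Φ f r312 = q f m8_312 := by
  show Φ f (r259 * x) = q f m8_312
  rw [map_mul, t8_259, Φ_x, ← map_mul, tm_312]
theorem t8_313 : Φ f r313 = q f m8_313 := by
  show Φ f (r259 * y) = q f m8_313
  rw [map_mul, t8_259, Φ_y, ← map_mul, tm_313]
theorem t8_314 : Φ f r314 = q f m8_314 := by
  show Φ f (r260 * x) = q f m8_314
  rw [map_mul, t8_260, Φ_x, ← map_mul, tm_314]
theorem t8_315 : Φ f r315 = q f m8_315 := by
  show Φ f (r260 * y) = q f m8_315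
  rw [map_mul, t8_260, Φ_y, ← map_mul, tm_315]
theorem t8_316 : Φ f r316 = q f m8_316 := by
  show Φ f (r261 * x) = q f m8_316
  rw [map_mul, t8_261, Φ_x, ← map_mul, tm_316]
theorem t8_317 : Φ f r317 = q f m8_317 := by
  show Φ f (r261 * y) = q f m8_317
  rw [map_mul, t8_261, Φ_y, ← map_mul, tm_317]
theorem t8_318 : Φ f r318 = q f m8_318 := by
  show Φ f (r262 * x) = q f m8_318
  rw [map_mul, t8_262, Φ_x, ← map_mul, tm_318]
theorem t8_319 : Φ f r319 = q f m8_319 := by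
  show Φ f (r263 * x) = q f m8_319
  rw [map_mul, t8_263, Φ_x, ← map_mul, tm_319]
theorem t8_320 : Φ f r320 = q f m8_320 := by
  show Φ f (r263 * y) = q f m8_320
  rw [map_mul, t8_263, Φ_y, ← map_mul, tm_320]
theorem t8_321 : Φ f r321 = q f m8_321 := by
  show Φ f (r264 * x) = q f m8_321
  rw [map_mul, t8_264, Φ_x, ← map_mul, tm_321]
theorem t8_322 : Φ f r322 = q f m8_322 := by
  show Φ f (r264 * y) = q f m8_322
  rw [map_mul, t8_264, Φ_y, ← map_mul, tm_322]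
theorem t8_323 : Φ f r323 = q f m8_323 := by
  show Φ f (r265 * y) = q f m8_323
  rw [map_mul, t8_265, Φ_y, ← map_mul, tm_323]
theorem t8_324 : Φ f r324 = q f m8_324 := by
  show Φ f (r266 * x) = q f m8_324
  rw [map_mul, t8_266, Φ_x, ← map_mul, tm_324]
theorem t8_325 : Φ f r325 = q f m8_325 := by
  show Φ f (r266 * y) = q f m8_325
  rw [map_mul, t8_266, Φ_y, ← map_mul, tm_325]
theorem t8_326 : Φ f r326 = q f m8_326 := by
  show Φ f (r267 * y) = q f m8_326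
  rw [map_mul, t8_267, Φ_y, ← map_mul, tm_326]
theorem t8_327 : Φ f r327 = q f m8_327 := by
  show Φ f (r268 * x) = q f m8_327
  rw [map_mul, t8_268, Φ_x, ← map_mul, tm_327]
theorem t8_328 : Φ f r328 = q f m8_328 := by
  show Φ f (r268 * y) = q f m8_328
  rw [map_mul, t8_268, Φ_y, ← map_mul, tm_328]
theorem t8_329 : Φ f r329 = q f m8_329 := by
  show Φ f (r269 * y) = q f m8_329
  rw [map_mul, t8_269, Φ_y, ← map_mul, tm_329]
theorem t8_330 : Φ f r330 = q f m8_330 := by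
  show Φ f (r270 * y) = q f m8_330
  rw [map_mul, t8_270, Φ_y, ← map_mul, tm_330]
theorem t8_331 : Φ f r331 = q f m8_331 := by
  show Φ f (r271 * y) = q f m8_331
  rw [map_mul, t8_271, Φ_y, ← map_mul, tm_331]
theorem t8_332 : Φ f r332 = q f m8_332 := by
  show Φ f (r272 * x) = q f m8_332
  rw [map_mul, t8_272, Φ_x, ← map_mul, tm_332]
theorem t8_333 : Φ f r333 = q f m8_333 := by
  show Φ f (r272 * y) = q f m8_333
  rw [map_mul, t8_272, Φ_y, ← map_mul, tm_333]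
theorem t8_334 : Φ f r334 = q f m8_334 := by
  show Φ f (r273 * y) = q f m8_334
  rw [map_mul, t8_273, Φ_y, ← map_mul, tm_334]
theorem t8_335 : Φ f r335 = q f m8_335 := by
  show Φ f (r274 * y) = q f m8_335
  rw [map_mul, t8_274, Φ_y, ← map_mul, tm_335]
theorem t8_336 : Φ f r336 = q f m8_336 := by
  show Φ f (r275 * y) = q f m8_336
  rw [map_mul, t8_275, Φ_y, ← map_mul, tm_336]
theorem t8_337 : Φ f r337 = q f m8_337 := by
  show Φ f (r276 * y) = q f m8_337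
  rw [map_mul, t8_276, Φ_y, ← map_mul, tm_337]
theorem t8_338 : Φ f r338 = q f m8_338 := by
  show Φ f (r278 * y) = q f m8_338
  rw [map_mul, t8_278, Φ_y, ← map_mul, tm_338]
theorem t8_339 : Φ f r339 = q f m8_339 := by
  show Φ f (r279 * y) = q f m8_339
  rw [map_mul, t8_279, Φ_y, ← map_mul, tm_339]
theorem t8_340 : Φ f r340 = q f m8_340 := by
  show Φ f (r280 * y) = q f m8_340
  rw [map_mul, t8_280, Φ_y, ← map_mul, tm_340]
theorem t8_341 : Φ f r341 = q f m8_341 := by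
  show Φ f (r281 * y) = q f m8_341
  rw [map_mul, t8_281, Φ_y, ← map_mul, tm_341]
theorem t8_342 : Φ f r342 = q f m8_342 := by
  show Φ f (r282 * y) = q f m8_342
  rw [map_mul, t8_282, Φ_y, ← map_mul, tm_342]
theorem t8_343 : Φ f r343 = q f m8_343 := by
  show Φ f (r283 * x) = q f m8_343
  rw [map_mul, t8_283, Φ_x, ← map_mul, tm_343]
theorem t8_344 : Φ f r344 = q f m8_344 := by
  show Φ f (r284 * y) = q f m8_344
  rw [map_mul, t8_284, Φ_y, ← map_mul, tm_344]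
theorem t8_345 : Φ f r345 = q f m8_345 := by
  show Φ f (r285 * x) = q f m8_345
  rw [map_mul, t8_285, Φ_x, ← map_mul, tm_345]
theorem t8_346 : Φ f r346 = q f m8_346 := by
  show Φ f (r286 * y) = q f m8_346
  rw [map_mul, t8_286, Φ_y, ← map_mul, tm_346]
theorem t8_347 : Φ f r347 = q f m8_347 := by
  show Φ f (r287 * x) = q f m8_347
  rw [map_mul, t8_287, Φ_x, ← map_mul, tm_347]
theorem t8_348 : Φ f r348 = q f m8_348 := by
  show Φ f (r288 * y) = q f m8_348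
  rw [map_mul, t8_288, Φ_y, ← map_mul, tm_348]
theorem t8_349 : Φ f r349 = q f m8_349 := by
  show Φ f (r289 * x) = q f m8_349
  rw [map_mul, t8_289, Φ_x, ← map_mul, tm_349]
theorem t8_350 : Φ f r350 = q f m8_350 := by
  show Φ f (r290 * x) = q f m8_350
  rw [map_mul, t8_290, Φ_x, ← map_mul, tm_350]
theorem t8_351 : Φ f r351 = q f m8_351 := by
  show Φ f (r291 * x) = q f m8_351
  rw [map_mul, t8_291, Φ_x, ← map_mul, tm_351]
theorem t8_352 : Φ f r352 = q f m8_352 := by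
  show Φ f (r291 * y) = q f m8_352
  rw [map_mul, t8_291, Φ_y, ← map_mul, tm_352]
theorem t8_353 : Φ f r353 = q f m8_353 := by
  show Φ f (r292 * x) = q f m8_353
  rw [map_mul, t8_292, Φ_x, ← map_mul, tm_353]
theorem t8_354 : Φ f r354 = q f m8_354 := by
  show Φ f (r292 * y) = q f m8_354
  rw [map_mul, t8_292, Φ_y, ← map_mul, tm_354]
theorem t8_355 : Φ f r355 = q f m8_355 := by
  show Φ f (r293 * y) = q f m8_355
  rw [map_mul, t8_293, Φ_y, ← map_mul, tm_355]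
theorem t8_356 : Φ f r356 = q f m8_356 := by
  show Φ f (r294 * x) = q f m8_356
  rw [map_mul, t8_294, Φ_x, ← map_mul, tm_356]
theorem t8_357 : Φ f r357 = q f m8_357 := by
  show Φ f (r294 * y) = q f m8_357
  rw [map_mul, t8_294, Φ_y, ← map_mul, tm_357]
theorem t8_358 : Φ f r358 = q f m8_358 := by
  show Φ f (r295 * y) = q f m8_358
  rw [map_mul, t8_295, Φ_y, ← map_mul, tm_358]
theorem t8_359 : Φ f r359 = q f m8_359 := by
  show Φ f (r296 * x) = q f m8_359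
  rw [map_mul, t8_296, Φ_x, ← map_mul, tm_359]
theorem t8_360 : Φ f r360 = q f m8_360 := by
  show Φ f (r296 * y) = q f m8_360
  rw [map_mul, t8_296, Φ_y, ← map_mul, tm_360]
theorem t8_361 : Φ f r361 = q f m8_361 := by
  show Φ f (r297 * y) = q f m8_361
  rw [map_mul, t8_297, Φ_y, ← map_mul, tm_361]
theorem t8_362 : Φ f r362 = q f m8_362 := by
  show Φ f (r298 * y) = q f m8_362
  rw [map_mul, t8_298, Φ_y, ← map_mul, tm_362]
theorem t8_363 : Φ f r363 = q f m8_363 := by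
  show Φ f (r299 * y) = q f m8_363
  rw [map_mul, t8_299, Φ_y, ← map_mul, tm_363]
theorem t8_364 : Φ f r364 = q f m8_364 := by
  show Φ f (r300 * x) = q f m8_364
  rw [map_mul, t8_300, Φ_x, ← map_mul, tm_364]
theorem t8_365 : Φ f r365 = q f m8_365 := by
  show Φ f (r300 * y) = q f m8_365
  rw [map_mul, t8_300, Φ_y, ← map_mul, tm_365]
theorem t8_366 : Φ f r366 = q f m8_366 := by
  show Φ f (r301 * y) = q f m8_366
  rw [map_mul, t8_301, Φ_y, ← map_mul, tm_366]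
theorem t8_367 : Φ f r367 = q f m8_367 := by
  show Φ f (r302 * y) = q f m8_367
  rw [map_mul, t8_302, Φ_y, ← map_mul, tm_367]
theorem t8_368 : Φ f r368 = q f m8_368 := by
  show Φ f (r303 * y) = q f m8_368
  rw [map_mul, t8_303, Φ_y, ← map_mul, tm_368]
theorem t8_369 : Φ f r369 = q f m8_369 := by
  show Φ f (r304 * y) = q f m8_369
  rw [map_mul, t8_304, Φ_y, ← map_mul, tm_369]
theorem t8_370 : Φ f r370 = q f m8_370 := by
  show Φ f (r306 * y) = q f m8_370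
  rw [map_mul, t8_306, Φ_y, ← map_mul, tm_370]
theorem t8_371 : Φ f r371 = q f m8_371 := by
  show Φ f (r307 * y) = q f m8_371
  rw [map_mul, t8_307, Φ_y, ← map_mul, tm_371]
theorem t8_372 : Φ f r372 = q f m8_372 := by
  show Φ f (r308 * y) = q f m8_372
  rw [map_mul, t8_308, Φ_y, ← map_mul, tm_372]
theorem t8_373 : Φ f r373 = q f m8_373 := by
  show Φ f (r309 * y) = q f m8_373
  rw [map_mul, t8_309, Φ_y, ← map_mul, tm_373]
theorem t8_374 : Φ f r374 = q f m8_374 := by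
  show Φ f (r310 * y) = q f m8_374
  rw [map_mul, t8_310, Φ_y, ← map_mul, tm_374]
theorem t8_375 : Φ f r375 = q f m8_375 := by
  show Φ f (r311 * x) = q f m8_375
  rw [map_mul, t8_311, Φ_x, ← map_mul, tm_375]
theorem t8_376 : Φ f r376 = q f m8_376 := by
  show Φ f (r312 * y) = q f m8_376
  rw [map_mul, t8_312, Φ_y, ← map_mul, tm_376]
theorem t8_377 : Φ f r377 = q f m8_377 := by
  show Φ f (r313 * x) = q f m8_377
  rw [map_mul, t8_313, Φ_x, ← map_mul, tm_377]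
theorem t8_378 : Φ f r378 = q f m8_378 := by
  show Φ f (r314 * y) = q f m8_378
  rw [map_mul, t8_314, Φ_y, ← map_mul, tm_378]
theorem t8_379 : Φ f r379 = q f m8_379 := by
  show Φ f (r315 * x) = q f m8_379
  rw [map_mul, t8_315, Φ_x, ← map_mul, tm_379]
theorem t8_380 : Φ f r380 = q f m8_380 := by
  show Φ f (r316 * y) = q f m8_380
  rw [map_mul, t8_316, Φ_y, ← map_mul, tm_380]
theorem t8_381 : Φ f r381 = q f m8_381 := by
  show Φ f (r317 * x) = q f m8_381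
  rw [map_mul, t8_317, Φ_x, ← map_mul, tm_381]
theorem t8_382 : Φ f r382 = q f m8_382 := by
  show Φ f (r318 * y) = q f m8_382
  rw [map_mul, t8_318, Φ_y, ← map_mul, tm_382]
theorem t8_383 : Φ f r383 = q f m8_383 := by
  show Φ f (r319 * y) = q f m8_383
  rw [map_mul, t8_319, Φ_y, ← map_mul, tm_383]
theorem t8_384 : Φ f r384 = q f m8_384 := by
  show Φ f (r320 * x) = q f m8_384
  rw [map_mul, t8_320, Φ_x, ← map_mul, tm_384]
theorem t8_385 : Φ f r385 = q f m8_385 := by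
  show Φ f (r321 * y) = q f m8_385
  rw [map_mul, t8_321, Φ_y, ← map_mul, tm_385]
theorem t8_386 : Φ f r386 = q f m8_386 := by
  show Φ f (r322 * x) = q f m8_386
  rw [map_mul, t8_322, Φ_x, ← map_mul, tm_386]
theorem t8_387 : Φ f r387 = q f m8_387 := by
  show Φ f (r323 * x) = q f m8_387
  rw [map_mul, t8_323, Φ_x, ← map_mul, tm_387]
theorem t8_388 : Φ f r388 = q f m8_388 := by
  show Φ f (r324 * y) = q f m8_388
  rw [map_mul, t8_324, Φ_y, ← map_mul, tm_388]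
theorem t8_389 : Φ f r389 = q f m8_389 := by
  show Φ f (r325 * x) = q f m8_389
  rw [map_mul, t8_325, Φ_x, ← map_mul, tm_389]
theorem t8_390 : Φ f r390 = q f m8_390 := by
  show Φ f (r328 * x) = q f m8_390
  rw [map_mul, t8_328, Φ_x, ← map_mul, tm_390]
theorem t8_391 : Φ f r391 = q f m8_391 := by
  show Φ f (r329 * x) = q f m8_391
  rw [map_mul, t8_329, Φ_x, ← map_mul, tm_391]
theorem t8_392 : Φ f r392 = q f m8_392 := by
  show Φ f (r329 * y) = q f m8_392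
  rw [map_mul, t8_329, Φ_y, ← map_mul, tm_392]
theorem t8_393 : Φ f r393 = q f m8_393 := by
  show Φ f (r331 * x) = q f m8_393
  rw [map_mul, t8_331, Φ_x, ← map_mul, tm_393]
theorem t8_394 : Φ f r394 = q f m8_394 := by
  show Φ f (r333 * x) = q f m8_394
  rw [map_mul, t8_333, Φ_x, ← map_mul, tm_394]
theorem t8_395 : Φ f r395 = q f m8_395 := by
  show Φ f (r334 * x) = q f m8_395
  rw [map_mul, t8_334, Φ_x, ← map_mul, tm_395]
theorem t8_396 : Φ f r396 = q f m8_396 := by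
  show Φ f (r334 * y) = q f m8_396
  rw [map_mul, t8_334, Φ_y, ← map_mul, tm_396]
theorem t8_397 : Φ f r397 = q f m8_397 := by
  show Φ f (r335 * x) = q f m8_397
  rw [map_mul, t8_335, Φ_x, ← map_mul, tm_397]
theorem t8_398 : Φ f r398 = q f m8_398 := by
  show Φ f (r335 * y) = q f m8_398
  rw [map_mul, t8_335, Φ_y, ← map_mul, tm_398]
theorem t8_399 : Φ f r399 = q f m8_399 := by
  show Φ f (r336 * x) = q f m8_399
  rw [map_mul, t8_336, Φ_x, ← map_mul, tm_399]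
theorem t8_400 : Φ f r400 = q f m8_400 := by
  show Φ f (r336 * y) = q f m8_400
  rw [map_mul, t8_336, Φ_y, ← map_mul, tm_400]
theorem t8_401 : Φ f r401 = q f m8_401 := by
  show Φ f (r337 * y) = q f m8_401
  rw [map_mul, t8_337, Φ_y, ← map_mul, tm_401]
theorem t8_402 : Φ f r402 = q f m8_402 := by
  show Φ f (r339 * x) = q f m8_402
  rw [map_mul, t8_339, Φ_x, ← map_mul, tm_402]
theorem t8_403 : Φ f r403 = q f m8_403 := by
  show Φ f (r339 * y) = q f m8_403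
  rw [map_mul, t8_339, Φ_y, ← map_mul, tm_403]
theorem t8_404 : Φ f r404 = q f m8_404 := by
  show Φ f (r340 * x) = q f m8_404
  rw [map_mul, t8_340, Φ_x, ← map_mul, tm_404]
theorem t8_405 : Φ f r405 = q f m8_405 := by
  show Φ f (r340 * y) = q f m8_405
  rw [map_mul, t8_340, Φ_y, ← map_mul, tm_405]
theorem t8_406 : Φ f r406 = q f m8_406 := by
  show Φ f (r341 * y) = q f m8_406
  rw [map_mul, t8_341, Φ_y, ← map_mul, tm_406]
theorem t8_407 : Φ f r407 = q f m8_407 := by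
  show Φ f (r342 * x) = q f m8_407
  rw [map_mul, t8_342, Φ_x, ← map_mul, tm_407]
theorem t8_408 : Φ f r408 = q f m8_408 := by
  show Φ f (r342 * y) = q f m8_408
  rw [map_mul, t8_342, Φ_y, ← map_mul, tm_408]
theorem t8_409 : Φ f r409 = q f m8_409 := by
  show Φ f (r343 * y) = q f m8_409
  rw [map_mul, t8_343, Φ_y, ← map_mul, tm_409]
theorem t8_410 : Φ f r410 = q f m8_410 := by
  show Φ f (r344 * x) = q f m8_410
  rw [map_mul, t8_344, Φ_x, ← map_mul, tm_410]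
theorem t8_411 : Φ f r411 = q f m8_411 := by
  show Φ f (r344 * y) = q f m8_411
  rw [map_mul, t8_344, Φ_y, ← map_mul, tm_411]
theorem t8_412 : Φ f r412 = q f m8_412 := by
  show Φ f (r345 * y) = q f m8_412
  rw [map_mul, t8_345, Φ_y, ← map_mul, tm_412]
theorem t8_413 : Φ f r413 = q f m8_413 := by
  show Φ f (r346 * y) = q f m8_413
  rw [map_mul, t8_346, Φ_y, ← map_mul, tm_413]
theorem t8_414 : Φ f r414 = q f m8_414 := by
  show Φ f (r347 * y) = q f m8_414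
  rw [map_mul, t8_347, Φ_y, ← map_mul, tm_414]
theorem t8_415 : Φ f r415 = q f m8_415 := by
  show Φ f (r348 * x) = q f m8_415
  rw [map_mul, t8_348, Φ_x, ← map_mul, tm_415]
theorem t8_416 : Φ f r416 = q f m8_416 := by
  show Φ f (r348 * y) = q f m8_416
  rw [map_mul, t8_348, Φ_y, ← map_mul, tm_416]
theorem t8_417 : Φ f r417 = q f m8_417 := by
  show Φ f (r349 * y) = q f m8_417
  rw [map_mul, t8_349, Φ_y, ← map_mul, tm_417]
theorem t8_418 : Φ f r418 = q f m8_418 := by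
  show Φ f (r350 * y) = q f m8_418
  rw [map_mul, t8_350, Φ_y, ← map_mul, tm_418]
theorem t8_419 : Φ f r419 = q f m8_419 := by
  show Φ f (r352 * x) = q f m8_419
  rw [map_mul, t8_352, Φ_x, ← map_mul, tm_419]
theorem t8_420 : Φ f r420 = q f m8_420 := by
  show Φ f (r353 * y) = q f m8_420
  rw [map_mul, t8_353, Φ_y, ← map_mul, tm_420]
theorem t8_421 : Φ f r421 = q f m8_421 := by
  show Φ f (r354 * x) = q f m8_421
  rw [map_mul, t8_354, Φ_x, ← map_mul, tm_421]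
theorem t8_422 : Φ f r422 = q f m8_422 := by
  show Φ f (r357 * x) = q f m8_422
  rw [map_mul, t8_357, Φ_x, ← map_mul, tm_422]
theorem t8_423 : Φ f r423 = q f m8_423 := by
  show Φ f (r365 * x) = q f m8_423
  rw [map_mul, t8_365, Φ_x, ← map_mul, tm_423]
theorem t8_424 : Φ f r424 = q f m8_424 := by
  show Φ f (r366 * x) = q f m8_424
  rw [map_mul, t8_366, Φ_x, ← map_mul, tm_424]
theorem t8_425 : Φ f r425 = q f m8_425 := by
  show Φ f (r366 * y) = q f m8_425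
  rw [map_mul, t8_366, Φ_y, ← map_mul, tm_425]
theorem t8_426 : Φ f r426 = q f m8_426 := by
  show Φ f (r367 * y) = q f m8_426
  rw [map_mul, t8_367, Φ_y, ← map_mul, tm_426]
theorem t8_427 : Φ f r427 = q f m8_427 := by
  show Φ f (r369 * y) = q f m8_427
  rw [map_mul, t8_369, Φ_y, ← map_mul, tm_427]
theorem t8_428 : Φ f r428 = q f m8_428 := by
  show Φ f (r371 * x) = q f m8_428
  rw [map_mul, t8_371, Φ_x, ← map_mul, tm_428]
theorem t8_429 : Φ f r429 = q f m8_429 := by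
  show Φ f (r371 * y) = q f m8_429
  rw [map_mul, t8_371, Φ_y, ← map_mul, tm_429]
theorem t8_430 : Φ f r430 = q f m8_430 := by
  show Φ f (r373 * y) = q f m8_430
  rw [map_mul, t8_373, Φ_y, ← map_mul, tm_430]
theorem t8_431 : Φ f r431 = q f m8_431 := by
  show Φ f (r374 * x) = q f m8_431
  rw [map_mul, t8_374, Φ_x, ← map_mul, tm_431]
theorem t8_432 : Φ f r432 = q f m8_432 := by
  show Φ f (r374 * y) = q f m8_432
  rw [map_mul, t8_374, Φ_y, ← map_mul, tm_432]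
theorem t8_433 : Φ f r433 = q f m8_433 := by
  show Φ f (r375 * y) = q f m8_433
  rw [map_mul, t8_375, Φ_y, ← map_mul, tm_433]
theorem t8_434 : Φ f r434 = q f m8_434 := by
  show Φ f (r376 * x) = q f m8_434
  rw [map_mul, t8_376, Φ_x, ← map_mul, tm_434]
theorem t8_435 : Φ f r435 = q f m8_435 := by
  show Φ f (r377 * y) = q f m8_435
  rw [map_mul, t8_377, Φ_y, ← map_mul, tm_435]
theorem t8_436 : Φ f r436 = q f m8_436 := by
  show Φ f (r378 * y) = q f m8_436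
  rw [map_mul, t8_378, Φ_y, ← map_mul, tm_436]
theorem t8_437 : Φ f r437 = q f m8_437 := by
  show Φ f (r380 * x) = q f m8_437
  rw [map_mul, t8_380, Φ_x, ← map_mul, tm_437]
theorem t8_438 : Φ f r438 = q f m8_438 := by
  show Φ f (r380 * y) = q f m8_438
  rw [map_mul, t8_380, Φ_y, ← map_mul, tm_438]
theorem t8_439 : Φ f r439 = q f m8_439 := by
  show Φ f (r381 * y) = q f m8_439
  rw [map_mul, t8_381, Φ_y, ← map_mul, tm_439]
theorem t8_440 : Φ f r440 = q f m8_440 := by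
  show Φ f (r382 * y) = q f m8_440
  rw [map_mul, t8_382, Φ_y, ← map_mul, tm_440]
theorem t8_441 : Φ f r441 = q f m8_441 := by
  show Φ f (r383 * y) = q f m8_441
  rw [map_mul, t8_383, Φ_y, ← map_mul, tm_441]
theorem t8_442 : Φ f r442 = q f m8_442 := by
  show Φ f (r386 * y) = q f m8_442
  rw [map_mul, t8_386, Φ_y, ← map_mul, tm_442]
theorem t8_443 : Φ f r443 = q f m8_443 := by
  show Φ f (r388 * y) = q f m8_443
  rw [map_mul, t8_388, Φ_y, ← map_mul, tm_443]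
theorem t8_444 : Φ f r444 = q f m8_444 := by
  show Φ f (r389 * y) = q f m8_444
  rw [map_mul, t8_389, Φ_y, ← map_mul, tm_444]
theorem t8_445 : Φ f r445 = q f m8_445 := by
  show Φ f (r391 * y) = q f m8_445
  rw [map_mul, t8_391, Φ_y, ← map_mul, tm_445]
theorem t8_446 : Φ f r446 = q f m8_446 := by
  show Φ f (r394 * y) = q f m8_446
  rw [map_mul, t8_394, Φ_y, ← map_mul, tm_446]
theorem t8_447 : Φ f r447 = q f m8_447 := by
  show Φ f (r395 * y) = q f m8_447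
  rw [map_mul, t8_395, Φ_y, ← map_mul, tm_447]
theorem t8_448 : Φ f r448 = q f m8_448 := by
  show Φ f (r396 * x) = q f m8_448
  rw [map_mul, t8_396, Φ_x, ← map_mul, tm_448]
theorem t8_449 : Φ f r449 = q f m8_449 := by
  show Φ f (r397 * y) = q f m8_449
  rw [map_mul, t8_397, Φ_y, ← map_mul, tm_449]
theorem t8_450 : Φ f r450 = q f m8_450 := by
  show Φ f (r401 * x) = q f m8_450
  rw [map_mul, t8_401, Φ_x, ← map_mul, tm_450]
theorem t8_451 : Φ f r451 = q f m8_451 := by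
  show Φ f (r402 * y) = q f m8_451
  rw [map_mul, t8_402, Φ_y, ← map_mul, tm_451]
theorem t8_452 : Φ f r452 = q f m8_452 := by
  show Φ f (r406 * x) = q f m8_452
  rw [map_mul, t8_406, Φ_x, ← map_mul, tm_452]
theorem t8_453 : Φ f r453 = q f m8_453 := by
  show Φ f (r407 * y) = q f m8_453
  rw [map_mul, t8_407, Φ_y, ← map_mul, tm_453]
theorem t8_454 : Φ f r454 = q f m8_454 := by
  show Φ f (r408 * x) = q f m8_454
  rw [map_mul, t8_408, Φ_x, ← map_mul, tm_454]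
theorem t8_455 : Φ f r455 = q f m8_455 := by
  show Φ f (r412 * y) = q f m8_455
  rw [map_mul, t8_412, Φ_y, ← map_mul, tm_455]
theorem t8_456 : Φ f r456 = q f m8_456 := by
  show Φ f (r417 * x) = q f m8_456
  rw [map_mul, t8_417, Φ_x, ← map_mul, tm_456]
theorem t8_457 : Φ f r457 = q f m8_457 := by
  show Φ f (r417 * y) = q f m8_457
  rw [map_mul, t8_417, Φ_y, ← map_mul, tm_457]
theorem t8_458 : Φ f r458 = q f m8_458 := by
  show Φ f (r418 * y) = q f m8_458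
  rw [map_mul, t8_418, Φ_y, ← map_mul, tm_458]
theorem t8_459 : Φ f r459 = q f m8_459 := by
  show Φ f (r421 * y) = q f m8_459
  rw [map_mul, t8_421, Φ_y, ← map_mul, tm_459]
theorem t8_460 : Φ f r460 = q f m8_460 := by
  show Φ f (r422 * y) = q f m8_460
  rw [map_mul, t8_422, Φ_y, ← map_mul, tm_460]
theorem t8_461 : Φ f r461 = q f m8_461 := by
  show Φ f (r423 * y) = q f m8_461
  rw [map_mul, t8_423, Φ_y, ← map_mul, tm_461]
theorem t8_462 : Φ f r462 = q f m8_462 := by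
  show Φ f (r424 * y) = q f m8_462
  rw [map_mul, t8_424, Φ_y, ← map_mul, tm_462]
theorem t8_463 : Φ f r463 = q f m8_463 := by
  show Φ f (r425 * x) = q f m8_463
  rw [map_mul, t8_425, Φ_x, ← map_mul, tm_463]
theorem t8_464 : Φ f r464 = q f m8_464 := by
  show Φ f (r430 * x) = q f m8_464
  rw [map_mul, t8_430, Φ_x, ← map_mul, tm_464]
theorem t8_465 : Φ f r465 = q f m8_465 := by
  show Φ f (r431 * y) = q f m8_465
  rw [map_mul, t8_431, Φ_y, ← map_mul, tm_465]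
theorem t8_466 : Φ f r466 = q f m8_466 := by
  show Φ f (r432 * x) = q f m8_466
  rw [map_mul, t8_432, Φ_x, ← map_mul, tm_466]
theorem t8_467 : Φ f r467 = q f m8_467 := by
  show Φ f (r435 * y) = q f m8_467
  rw [map_mul, t8_435, Φ_y, ← map_mul, tm_467]
theorem t8_468 : Φ f r468 = q f m8_468 := by
  show Φ f (r439 * x) = q f m8_468
  rw [map_mul, t8_439, Φ_x, ← map_mul, tm_468]
theorem t8_469 : Φ f r469 = q f m8_469 := by
  show Φ f (r439 * y) = q f m8_469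
  rw [map_mul, t8_439, Φ_y, ← map_mul, tm_469]
theorem t8_470 : Φ f r470 = q f m8_470 := by
  show Φ f (r441 * x) = q f m8_470
  rw [map_mul, t8_441, Φ_x, ← map_mul, tm_470]
theorem t8_471 : Φ f r471 = q f m8_471 := by
  show Φ f (r444 * x) = q f m8_471
  rw [map_mul, t8_444, Φ_x, ← map_mul, tm_471]
theorem t8_472 : Φ f r472 = q f m8_472 := by
  show Φ f (r444 * y) = q f m8_472
  rw [map_mul, t8_444, Φ_y, ← map_mul, tm_472]
theorem t8_473 : Φ f r473 = q f m8_473 := by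
  show Φ f (r446 * y) = q f m8_473
  rw [map_mul, t8_446, Φ_y, ← map_mul, tm_473]
theorem t8_474 : Φ f r474 = q f m8_474 := by
  show Φ f (r447 * x) = q f m8_474
  rw [map_mul, t8_447, Φ_x, ← map_mul, tm_474]
theorem t8_475 : Φ f r475 = q f m8_475 := by
  show Φ f (r447 * y) = q f m8_475
  rw [map_mul, t8_447, Φ_y, ← map_mul, tm_475]
theorem t8_476 : Φ f r476 = q f m8_476 := by
  show Φ f (r448 * y) = q f m8_476
  rw [map_mul, t8_448, Φ_y, ← map_mul, tm_476]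
theorem t8_477 : Φ f r477 = q f m8_477 := by
  show Φ f (r449 * x) = q f m8_477
  rw [map_mul, t8_449, Φ_x, ← map_mul, tm_477]
theorem t8_478 : Φ f r478 = q f m8_478 := by
  show Φ f (r450 * y) = q f m8_478
  rw [map_mul, t8_450, Φ_y, ← map_mul, tm_478]
theorem t8_479 : Φ f r479 = q f m8_479 := by
  show Φ f (r451 * y) = q f m8_479
  rw [map_mul, t8_451, Φ_y, ← map_mul, tm_479]
theorem t8_480 : Φ f r480 = q f m8_480 := by
  show Φ f (r453 * y) = q f m8_480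
  rw [map_mul, t8_453, Φ_y, ← map_mul, tm_480]
theorem t8_481 : Φ f r481 = q f m8_481 := by
  show Φ f (r454 * y) = q f m8_481
  rw [map_mul, t8_454, Φ_y, ← map_mul, tm_481]
theorem t8_482 : Φ f r482 = q f m8_482 := by
  show Φ f (r456 * y) = q f m8_482
  rw [map_mul, t8_456, Φ_y, ← map_mul, tm_482]
theorem t8_483 : Φ f r483 = q f m8_483 := by
  show Φ f (r457 * x) = q f m8_483
  rw [map_mul, t8_457, Φ_x, ← map_mul, tm_483]
theorem t8_484 : Φ f r484 = q f m8_484 := by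
  show Φ f (r460 * x) = q f m8_484
  rw [map_mul, t8_460, Φ_x, ← map_mul, tm_484]
theorem t8_485 : Φ f r485 = q f m8_485 := by
  show Φ f (r460 * y) = q f m8_485
  rw [map_mul, t8_460, Φ_y, ← map_mul, tm_485]
theorem t8_486 : Φ f r486 = q f m8_486 := by
  show Φ f (r462 * x) = q f m8_486
  rw [map_mul, t8_462, Φ_x, ← map_mul, tm_486]
theorem t8_487 : Φ f r487 = q f m8_487 := by
  show Φ f (r462 * y) = q f m8_487
  rw [map_mul, t8_462, Φ_y, ← map_mul, tm_487]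
theorem t8_488 : Φ f r488 = q f m8_488 := by
  show Φ f (r463 * y) = q f m8_488
  rw [map_mul, t8_463, Φ_y, ← map_mul, tm_488]
theorem t8_489 : Φ f r489 = q f m8_489 := by
  show Φ f (r465 * y) = q f m8_489
  rw [map_mul, t8_465, Φ_y, ← map_mul, tm_489]
theorem t8_490 : Φ f r490 = q f m8_490 := by
  show Φ f (r466 * y) = q f m8_490
  rw [map_mul, t8_466, Φ_y, ← map_mul, tm_490]
theorem t8_491 : Φ f r491 = q f m8_491 := by
  show Φ f (r468 * y) = q f m8_491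
  rw [map_mul, t8_468, Φ_y, ← map_mul, tm_491]
theorem t8_492 : Φ f r492 = q f m8_492 := by
  show Φ f (r472 * x) = q f m8_492
  rw [map_mul, t8_472, Φ_x, ← map_mul, tm_492]
theorem t8_493 : Φ f r493 = q f m8_493 := by
  show Φ f (r475 * x) = q f m8_493
  rw [map_mul, t8_475, Φ_x, ← map_mul, tm_493]
theorem t8_494 : Φ f r494 = q f m8_494 := by
  show Φ f (r478 * x) = q f m8_494
  rw [map_mul, t8_478, Φ_x, ← map_mul, tm_494]
theorem t8_495 : Φ f r495 = q f m8_495 := by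
  show Φ f (r479 * x) = q f m8_495
  rw [map_mul, t8_479, Φ_x, ← map_mul, tm_495]
theorem t8_496 : Φ f r496 = q f m8_496 := by
  show Φ f (r481 * x) = q f m8_496
  rw [map_mul, t8_481, Φ_x, ← map_mul, tm_496]
theorem t8_497 : Φ f r497 = q f m8_497 := by
  show Φ f (r482 * x) = q f m8_497
  rw [map_mul, t8_482, Φ_x, ← map_mul, tm_497]
theorem t8_498 : Φ f r498 = q f m8_498 := by
  show Φ f (r485 * x) = q f m8_498
  rw [map_mul, t8_485, Φ_x, ← map_mul, tm_498]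
theorem t8_499 : Φ f r499 = q f m8_499 := by
  show Φ f (r487 * x) = q f m8_499
  rw [map_mul, t8_487, Φ_x, ← map_mul, tm_499]
theorem t8_500 : Φ f r500 = q f m8_500 := by
  show Φ f (r490 * x) = q f m8_500
  rw [map_mul, t8_490, Φ_x, ← map_mul, tm_500]
theorem t8_501 : Φ f r501 = q f m8_501 := by
  show Φ f (r491 * x) = q f m8_501
  rw [map_mul, t8_491, Φ_x, ← map_mul, tm_501]
theorem t8_502 : Φ f r502 = q f m8_502 := by
  show Φ f (r493 * y) = q f m8_502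
  rw [map_mul, t8_493, Φ_y, ← map_mul, tm_502]
theorem t8_503 : Φ f r503 = q f m8_503 := by
  show Φ f (r499 * y) = q f m8_503
  rw [map_mul, t8_499, Φ_y, ← map_mul, tm_503]
theorem Φ_rep_c0 : ∀ b : Fin 63, Φ f (rep_c0 b) = q f (M8_c0 b)
  | ⟨0, _⟩ => t8_0 f
  | ⟨1, _⟩ => t8_1 f
  | ⟨2, _⟩ => t8_2 f
  | ⟨3, _⟩ => t8_3 f
  | ⟨4, _⟩ => t8_4 f
  | ⟨5, _⟩ => t8_5 f
  | ⟨6, _⟩ => t8_6 f
  | ⟨7, _⟩ => t8_7 f
  | ⟨8, _⟩ => t8_8 f
  | ⟨9, _⟩ => t8_9 f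
  | ⟨10, _⟩ => t8_10 f
  | ⟨11, _⟩ => t8_11 f
  | ⟨12, _⟩ => t8_12 f
  | ⟨13, _⟩ => t8_13 f
  | ⟨14, _⟩ => t8_14 f
  | ⟨15, _⟩ => t8_15 f
  | ⟨16, _⟩ => t8_16 f
  | ⟨17, _⟩ => t8_17 f
  | ⟨18, _⟩ => t8_18 f
  | ⟨19, _⟩ => t8_19 f
  | ⟨20, _⟩ => t8_20 f
  | ⟨21, _⟩ => t8_21 f
  | ⟨22, _⟩ => t8_22 f
  | ⟨23, _⟩ => t8_23 f
  | ⟨24, _⟩ => t8_24 f
  | ⟨25, _⟩ => t8_25 f
  | ⟨26, _⟩ => t8_26 f
  | ⟨27, _⟩ => t8_27 f
  | ⟨28, _⟩ => t8_28 f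
  | ⟨29, _⟩ => t8_29 f
  | ⟨30, _⟩ => t8_30 f
  | ⟨31, _⟩ => t8_31 f
  | ⟨32, _⟩ => t8_32 f
  | ⟨33, _⟩ => t8_33 f
  | ⟨34, _⟩ => t8_34 f
  | ⟨35, _⟩ => t8_35 f
  | ⟨36, _⟩ => t8_36 f
  | ⟨37, _⟩ => t8_37 f
  | ⟨38, _⟩ => t8_38 f
  | ⟨39, _⟩ => t8_39 f
  | ⟨40, _⟩ => t8_40 f
  | ⟨41, _⟩ => t8_41 f
  | ⟨42, _⟩ => t8_42 f
  | ⟨43, _⟩ => t8_43 f
  | ⟨44, _⟩ => t8_44 f
  | ⟨45, _⟩ => t8_45 f
  | ⟨46, _⟩ => t8_46 f
  | ⟨47, _⟩ => t8_47 f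
  | ⟨48, _⟩ => t8_48 f
  | ⟨49, _⟩ => t8_49 f
  | ⟨50, _⟩ => t8_50 f
  | ⟨51, _⟩ => t8_51 f
  | ⟨52, _⟩ => t8_52 f
  | ⟨53, _⟩ => t8_53 f
  | ⟨54, _⟩ => t8_54 f
  | ⟨55, _⟩ => t8_55 f
  | ⟨56, _⟩ => t8_56 f
  | ⟨57, _⟩ => t8_57 f
  | ⟨58, _⟩ => t8_58 f
  | ⟨59, _⟩ => t8_59 f
  | ⟨60, _⟩ => t8_60 f
  | ⟨61, _⟩ => t8_61 f
  | ⟨62, _⟩ => t8_62 f
  | ⟨n+63, h⟩ => absurd h (by omega)
theorem Φ_rep_c1 : ∀ b : Fin 63, Φ f (rep_c1 b) = q f (M8_c1 b)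
  | ⟨0, _⟩ => t8_63 f
  | ⟨1, _⟩ => t8_64 f
  | ⟨2, _⟩ => t8_65 f
  | ⟨3, _⟩ => t8_66 f
  | ⟨4, _⟩ => t8_67 f
  | ⟨5, _⟩ => t8_68 f
  | ⟨6, _⟩ => t8_69 f
  | ⟨7, _⟩ => t8_70 f
  | ⟨8, _⟩ => t8_71 f
  | ⟨9, _⟩ => t8_72 f
  | ⟨10, _⟩ => t8_73 f
  | ⟨11, _⟩ => t8_74 f
  | ⟨12, _⟩ => t8_75 f
  | ⟨13, _⟩ => t8_76 f
  | ⟨14, _⟩ => t8_77 f
  | ⟨15, _⟩ => t8_78 f
  | ⟨16, _⟩ => t8_79 f
  | ⟨17, _⟩ => t8_80 f
  | ⟨18, _⟩ => t8_81 f
  | ⟨19, _⟩ => t8_82 f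
  | ⟨20, _⟩ => t8_83 f
  | ⟨21, _⟩ => t8_84 f
  | ⟨22, _⟩ => t8_85 f
  | ⟨23, _⟩ => t8_86 f
  | ⟨24, _⟩ => t8_87 f
  | ⟨25, _⟩ => t8_88 f
  | ⟨26, _⟩ => t8_89 f
  | ⟨27, _⟩ => t8_90 f
  | ⟨28, _⟩ => t8_91 f
  | ⟨29, _⟩ => t8_92 f
  | ⟨30, _⟩ => t8_93 f
  | ⟨31, _⟩ => t8_94 f
  | ⟨32, _⟩ => t8_95 f
  | ⟨33, _⟩ => t8_96 f
  | ⟨34, _⟩ => t8_97 f
  | ⟨35, _⟩ => t8_98 f
  | ⟨36, _⟩ => t8_99 f
  | ⟨37, _⟩ => t8_100 f
  | ⟨38, _⟩ => t8_101 f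
  | ⟨39, _⟩ => t8_102 f
  | ⟨40, _⟩ => t8_103 f
  | ⟨41, _⟩ => t8_104 f
  | ⟨42, _⟩ => t8_105 f
  | ⟨43, _⟩ => t8_106 f
  | ⟨44, _⟩ => t8_107 f
  | ⟨45, _⟩ => t8_108 f
  | ⟨46, _⟩ => t8_109 f
  | ⟨47, _⟩ => t8_110 f
  | ⟨48, _⟩ => t8_111 f
  | ⟨49, _⟩ => t8_112 f
  | ⟨50, _⟩ => t8_113 f
  | ⟨51, _⟩ => t8_114 f
  | ⟨52, _⟩ => t8_115 f
  | ⟨53, _⟩ => t8_116 f
  | ⟨54, _⟩ => t8_117 f
  | ⟨55, _⟩ => t8_118 f
  | ⟨56, _⟩ => t8_119 f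
  | ⟨57, _⟩ => t8_120 f
  | ⟨58, _⟩ => t8_121 f
  | ⟨59, _⟩ => t8_122 f
  | ⟨60, _⟩ => t8_123 f
  | ⟨61, _⟩ => t8_124 f
  | ⟨62, _⟩ => t8_125 f
  | ⟨n+63, h⟩ => absurd h (by omega)
theorem Φ_rep_c2 : ∀ b : Fin 63, Φ f (rep_c2 b) = q f (M8_c2 b)
  | ⟨0, _⟩ => t8_126 f
  | ⟨1, _⟩ => t8_127 f
  | ⟨2, _⟩ => t8_128 f
  | ⟨3, _⟩ => t8_129 f
  | ⟨4, _⟩ => t8_130 f
  | ⟨5, _⟩ => t8_131 f
  | ⟨6, _⟩ => t8_132 f
  | ⟨7, _⟩ => t8_133 f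
  | ⟨8, _⟩ => t8_134 f
  | ⟨9, _⟩ => t8_135 f
  | ⟨10, _⟩ => t8_136 f
  | ⟨11, _⟩ => t8_137 f
  | ⟨12, _⟩ => t8_138 f
  | ⟨13, _⟩ => t8_139 f
  | ⟨14, _⟩ => t8_140 f
  | ⟨15, _⟩ => t8_141 f
  | ⟨16, _⟩ => t8_142 f
  | ⟨17, _⟩ => t8_143 f
  | ⟨18, _⟩ => t8_144 f
  | ⟨19, _⟩ => t8_145 f
  | ⟨20, _⟩ => t8_146 f
  | ⟨21, _⟩ => t8_147 f
  | ⟨22, _⟩ => t8_148 f
  | ⟨23, _⟩ => t8_149 f
  | ⟨24, _⟩ => t8_150 f
  | ⟨25, _⟩ => t8_151 f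
  | ⟨26, _⟩ => t8_152 f
  | ⟨27, _⟩ => t8_153 f
  | ⟨28, _⟩ => t8_154 f
  | ⟨29, _⟩ => t8_155 f
  | ⟨30, _⟩ => t8_156 f
  | ⟨31, _⟩ => t8_157 f
  | ⟨32, _⟩ => t8_158 f
  | ⟨33, _⟩ => t8_159 f
  | ⟨34, _⟩ => t8_160 f
  | ⟨35, _⟩ => t8_161 f
  | ⟨36, _⟩ => t8_162 f
  | ⟨37, _⟩ => t8_163 f
  | ⟨38, _⟩ => t8_164 f
  | ⟨39, _⟩ => t8_165 f
  | ⟨40, _⟩ => t8_166 f
  | ⟨41, _⟩ => t8_167 f
  | ⟨42, _⟩ => t8_168 f
  | ⟨43, _⟩ => t8_169 f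
  | ⟨44, _⟩ => t8_170 f
  | ⟨45, _⟩ => t8_171 f
  | ⟨46, _⟩ => t8_172 f
  | ⟨47, _⟩ => t8_173 f
  | ⟨48, _⟩ => t8_174 f
  | ⟨49, _⟩ => t8_175 f
  | ⟨50, _⟩ => t8_176 f
  | ⟨51, _⟩ => t8_177 f
  | ⟨52, _⟩ => t8_178 f
  | ⟨53, _⟩ => t8_179 f
  | ⟨54, _⟩ => t8_180 f
  | ⟨55, _⟩ => t8_181 f
  | ⟨56, _⟩ => t8_182 f
  | ⟨57, _⟩ => t8_183 f
  | ⟨58, _⟩ => t8_184 f
  | ⟨59, _⟩ => t8_185 f
  | ⟨60, _⟩ => t8_186 f
  | ⟨61, _⟩ => t8_187 f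
  | ⟨62, _⟩ => t8_188 f
  | ⟨n+63, h⟩ => absurd h (by omega)
theorem Φ_rep_c3 : ∀ b : Fin 63, Φ f (rep_c3 b) = q f (M8_c3 b)
  | ⟨0, _⟩ => t8_189 f
  | ⟨1, _⟩ => t8_190 f
  | ⟨2, _⟩ => t8_191 f
  | ⟨3, _⟩ => t8_192 f
  | ⟨4, _⟩ => t8_193 f
  | ⟨5, _⟩ => t8_194 f
  | ⟨6, _⟩ => t8_195 f
  | ⟨7, _⟩ => t8_196 f
  | ⟨8, _⟩ => t8_197 f
  | ⟨9, _⟩ => t8_198 f
  | ⟨10, _⟩ => t8_199 f
  | ⟨11, _⟩ => t8_200 f
  | ⟨12, _⟩ => t8_201 f
  | ⟨13, _⟩ => t8_202 f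
  | ⟨14, _⟩ => t8_203 f
  | ⟨15, _⟩ => t8_204 f
  | ⟨16, _⟩ => t8_205 f
  | ⟨17, _⟩ => t8_206 f
  | ⟨18, _⟩ => t8_207 f
  | ⟨19, _⟩ => t8_208 f
  | ⟨20, _⟩ => t8_209 f
  | ⟨21, _⟩ => t8_210 f
  | ⟨22, _⟩ => t8_211 f
  | ⟨23, _⟩ => t8_212 f
  | ⟨24, _⟩ => t8_213 f
  | ⟨25, _⟩ => t8_214 f
  | ⟨26, _⟩ => t8_215 f
  | ⟨27, _⟩ => t8_216 f
  | ⟨28, _⟩ => t8_217 f
  | ⟨29, _⟩ => t8_218 f
  | ⟨30, _⟩ => t8_219 f
  | ⟨31, _⟩ => t8_220 f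
  | ⟨32, _⟩ => t8_221 f
  | ⟨33, _⟩ => t8_222 f
  | ⟨34, _⟩ => t8_223 f
  | ⟨35, _⟩ => t8_224 f
  | ⟨36, _⟩ => t8_225 f
  | ⟨37, _⟩ => t8_226 f
  | ⟨38, _⟩ => t8_227 f
  | ⟨39, _⟩ => t8_228 f
  | ⟨40, _⟩ => t8_229 f
  | ⟨41, _⟩ => t8_230 f
  | ⟨42, _⟩ => t8_231 f
  | ⟨43, _⟩ => t8_232 f
  | ⟨44, _⟩ => t8_233 f
  | ⟨45, _⟩ => t8_234 f
  | ⟨46, _⟩ => t8_235 f
  | ⟨47, _⟩ => t8_236 f
  | ⟨48, _⟩ => t8_237 f
  | ⟨49, _⟩ => t8_238 f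
  | ⟨50, _⟩ => t8_239 f
  | ⟨51, _⟩ => t8_240 f
  | ⟨52, _⟩ => t8_241 f
  | ⟨53, _⟩ => t8_242 f
  | ⟨54, _⟩ => t8_243 f
  | ⟨55, _⟩ => t8_244 f
  | ⟨56, _⟩ => t8_245 f
  | ⟨57, _⟩ => t8_246 f
  | ⟨58, _⟩ => t8_247 f
  | ⟨59, _⟩ => t8_248 f
  | ⟨60, _⟩ => t8_249 f
  | ⟨61, _⟩ => t8_250 f
  | ⟨62, _⟩ => t8_251 f
  | ⟨n+63, h⟩ => absurd h (by omega)
theorem Φ_rep_c4 : ∀ b : Fin 63, Φ f (rep_c4 b) = q f (M8_c4 b)
  | ⟨0, _⟩ => t8_252 f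
  | ⟨1, _⟩ => t8_253 f
  | ⟨2, _⟩ => t8_254 f
  | ⟨3, _⟩ => t8_255 f
  | ⟨4, _⟩ => t8_256 f
  | ⟨5, _⟩ => t8_257 f
  | ⟨6, _⟩ => t8_258 f
  | ⟨7, _⟩ => t8_259 f
  | ⟨8, _⟩ => t8_260 f
  | ⟨9, _⟩ => t8_261 f
  | ⟨10, _⟩ => t8_262 f
  | ⟨11, _⟩ => t8_263 f
  | ⟨12, _⟩ => t8_264 f
  | ⟨13, _⟩ => t8_265 f
  | ⟨14, _⟩ => t8_266 f
  | ⟨15, _⟩ => t8_267 f
  | ⟨16, _⟩ => t8_268 f
  | ⟨17, _⟩ => t8_269 f
  | ⟨18, _⟩ => t8_270 f
  | ⟨19, _⟩ => t8_271 f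
  | ⟨20, _⟩ => t8_272 f
  | ⟨21, _⟩ => t8_273 f
  | ⟨22, _⟩ => t8_274 f
  | ⟨23, _⟩ => t8_275 f
  | ⟨24, _⟩ => t8_276 f
  | ⟨25, _⟩ => t8_277 f
  | ⟨26, _⟩ => t8_278 f
  | ⟨27, _⟩ => t8_279 f
  | ⟨28, _⟩ => t8_280 f
  | ⟨29, _⟩ => t8_281 f
  | ⟨30, _⟩ => t8_282 f
  | ⟨31, _⟩ => t8_283 f
  | ⟨32, _⟩ => t8_284 f
  | ⟨33, _⟩ => t8_285 f
  | ⟨34, _⟩ => t8_286 f
  | ⟨35, _⟩ => t8_287 f
  | ⟨36, _⟩ => t8_288 f
  | ⟨37, _⟩ => t8_289 f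
  | ⟨38, _⟩ => t8_290 f
  | ⟨39, _⟩ => t8_291 f
  | ⟨40, _⟩ => t8_292 f
  | ⟨41, _⟩ => t8_293 f
  | ⟨42, _⟩ => t8_294 f
  | ⟨43, _⟩ => t8_295 f
  | ⟨44, _⟩ => t8_296 f
  | ⟨45, _⟩ => t8_297 f
  | ⟨46, _⟩ => t8_298 f
  | ⟨47, _⟩ => t8_299 f
  | ⟨48, _⟩ => t8_300 f
  | ⟨49, _⟩ => t8_301 f
  | ⟨50, _⟩ => t8_302 f
  | ⟨51, _⟩ => t8_303 f
  | ⟨52, _⟩ => t8_304 f
  | ⟨53, _⟩ => t8_305 f
  | ⟨54, _⟩ => t8_306 f
  | ⟨55, _⟩ => t8_307 f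
  | ⟨56, _⟩ => t8_308 f
  | ⟨57, _⟩ => t8_309 f
  | ⟨58, _⟩ => t8_310 f
  | ⟨59, _⟩ => t8_311 f
  | ⟨60, _⟩ => t8_312 f
  | ⟨61, _⟩ => t8_313 f
  | ⟨62, _⟩ => t8_314 f
  | ⟨n+63, h⟩ => absurd h (by omega)
theorem Φ_rep_c5 : ∀ b : Fin 63, Φ f (rep_c5 b) = q f (M8_c5 b)
  | ⟨0, _⟩ => t8_315 f
  | ⟨1, _⟩ => t8_316 f
  | ⟨2, _⟩ => t8_317 f
  | ⟨3, _⟩ => t8_318 f
  | ⟨4, _⟩ => t8_319 f
  | ⟨5, _⟩ => t8_320 f
  | ⟨6, _⟩ => t8_321 f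
  | ⟨7, _⟩ => t8_322 f
  | ⟨8, _⟩ => t8_323 f
  | ⟨9, _⟩ => t8_324 f
  | ⟨10, _⟩ => t8_325 f
  | ⟨11, _⟩ => t8_326 f
  | ⟨12, _⟩ => t8_327 f
  | ⟨13, _⟩ => t8_328 f
  | ⟨14, _⟩ => t8_329 f
  | ⟨15, _⟩ => t8_330 f
  | ⟨16, _⟩ => t8_331 f
  | ⟨17, _⟩ => t8_332 f
  | ⟨18, _⟩ => t8_333 f
  | ⟨19, _⟩ => t8_334 f
  | ⟨20, _⟩ => t8_335 f
  | ⟨21, _⟩ => t8_336 f
  | ⟨22, _⟩ => t8_337 f
  | ⟨23, _⟩ => t8_338 f
  | ⟨24, _⟩ => t8_339 f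
  | ⟨25, _⟩ => t8_340 f
  | ⟨26, _⟩ => t8_341 f
  | ⟨27, _⟩ => t8_342 f
  | ⟨28, _⟩ => t8_343 f
  | ⟨29, _⟩ => t8_344 f
  | ⟨30, _⟩ => t8_345 f
  | ⟨31, _⟩ => t8_346 f
  | ⟨32, _⟩ => t8_347 f
  | ⟨33, _⟩ => t8_348 f
  | ⟨34, _⟩ => t8_349 f
  | ⟨35, _⟩ => t8_350 f
  | ⟨36, _⟩ => t8_351 f
  | ⟨37, _⟩ => t8_352 f
  | ⟨38, _⟩ => t8_353 f
  | ⟨39, _⟩ => t8_354 f
  | ⟨40, _⟩ => t8_355 f
  | ⟨41, _⟩ => t8_356 f
  | ⟨42, _⟩ => t8_357 f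
  | ⟨43, _⟩ => t8_358 f
  | ⟨44, _⟩ => t8_359 f
  | ⟨45, _⟩ => t8_360 f
  | ⟨46, _⟩ => t8_361 f
  | ⟨47, _⟩ => t8_362 f
  | ⟨48, _⟩ => t8_363 f
  | ⟨49, _⟩ => t8_364 f
  | ⟨50, _⟩ => t8_365 f
  | ⟨51, _⟩ => t8_366 f
  | ⟨52, _⟩ => t8_367 f
  | ⟨53, _⟩ => t8_368 f
  | ⟨54, _⟩ => t8_369 f
  | ⟨55, _⟩ => t8_370 f
  | ⟨56, _⟩ => t8_371 f
  | ⟨57, _⟩ => t8_372 f
  | ⟨58, _⟩ => t8_373 f
  | ⟨59, _⟩ => t8_374 f
  | ⟨60, _⟩ => t8_375 f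
  | ⟨61, _⟩ => t8_376 f
  | ⟨62, _⟩ => t8_377 f
  | ⟨n+63, h⟩ => absurd h (by omega)
theorem Φ_rep_c6 : ∀ b : Fin 63, Φ f (rep_c6 b) = q f (M8_c6 b)
  | ⟨0, _⟩ => t8_378 f
  | ⟨1, _⟩ => t8_379 f
  | ⟨2, _⟩ => t8_380 f
  | ⟨3, _⟩ => t8_381 f
  | ⟨4, _⟩ => t8_382 f
  | ⟨5, _⟩ => t8_383 f
  | ⟨6, _⟩ => t8_384 f
  | ⟨7, _⟩ => t8_385 f
  | ⟨8, _⟩ => t8_386 f
  | ⟨9, _⟩ => t8_387 f
  | ⟨10, _⟩ => t8_388 f
  | ⟨11, _⟩ => t8_389 f
  | ⟨12, _⟩ => t8_390 f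
  | ⟨13, _⟩ => t8_391 f
  | ⟨14, _⟩ => t8_392 f
  | ⟨15, _⟩ => t8_393 f
  | ⟨16, _⟩ => t8_394 f
  | ⟨17, _⟩ => t8_395 f
  | ⟨18, _⟩ => t8_396 f
  | ⟨19, _⟩ => t8_397 f
  | ⟨20, _⟩ => t8_398 f
  | ⟨21, _⟩ => t8_399 f
  | ⟨22, _⟩ => t8_400 f
  | ⟨23, _⟩ => t8_401 f
  | ⟨24, _⟩ => t8_402 f
  | ⟨25, _⟩ => t8_403 f
  | ⟨26, _⟩ => t8_404 f
  | ⟨27, _⟩ => t8_405 f
  | ⟨28, _⟩ => t8_406 f
  | ⟨29, _⟩ => t8_407 f
  | ⟨30, _⟩ => t8_408 f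
  | ⟨31, _⟩ => t8_409 f
  | ⟨32, _⟩ => t8_410 f
  | ⟨33, _⟩ => t8_411 f
  | ⟨34, _⟩ => t8_412 f
  | ⟨35, _⟩ => t8_413 f
  | ⟨36, _⟩ => t8_414 f
  | ⟨37, _⟩ => t8_415 f
  | ⟨38, _⟩ => t8_416 f
  | ⟨39, _⟩ => t8_417 f
  | ⟨40, _⟩ => t8_418 f
  | ⟨41, _⟩ => t8_419 f
  | ⟨42, _⟩ => t8_420 f
  | ⟨43, _⟩ => t8_421 f
  | ⟨44, _⟩ => t8_422 f
  | ⟨45, _⟩ => t8_423 f
  | ⟨46, _⟩ => t8_424 f
  | ⟨47, _⟩ => t8_425 f
  | ⟨48, _⟩ => t8_426 f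
  | ⟨49, _⟩ => t8_427 f
  | ⟨50, _⟩ => t8_428 f
  | ⟨51, _⟩ => t8_429 f
  | ⟨52, _⟩ => t8_430 f
  | ⟨53, _⟩ => t8_431 f
  | ⟨54, _⟩ => t8_432 f
  | ⟨55, _⟩ => t8_433 f
  | ⟨56, _⟩ => t8_434 f
  | ⟨57, _⟩ => t8_435 f
  | ⟨58, _⟩ => t8_436 f
  | ⟨59, _⟩ => t8_437 f
  | ⟨60, _⟩ => t8_438 f
  | ⟨61, _⟩ => t8_439 f
  | ⟨62, _⟩ => t8_440 f
  | ⟨n+63, h⟩ => absurd h (by omega)
theorem Φ_rep_c7 : ∀ b : Fin 63, Φ f (rep_c7 b) = q f (M8_c7 b)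
  | ⟨0, _⟩ => t8_441 f
  | ⟨1, _⟩ => t8_442 f
  | ⟨2, _⟩ => t8_443 f
  | ⟨3, _⟩ => t8_444 f
  | ⟨4, _⟩ => t8_445 f
  | ⟨5, _⟩ => t8_446 f
  | ⟨6, _⟩ => t8_447 f
  | ⟨7, _⟩ => t8_448 f
  | ⟨8, _⟩ => t8_449 f
  | ⟨9, _⟩ => t8_450 f
  | ⟨10, _⟩ => t8_451 f
  | ⟨11, _⟩ => t8_452 f
  | ⟨12, _⟩ => t8_453 f
  | ⟨13, _⟩ => t8_454 f
  | ⟨14, _⟩ => t8_455 f
  | ⟨15, _⟩ => t8_456 f
  | ⟨16, _⟩ => t8_457 f
  | ⟨17, _⟩ => t8_458 f
  | ⟨18, _⟩ => t8_459 f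
  | ⟨19, _⟩ => t8_460 f
  | ⟨20, _⟩ => t8_461 f
  | ⟨21, _⟩ => t8_462 f
  | ⟨22, _⟩ => t8_463 f
  | ⟨23, _⟩ => t8_464 f
  | ⟨24, _⟩ => t8_465 f
  | ⟨25, _⟩ => t8_466 f
  | ⟨26, _⟩ => t8_467 f
  | ⟨27, _⟩ => t8_468 f
  | ⟨28, _⟩ => t8_469 f
  | ⟨29, _⟩ => t8_470 f
  | ⟨30, _⟩ => t8_471 f
  | ⟨31, _⟩ => t8_472 f
  | ⟨32, _⟩ => t8_473 f
  | ⟨33, _⟩ => t8_474 f
  | ⟨34, _⟩ => t8_475 f
  | ⟨35, _⟩ => t8_476 f
  | ⟨36, _⟩ => t8_477 f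
  | ⟨37, _⟩ => t8_478 f
  | ⟨38, _⟩ => t8_479 f
  | ⟨39, _⟩ => t8_480 f
  | ⟨40, _⟩ => t8_481 f
  | ⟨41, _⟩ => t8_482 f
  | ⟨42, _⟩ => t8_483 f
  | ⟨43, _⟩ => t8_484 f
  | ⟨44, _⟩ => t8_485 f
  | ⟨45, _⟩ => t8_486 f
  | ⟨46, _⟩ => t8_487 f
  | ⟨47, _⟩ => t8_488 f
  | ⟨48, _⟩ => t8_489 f
  | ⟨49, _⟩ => t8_490 f
  | ⟨50, _⟩ => t8_491 f
  | ⟨51, _⟩ => t8_492 f
  | ⟨52, _⟩ => t8_493 f
  | ⟨53, _⟩ => t8_494 f
  | ⟨54, _⟩ => t8_495 f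
  | ⟨55, _⟩ => t8_496 f
  | ⟨56, _⟩ => t8_497 f
  | ⟨57, _⟩ => t8_498 f
  | ⟨58, _⟩ => t8_499 f
  | ⟨59, _⟩ => t8_500 f
  | ⟨60, _⟩ => t8_501 f
  | ⟨61, _⟩ => t8_502 f
  | ⟨62, _⟩ => t8_503 f
  | ⟨n+63, h⟩ => absurd h (by omega)
theorem Φ_rep_ch : ∀ (a : Fin 8) (b : Fin 63), Φ f (rep_ch a b) = q f (M8_ch a b)
  | ⟨0, _⟩ => Φ_rep_c0 f
  | ⟨1, _⟩ => Φ_rep_c1 f
  | ⟨2, _⟩ => Φ_rep_c2 f
  | ⟨3, _⟩ => Φ_rep_c3 f
  | ⟨4, _⟩ => Φ_rep_c4 f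
  | ⟨5, _⟩ => Φ_rep_c5 f
  | ⟨6, _⟩ => Φ_rep_c6 f
  | ⟨7, _⟩ => Φ_rep_c7 f
  | ⟨n+8, h⟩ => absurd h (by omega)
theorem Φ_rep (i : Idx) : Φ f (rep i) = q f (M8 i) :=
  Φ_rep_ch f i.1 i.2

theorem Φ_rep_inj : ∀ i j : Idx, Φ f (rep i) = Φ f (rep j) → i = j := by
  intro i j h
  rw [Φ_rep, Φ_rep] at h
  have h0 := q_inj f h
  have h1 := dec8_M8 i
  rw [h0, dec8_M8 j] at h1
  have hi := i.2.isLt
  have hj := j.2.isLt
  apply Prod.ext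
  · apply Fin.ext; omega
  · apply Fin.ext; omega

theorem Φ_inj : Function.Injective (Φ f) := by
  rw [injective_iff_map_eq_one]
  intro p hp
  obtain ⟨i, rfl⟩ := rep_surj p
  rw [Φ_rep] at hp
  obtain ⟨h1, h2, h3⟩ := q_scalar f _ hp
  rw [ker8 i h1 h2 h3]
  rfl

end target8

theorem rep_inj : Function.Injective rep := by
  intro i j h
  exact Φ_rep_inj (RingHom.id F8) i j (by rw [h])

theorem card_P : Nat.card P = 504 := by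
  rw [← Nat.card_congr (Equiv.ofBijective rep ⟨rep_inj, rep_surj⟩), Nat.card_prod, Nat.card_fin,
    Nat.card_fin]

instance finite_P : Finite P := Finite.of_surjective rep rep_surj

theorem card_PSL28 {L : Type*} [Field L] [Fintype L] (hL : Fintype.card L = 8) :
    Nat.card (Matrix.ProjectiveSpecialLinearGroup (Fin 2) L) = 504 := by
  have h := Cfsg.Agent.Lib.Helper5.SL2Card.card_PSL_two hL
  norm_num at h
  omega

/-- The presented group is `PSL(2, 8)`. -/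
theorem iso_PSL {L : Type*} [Field L] [Fintype L] (hL : Fintype.card L = 8) :
    Nonempty (P ≃* Matrix.ProjectiveSpecialLinearGroup (Fin 2) L) := by
  classical
  let f8 : F8 →+* L := (FiniteField.ringEquivOfCardEq (F8.card.trans hL.symm)).toRingHom
  have hfin : Finite (Matrix.ProjectiveSpecialLinearGroup (Fin 2) L) :=
    Nat.finite_of_card_ne_zero (by rw [card_PSL28 hL]; norm_num)
  have hb : Function.Bijective (Φ f8) :=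
    (Φ_inj f8).bijective_of_nat_card_le (by rw [card_PSL28 hL, card_P])
  exact ⟨MulEquiv.ofBijective (Φ f8) hb⟩

end Cfsg.Agent.Lib.Helper56.P504
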