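import Cfsg.Agent.Lib.Helper46.PsuStmt

set_option autoImplicit false

/-! Piece IW of S5172 (helper56): the permutation matrix reversing the first `n / 2` and the last
`n / 2` indices lies in `GJ`, is block diagonal for `lamW`, and `UJ ∩ w⁻¹ UJ w ≤ QW`. -/

namespace Cfsg.Agent.Lib.Helper56.PsuIW

open Matrix Cfsg.Agent.Lib.Helper43.SUBase Cfsg.Agent.H84.PslDefs Cfsg.Agent.Lib.Helper46.PsuDefs

universe u

/-- reversal of the first `n / 2` indices -/
def s1fun (n : ℕ) (i : Fin n) : Fin n :=
  if h : i.val < n / 2 then ⟨n / 2 - 1 - i.val, by omega⟩ else i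

theorem s1fun_val (n : ℕ) (i : Fin n) :
    (s1fun n i).val = if i.val < n / 2 then n / 2 - 1 - i.val else i.val := by
  unfold s1fun
  split_ifs <;> rfl

theorem s1fun_invol (n : ℕ) : Function.Involutive (s1fun n) := by
  intro i
  apply Fin.ext
  have h1 := s1fun_val n i
  have h2 := s1fun_val n (s1fun n i)
  split_ifs at h1 h2 <;> omega

/-- reversal of the first `n / 2` indices, as a permutation -/
def s1 (n : ℕ) : Equiv.Perm (Fin n) := (s1fun_invol n).toPerm

/-- reversal of the first `n / 2` and of the last `n / 2` indices -/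
def sg (n : ℕ) : Equiv.Perm (Fin n) := s1 n * (Fin.revPerm * s1 n * Fin.revPerm)

theorem sg_val (n : ℕ) (i : Fin n) : (sg n i).val =
    if i.val < n / 2 then n / 2 - 1 - i.val else if i.val < n - n / 2 then i.val
      else 2 * n - n / 2 - 1 - i.val := by
  have e : sg n i = s1fun n (Fin.rev (s1fun n (Fin.rev i))) := rfl
  rw [e]
  have h1 := s1fun_val n (Fin.rev i)
  have h2 := s1fun_val n (Fin.rev (s1fun n (Fin.rev i)))
  simp only [Fin.val_rev] at h1 h2
  have := i.isLt
  split_ifs at h1 h2 ⊢ <;> omega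

theorem sg_sg (n : ℕ) (i : Fin n) : sg n (sg n i) = i := by
  apply Fin.ext
  have h1 := sg_val n i
  have h2 := sg_val n (sg n i)
  have := i.isLt
  split_ifs at h1 h2 <;> omega

theorem sg_rev (n : ℕ) (i : Fin n) : sg n (Fin.rev i) = Fin.rev (sg n i) := by
  apply Fin.ext
  have h1 := sg_val n i
  have h2 := sg_val n (Fin.rev i)
  simp only [Fin.val_rev] at h2 ⊢
  have := i.isLt
  split_ifs at h1 h2 <;> omega

theorem sg_sign (n : ℕ) : Equiv.Perm.sign (sg n) = 1 := by
  unfold sg
  rw [Equiv.Perm.sign_mul, Equiv.Perm.sign_mul, Equiv.Perm.sign_mul]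
  have h1 := Int.units_mul_self (Equiv.Perm.sign (s1 n))
  have h2 := Int.units_mul_self (Equiv.Perm.sign (Fin.revPerm : Equiv.Perm (Fin n)))
  calc Equiv.Perm.sign (s1 n) * (Equiv.Perm.sign (Fin.revPerm : Equiv.Perm (Fin n)) *
        Equiv.Perm.sign (s1 n) * Equiv.Perm.sign (Fin.revPerm : Equiv.Perm (Fin n)))
      = (Equiv.Perm.sign (s1 n) * Equiv.Perm.sign (s1 n)) *
        (Equiv.Perm.sign (Fin.revPerm : Equiv.Perm (Fin n)) *
          Equiv.Perm.sign (Fin.revPerm : Equiv.Perm (Fin n))) := by ac_rfl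
    _ = 1 := by rw [h1, h2, one_mul]

theorem lamW_sg (n : ℕ) (i : Fin n) : lamW n (sg n i) = lamW n i := by
  have e := sg_val n i
  have := i.isLt
  simp only [lamW]
  split_ifs at e ⊢ <;> first | rfl | omega

/-- the permutation matrix -/
def wM (n : ℕ) (K : Type u) [Field K] : Matrix (Fin n) (Fin n) K := (sg n).permMatrix K

theorem wM_apply (n : ℕ) (K : Type u) [Field K] (i j : Fin n) :
    wM n K i j = if sg n i = j then 1 else 0 := by
  simp [wM, Equiv.Perm.permMatrix, PEquiv.toMatrix_apply, Equiv.toPEquiv_apply]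

theorem wM_det (n : ℕ) (K : Type u) [Field K] : (wM n K).det = 1 := by
  rw [wM, Matrix.det_permutation, sg_sign]
  simp

theorem wM_mul (n : ℕ) (K : Type u) [Field K] (M : Matrix (Fin n) (Fin n) K) (i j : Fin n) :
    (wM n K * M) i j = M (sg n i) j := by
  rw [Matrix.mul_apply, Finset.sum_eq_single (sg n i)]
  · rw [wM_apply, if_pos rfl, one_mul]
  · intro b _ hb
    rw [wM_apply, if_neg (Ne.symm hb), zero_mul]
  · intro h
    exact absurd (Finset.mem_univ _) h

theorem mul_wM (n : ℕ) (K : Type u) [Field K] (M : Matrix (Fin n) (Fin n) K) (i j : Fin n) :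
    (M * wM n K) i j = M i (sg n j) := by
  rw [Matrix.mul_apply, Finset.sum_eq_single (sg n j)]
  · rw [wM_apply, sg_sg, if_pos rfl, mul_one]
  · intro b _ hb
    rw [wM_apply, if_neg, mul_zero]
    intro h
    apply hb
    rw [← h, sg_sg]
  · intro h
    exact absurd (Finset.mem_univ _) h

/-- the permutation matrix as an element of `SL_n(K)` -/
def wS (n : ℕ) (K : Type u) [Field K] : SpecialLinearGroup (Fin n) K := ⟨wM n K, wM_det n K⟩

theorem main : Cfsg.Agent.Lib.Helper46.PsuStmt.IntW.{u} := by
  intro n K _ _ q D hn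
  have hww : wM n K * wM n K = 1 := by
    ext i j
    rw [wM_mul, wM_apply, Matrix.one_apply, sg_sg]
  have hadj : adjJ D n (wM n K) = wM n K := by
    ext i j
    rw [adjJ_apply, wM_apply, wM_apply, sg_rev]
    by_cases h : sg n i = j
    · have h' : Fin.rev (sg n j) = Fin.rev i := by rw [← h, sg_sg]
      rw [if_pos h, if_pos h', map_one]
    · have h' : ¬ Fin.rev (sg n j) = Fin.rev i := by
        intro h2
        apply h
        have h3 := Fin.rev_injective h2
        rw [← h3, sg_sg]
      rw [if_neg h, if_neg h', map_zero]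
  refine ⟨wS n K, ?_, ?_, ?_⟩
  · show adjJ D n (wM n K) * wM n K = 1
    rw [hadj, hww]
  · intro i j hlt
    show wM n K i j = 0
    rw [wM_apply, if_neg]
    intro h
    have h2 := lamW_sg n i
    rw [h] at h2
    omega
  · intro u hu hconj
    set w : SpecialLinearGroup (Fin n) K := wS n K with hw
    have hinv : w⁻¹ = w := by
      apply inv_eq_of_mul_eq_one_right
      apply Subtype.ext
      exact hww
    rw [hinv] at hconj
    have hent : ∀ a b : Fin n, (w * u * w) a b = u (sg n a) (sg n b) := by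
      intro a b
      show (wM n K * (u : Matrix (Fin n) (Fin n) K) * wM n K) a b = _
      rw [mul_wM, wM_mul]
    rw [mem_UJ] at hu hconj
    rw [mem_QW]
    refine ⟨hu.1, ?_, hu.2.2⟩
    intro i j hne h1 h2
    rcases lt_or_gt_of_ne hne with hij | hji
    · have hv : i.val < j.val := hij
      have hlt : sg n j < sg n i := by
        show (sg n j).val < (sg n i).val
        have e1 := sg_val n i
        have e2 := sg_val n j
        have := j.isLt
        split_ifs at e1 e2 <;> omega
      have h3 := hconj.2.1 (sg n i) (sg n j) hlt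
      rw [hent, sg_sg, sg_sg] at h3
      exact h3
    · exact hu.2.1 i j hji

end Cfsg.Agent.Lib.Helper56.PsuIW
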