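import Mathlib

set_option autoImplicit false

/-!
# One step of a verified stabilizer chain (Schreier's lemma, certificate form)

`K = closure S` acts on `α`, `H ≤ K` fixes the base point `b`, `U` is a list of coset
representatives with pairwise distinct images of `b`, containing `1`, and every Schreier
generator `u'⁻¹ * (g * u)` (`g ∈ S`, `u ∈ U`, `u'` the matching representative) lies in `H`.
Then `K = U · H`, `H` is the stabilizer of `b` in `K`, and `|K| = |U| · |H|`.
-/

namespace Cfsg.Agent.Lib.Helper56.Schreier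

variable {G : Type*} [Group G] [Finite G] {α : Type*} [MulAction G α]

/-- Every element of `closure S` lies in some coset `u H`, `u ∈ U`. -/
theorem cover (S : Set G) (H : Subgroup G) (U : List G) (h1 : (1 : G) ∈ U)
    (hS : ∀ g ∈ S, ∀ u ∈ U, ∃ u' ∈ U, u'⁻¹ * (g * u) ∈ H) :
    ∀ k ∈ Subgroup.closure S, ∃ u ∈ U, u⁻¹ * k ∈ H := by
  intro k hk
  rw [← Subgroup.mem_toSubmonoid, Subgroup.closure_toSubmonoid_of_finite] at hk
  induction hk using Submonoid.closure_induction_left with
  | one => exact ⟨1, h1, by simp⟩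
  | mul_left g hg y hy ih =>
    obtain ⟨u, hu, huy⟩ := ih
    obtain ⟨u', hu', hu'g⟩ := hS g hg u hu
    refine ⟨u', hu', ?_⟩
    have : u'⁻¹ * (g * y) = (u'⁻¹ * (g * u)) * (u⁻¹ * y) := by group
    rw [this]
    exact H.mul_mem hu'g huy

/-- The images of the base point under `closure S` are the images under `U`. -/
theorem orbit (S : Set G) (H : Subgroup G) (b : α) (U : List G) (h1 : (1 : G) ∈ U)
    (hS : ∀ g ∈ S, ∀ u ∈ U, ∃ u' ∈ U, u'⁻¹ * (g * u) ∈ H)
    (hH : ∀ h ∈ H, h • b = b) :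
    ∀ k ∈ Subgroup.closure S, ∃ u ∈ U, k • b = u • b := by
  intro k hk
  obtain ⟨u, hu, huk⟩ := cover S H U h1 hS k hk
  refine ⟨u, hu, ?_⟩
  have h2 := hH _ huk
  rw [mul_smul] at h2
  calc k • b = u • (u⁻¹ • (k • b)) := (smul_inv_smul u _).symm
    _ = u • b := by rw [h2]

/-- `H` contains the stabilizer of the base point in `closure S`. -/
theorem stab (S : Set G) (H : Subgroup G) (b : α) (U : List G) (h1 : (1 : G) ∈ U)
    (hS : ∀ g ∈ S, ∀ u ∈ U, ∃ u' ∈ U, u'⁻¹ * (g * u) ∈ H)
    (hH : ∀ h ∈ H, h • b = b) (hnd : (U.map (fun u => u • b)).Nodup) :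
    ∀ k ∈ Subgroup.closure S, k • b = b → k ∈ H := by
  intro k hk hkb
  obtain ⟨u, hu, huk⟩ := cover S H U h1 hS k hk
  have h2 := hH _ huk
  rw [mul_smul, hkb] at h2
  have h3 : u • b = (1 : G) • b := by
    rw [one_smul]
    calc u • b = u • (u⁻¹ • b) := by rw [h2]
      _ = b := smul_inv_smul u b
  have hu1 : u = 1 := List.inj_on_of_nodup_map hnd hu h1 h3
  rw [hu1] at huk
  simpa using huk

/-- `|closure S| = |U| · |H|`. -/
theorem card (S : Set G) (H : Subgroup G) (b : α) (U : List G) (h1 : (1 : G) ∈ U)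
    (hS : ∀ g ∈ S, ∀ u ∈ U, ∃ u' ∈ U, u'⁻¹ * (g * u) ∈ H)
    (hH : ∀ h ∈ H, h • b = b) (hnd : (U.map (fun u => u • b)).Nodup)
    (hHK : H ≤ Subgroup.closure S) (hU : ∀ u ∈ U, u ∈ Subgroup.closure S) :
    Nat.card (Subgroup.closure S) = U.length * Nat.card H := by
  have hUnd : U.Nodup := List.Nodup.of_map _ hnd
  let f : Fin U.length × H → Subgroup.closure S := fun x =>
    ⟨U.get x.1 * (x.2 : G), mul_mem (hU _ (List.get_mem U x.1)) (hHK x.2.2)⟩
  have hinj : Function.Injective f := by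
    rintro ⟨j, h⟩ ⟨j', h'⟩ hjj
    have e : U.get j * (h : G) = U.get j' * (h' : G) := congrArg Subtype.val hjj
    have e2 : U.get j • b = U.get j' • b := by
      have := congrArg (fun g : G => g • b) e
      simp only [mul_smul, hH _ h.2, hH _ h'.2] at this
      exact this
    have e3 : U.get j = U.get j' :=
      List.inj_on_of_nodup_map hnd (List.get_mem U j) (List.get_mem U j') e2
    have e4 : j = j' := (List.Nodup.get_inj_iff hUnd).mp e3
    subst e4
    have e5 : (h : G) = h' := mul_left_cancel e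
    rw [Subtype.ext e5]
  have hsurj : Function.Surjective f := by
    rintro ⟨k, hk⟩
    obtain ⟨u, hu, huk⟩ := cover S H U h1 hS k hk
    obtain ⟨j, rfl⟩ := List.mem_iff_get.mp hu
    refine ⟨(j, ⟨_, huk⟩), ?_⟩
    apply Subtype.ext
    show U.get j * ((U.get j)⁻¹ * k) = k
    group
  have := Nat.card_congr (Equiv.ofBijective f ⟨hinj, hsurj⟩)
  rw [← this, Nat.card_prod, Nat.card_fin]

end Cfsg.Agent.Lib.Helper56.Schreier
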